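import Cfsg.Agent.Lib.LocalEven.DihedralQuot
import Cfsg.Agent.Lib.LocalEven.PMinimal2
import Cfsg.Agent.Lib.TwoGroups.Present
import Mathlib.GroupTheory.Perm.Cycle.Type

/-! Involvement of dihedral groups of order `2p`. -/

namespace Cfsg.Agent.Lib.LocalEven

open Cfsg Cfsg.Agent.Lib.Basic

variable {G : Type*} [Group G] {p : ℕ} [Fact p.Prime]

/-- A `2`-element acting by conjugation on a set of odd size has a fixed point. -/
theorem exists_fixed_conj_odd [Finite G] (z : G) (k : ℕ) (hz : orderOf z = 2 ^ k) (F : Set G)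
    (hF : ∀ v ∈ F, z * v * z⁻¹ ∈ F) (hodd : Odd (Nat.card F)) : ∃ v ∈ F, z * v * z⁻¹ = v := by
  classical
  haveI : Fact (Nat.Prime 2) := ⟨Nat.prime_two⟩
  haveI : Fintype ↥F := Fintype.ofFinite _
  let f : Function.End ↥F := fun v => ⟨z * v * z⁻¹, hF v v.2⟩
  have hpow : ∀ n : ℕ, ∀ v : ↥F, (((f ^ n : Function.End ↥F) v : ↥F) : G) = z ^ n * v * (z ^ n)⁻¹ := by
    intro n
    induction n with
    | zero =>
      intro v
      show (v : G) = z ^ 0 * v * (z ^ 0)⁻¹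
      simp
    | succ n ih =>
      intro v
      rw [pow_succ']
      show z * (((f ^ n : Function.End ↥F) v : ↥F) : G) * z⁻¹ = _
      rw [ih v, pow_succ']
      group
  have hf : f ^ 2 ^ k = 1 := by
    funext v
    apply Subtype.ext
    rw [hpow, ← hz, pow_orderOf_eq_one]
    show 1 * (v : G) * 1⁻¹ = v
    simp
  have h1 := Equiv.Perm.card_fixedPoints_modEq hf
  by_contra hno
  push Not at hno
  have h2 : Fintype.card (Function.fixedPoints f) = 0 := by
    rw [Fintype.card_eq_zero_iff]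
    constructor
    rintro ⟨v, hv⟩
    exact hno v v.2 (congrArg Subtype.val hv)
  rw [h2] at h1
  rw [Nat.card_eq_fintype_card] at hodd
  have h3 : 2 ∣ Fintype.card ↥F := (Nat.modEq_zero_iff_dvd).1 h1
  exact (Nat.not_even_iff_odd.2 hodd) (even_iff_two_dvd.2 h3)

theorem invert_algebra {x v : G} (h : x * (x * v * x⁻¹) * x⁻¹ = v) :
    x * (v * (x * v * x⁻¹)⁻¹) * x⁻¹ = (v * (x * v * x⁻¹)⁻¹)⁻¹ := by
  have h1 : x * (x * v⁻¹ * x⁻¹) * x⁻¹ = v⁻¹ := by
    have : x * (x * v⁻¹ * x⁻¹) * x⁻¹ = (x * (x * v * x⁻¹) * x⁻¹)⁻¹ := by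
      simp [mul_assoc]
    rw [this, h]
  calc x * (v * (x * v * x⁻¹)⁻¹) * x⁻¹ = (x * v * x⁻¹) * (x * (x * v⁻¹ * x⁻¹) * x⁻¹) := by group
    _ = (x * v * x⁻¹) * v⁻¹ := by rw [h1]
    _ = (v * (x * v * x⁻¹)⁻¹)⁻¹ := by group

/-- The rotations. -/
def rotSub (p : ℕ) : Subgroup (DihedralGroup p) where
  carrier := {g | ∃ i, g = DihedralGroup.r i}
  mul_mem' := by
    rintro _ _ ⟨i, rfl⟩ ⟨j, rfl⟩
    exact ⟨i + j, by simp⟩
  one_mem' := ⟨0, rfl⟩
  inv_mem' := by
    rintro _ ⟨i, rfl⟩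
    exact ⟨-i, by simp⟩

instance rotSub_normal (p : ℕ) : (rotSub p).Normal := by
  constructor
  rintro _ ⟨i, rfl⟩ g
  cases g with
  | r j => exact ⟨j + i - j, by simp⟩
  | sr j => exact ⟨-i, by simp [DihedralGroup.sr_mul_r, DihedralGroup.sr_mul_sr]⟩

theorem isPGroup_rotSub : IsPGroup p ↥(rotSub p) := by
  rintro ⟨_, i, rfl⟩
  refine ⟨1, ?_⟩
  apply Subtype.ext
  show (DihedralGroup.r i) ^ (p ^ 1) = 1
  rw [pow_one, DihedralGroup.r_pow]
  have : ((p : ℕ) : ZMod p) = 0 := ZMod.natCast_self p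
  simp [this]

theorem exists_invert_of_surj_dihedral {X : Type*} [Group X] [Finite X] (hp2 : p ≠ 2)
    (f : X →* DihedralGroup p) (hf : Function.Surjective f) :
    ∃ x y : X, (∃ k, orderOf x = 2 ^ k) ∧ (∃ k, orderOf y = p ^ k) ∧ y ≠ 1 ∧ x * y * x⁻¹ = y⁻¹ := by
  have hp : p.Prime := Fact.out
  haveI : Fact (Nat.Prime 2) := ⟨Nat.prime_two⟩
  haveI : NeZero p := ⟨hp.ne_zero⟩
  set L := (rotSub p).comap f with hL
  haveI hLn : L.Normal := Subgroup.Normal.comap inferInstance f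
  obtain ⟨P⟩ : Nonempty (Sylow p ↥L) := inferInstance
  set P' := (P : Subgroup L).map L.subtype with hP'
  have hP'p : IsPGroup p P' := P.isPGroup'.map _
  have hP'L : P' ≤ L := by
    rintro _ ⟨v, _, rfl⟩; exact v.2
  have hnP : ¬ p ∣ P'.relIndex L := sylow_relIndex_not_dvd P
  -- Frattini
  obtain ⟨u, hu⟩ := hf (DihedralGroup.sr 0)
  have hcjL : cj u L = L := cj_eq_of_mem_normalizer (by
    rw [Subgroup.normalizer_eq_top_iff.2 hLn]; trivial)
  have h1 : cj u P' ≤ L := by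
    have := cj_mono (g := u) hP'L
    rwa [hcjL] at this
  have h2 : ¬ p ∣ (cj u P').relIndex L := by
    have h4 : (cj u P').relIndex (cj u L) = P'.relIndex L := relIndex_conj P' L u
    rw [hcjL] at h4
    rw [h4]
    exact hnP
  obtain ⟨l, hl, hle⟩ := exists_conj_of_relIndex (R := L) hP'L h1 hP'p (isPGroup_cj hP'p u) hnP h2
  have hn : l⁻¹ * u ∈ Subgroup.normalizer (P' : Set X) := by
    apply mem_normalizer_of_cj_eq
    rw [cj_mul]
    have h6 : cj u P' = cj l P' := hle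
    rw [h6, cj_inv_cj]
  set n := l⁻¹ * u with hndef
  obtain ⟨i, hi⟩ := hl
  have hfn : ∃ j, f n = DihedralGroup.sr j := by
    rw [hndef, map_mul, map_inv, hi, hu]
    exact ⟨0 - (-i), by rw [DihedralGroup.inv_r, DihedralGroup.r_mul_sr]⟩
  obtain ⟨j, hj⟩ := hfn
  -- the 2-part
  obtain ⟨a, b, hab, ha, hb, ⟨k, hk⟩, hbo, -⟩ := exists_p_decomp (p := 2) n (isOfFinOrder_of_finite n)
  have hsq : DihedralGroup.sr j * DihedralGroup.sr j = (1 : DihedralGroup p) := by
    simp [DihedralGroup.sr_mul_sr]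
  have hfb : f b = 1 := by
    obtain ⟨c, hc⟩ := hb
    have hc' : f b = (DihedralGroup.sr j) ^ c := by
      rw [← hc]
      show f (n ^ c) = _
      rw [map_zpow, hj]
    have h3 : (f b) ^ 2 = 1 := by
      rw [hc', ← zpow_natCast, ← zpow_mul, mul_comm, zpow_mul, zpow_natCast, pow_two, hsq, one_zpow]
    have h4 : (f b) ^ orderOf b = 1 := by
      rw [← map_pow, pow_orderOf_eq_one, map_one]
    have h5 := Nat.dvd_gcd (orderOf_dvd_of_pow_eq_one h3) (orderOf_dvd_of_pow_eq_one h4)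
    rw [show Nat.gcd 2 (orderOf b) = 1 from hbo.symm] at h5
    exact orderOf_eq_one_iff.1 (Nat.dvd_one.1 h5)
  have hfa : f a = DihedralGroup.sr j := by
    have : f n = f a * f b := by rw [hab, map_mul]
    rw [hfb, mul_one] at this
    rw [← this, hj]
  have hanorm : a ∈ Subgroup.normalizer (P' : Set X) := by
    have h3 : Subgroup.zpowers n ≤ Subgroup.normalizer (P' : Set X) := by
      rw [Subgroup.zpowers_le]; exact hn
    exact h3 ha
  -- `P'` covers the rotations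
  let g : ↥L →* ↥(rotSub p) := (f.comp L.subtype).codRestrict (rotSub p) (fun x => x.2)
  have hg : Function.Surjective g := by
    rintro ⟨_, c, rfl⟩
    obtain ⟨w, hw⟩ := hf (DihedralGroup.r c)
    refine ⟨⟨w, ?_⟩, Subtype.ext hw⟩
    show f w ∈ rotSub p
    rw [hw]
    exact ⟨c, rfl⟩
  have hcover : ∃ w ∈ P', f w = DihedralGroup.r 1 := by
    have h1 : ((P.mapSurjective hg : Sylow p ↥(rotSub p)) : Subgroup ↥(rotSub p)) = ⊤ := by
      have := (P.mapSurjective hg).is_maximal' (Q := ⊤) (isPGroup_rotSub.of_equiv Subgroup.topEquiv.symm) le_top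
      exact this.symm
    rw [Sylow.coe_mapSurjective] at h1
    have h2 : (⟨DihedralGroup.r 1, 1, rfl⟩ : ↥(rotSub p)) ∈ (P : Subgroup L).map g := by
      rw [h1]; trivial
    obtain ⟨w, hw, hwe⟩ := h2
    exact ⟨w, ⟨w, hw, rfl⟩, congrArg Subtype.val hwe⟩
  obtain ⟨w, hwP, hw⟩ := hcover
  -- the fibre
  set F : Set X := {v | v ∈ P' ∧ f v = DihedralGroup.r 1} with hF
  set z := a * a with hz
  have hfz : f z = 1 := by
    rw [hz, map_mul, hfa, hsq]
  have hzN : z ∈ Subgroup.normalizer (P' : Set X) := Subgroup.mul_mem _ hanorm hanorm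
  have hFi : ∀ v ∈ F, z * v * z⁻¹ ∈ F := by
    rintro v ⟨hv1, hv2⟩
    refine ⟨(Subgroup.mem_normalizer_iff.1 hzN v).1 hv1, ?_⟩
    rw [map_mul, map_mul, map_inv, hfz, hv2]
    simp
  have hodd : Odd (Nat.card F) := by
    set Z := P' ⊓ f.ker with hZ
    have hZp : IsPGroup p Z := hP'p.to_le inf_le_left
    have e : ↥F ≃ ↥Z := Equiv.subtypeEquiv (Equiv.mulLeft w⁻¹) (by
      intro v
      simp only [Equiv.coe_mulLeft]
      constructor
      · rintro ⟨h3, h4⟩
        refine ⟨P'.mul_mem (P'.inv_mem hwP) h3, ?_⟩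
        show f (w⁻¹ * v) = 1
        rw [map_mul, map_inv, hw, h4]
        simp
      · rintro ⟨h3, h4⟩
        have h5 : v = w * (w⁻¹ * v) := by group
        constructor
        · rw [h5]; exact P'.mul_mem hwP h3
        · rw [h5, map_mul, hw, MonoidHom.mem_ker.1 h4, mul_one])
    rw [Nat.card_congr e]
    obtain ⟨c, hc⟩ := IsPGroup.iff_card.1 hZp
    rw [hc]
    apply Odd.pow
    exact hp.odd_of_ne_two hp2
  have hzo : ∃ c, orderOf z = 2 ^ c := by
    have h3 : z ^ 2 ^ k = 1 := by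
      rw [hz, ← pow_two, ← pow_mul, mul_comm, pow_mul, ← hk, pow_orderOf_eq_one, one_pow]
    obtain ⟨c, -, hc⟩ := (Nat.dvd_prime_pow Nat.prime_two).1 (orderOf_dvd_of_pow_eq_one h3)
    exact ⟨c, hc⟩
  obtain ⟨c, hc⟩ := hzo
  obtain ⟨v, ⟨hv1, hv2⟩, hvfix⟩ := exists_fixed_conj_odd z c hc F hFi hodd
  set y := v * (a * v * a⁻¹)⁻¹ with hy
  have hyP : y ∈ P' := P'.mul_mem hv1 (P'.inv_mem ((Subgroup.mem_normalizer_iff.1 hanorm v).1 hv1))
  refine ⟨a, y, ⟨k, hk⟩, orderOf_of_mem_isPGroup hP'p hyP, ?_, ?_⟩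
  · intro e
    have h3 : f y = DihedralGroup.r 2 := by
      rw [hy, map_mul, map_inv, map_mul, map_mul, map_inv, hv2, hfa]
      simp [DihedralGroup.sr_mul_r, DihedralGroup.sr_mul_sr, DihedralGroup.sr_mul_r]
      ring_nf
    rw [e, map_one] at h3
    have h4 : (0 : ZMod p) = 2 := DihedralGroup.r.inj h3
    exact two_ne_zero_zmod hp2 h4.symm
  · apply invert_algebra
    have e : a * (a * v * a⁻¹) * a⁻¹ = z * v * z⁻¹ := by rw [hz]; group
    rw [e, hvfix]

theorem card_sup_of_coprime [Finite G] {A B : Subgroup G} (h : A ≤ Subgroup.normalizer (B : Set G))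
    (hc : (Nat.card A).Coprime (Nat.card B)) : Nat.card ↥(A ⊔ B) = Nat.card A * Nat.card B := by
  apply Nat.dvd_antisymm (card_sup_dvd h)
  apply hc.mul_dvd_of_dvd_of_dvd
  · exact Subgroup.card_dvd_of_le le_sup_left
  · exact Subgroup.card_dvd_of_le le_sup_right

theorem card_zpowers_pow_prime {q : ℕ} (hq : q.Prime) {y : G} {k : ℕ} (hk : orderOf y = q ^ (k + 1)) :
    Nat.card (Subgroup.zpowers (y ^ q)) = q ^ k := by
  rw [Nat.card_zpowers, orderOf_pow_of_dvd hq.ne_zero (by rw [hk]; exact Dvd.intro_left (q ^ k) (by rw [pow_succ])), hk, pow_succ,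
    Nat.mul_div_cancel _ hq.pos]

theorem involves_of_invert [Finite G] (hp2 : p ≠ 2) {x y : G} {m k : ℕ} (hx : orderOf x = 2 ^ m)
    (hy : orderOf y = p ^ k) (hy1 : y ≠ 1) (hxy : x * y * x⁻¹ = y⁻¹) :
    Involves (DihedralGroup p) G := by
  have hp : p.Prime := Fact.out
  haveI : NeZero p := ⟨hp.ne_zero⟩
  have hx1 : x ≠ 1 := by
    rintro rfl
    apply hy1
    have h1 : y * y = 1 := by
      have h2 : y = y⁻¹ := by simpa using hxy
      nth_rewrite 1 [h2]
      simp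
    have h3 : y ^ 2 = 1 := by rw [pow_two, h1]
    have h4 := orderOf_dvd_of_pow_eq_one h3
    rw [hy] at h4
    have h5 : Nat.Coprime (p ^ k) 2 := Nat.Coprime.pow_left k ((Nat.coprime_primes hp Nat.prime_two).2 hp2)
    have h6 := Nat.Coprime.eq_one_of_dvd h5 h4
    rw [← hy] at h6
    exact orderOf_eq_one_iff.1 h6
  obtain ⟨k', rfl⟩ : ∃ k', k = k' + 1 := by
    refine Nat.exists_eq_succ_of_ne_zero ?_
    rintro rfl
    rw [pow_zero] at hy
    exact hy1 (orderOf_eq_one_iff.1 hy)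
  obtain ⟨m', rfl⟩ : ∃ m', m = m' + 1 := by
    refine Nat.exists_eq_succ_of_ne_zero ?_
    rintro rfl
    rw [pow_zero] at hx
    exact hx1 (orderOf_eq_one_iff.1 hx)
  have hcop : Nat.Coprime p 2 := (Nat.coprime_primes hp Nat.prime_two).2 hp2
  set A := Subgroup.zpowers y with hA
  set B := Subgroup.zpowers x with hB
  set A₀ := Subgroup.zpowers (y ^ p) with hA₀
  set B₀ := Subgroup.zpowers (x ^ 2) with hB₀
  have hcA : Nat.card A = p ^ (k' + 1) := by rw [hA, Nat.card_zpowers, hy]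
  have hcB : Nat.card B = 2 ^ (m' + 1) := by rw [hB, Nat.card_zpowers, hx]
  have hcA₀ : Nat.card A₀ = p ^ k' := card_zpowers_pow_prime hp hy
  have hcB₀ : Nat.card B₀ = 2 ^ m' := card_zpowers_pow_prime Nat.prime_two hx
  have hcpq : ∀ a b : ℕ, Nat.Coprime (p ^ a) (2 ^ b) := fun a b => Nat.Coprime.pow a b hcop
  -- conjugation rules
  have hxyk : ∀ n : ℤ, x * y ^ n * x⁻¹ = y⁻¹ ^ n := by
    intro n
    rw [← hxy]
    exact (MulAut.conj x).toMonoidHom.map_zpow y n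
  have hcomm : x ^ 2 * y = y * x ^ 2 := by
    have h1 : x * x * y * x⁻¹ * x⁻¹ = y := by
      have h2 : x * (x * y * x⁻¹) * x⁻¹ = y := by
        rw [hxy]
        have := hxy
        have h3 : x * y⁻¹ * x⁻¹ = (x * y * x⁻¹)⁻¹ := by group
        rw [h3, hxy, inv_inv]
      calc x * x * y * x⁻¹ * x⁻¹ = x * (x * y * x⁻¹) * x⁻¹ := by simp [mul_assoc]
        _ = y := h2
    calc x ^ 2 * y = (x * x * y * x⁻¹ * x⁻¹) * x ^ 2 := by
          rw [pow_two]; simp [mul_assoc]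
      _ = y * x ^ 2 := by rw [h1]
  have hBA : B ≤ Subgroup.normalizer (A : Set G) := by
    rw [hB, Subgroup.zpowers_le]
    apply mem_normalizer_of_cj_eq
    show (Subgroup.zpowers y).map (MulAut.conj x).toMonoidHom = Subgroup.zpowers y
    rw [MonoidHom.map_zpowers]
    show Subgroup.zpowers (x * y * x⁻¹) = _
    rw [hxy, Subgroup.zpowers_inv]
  have hB₀A₀ : B₀ ≤ Subgroup.normalizer (A₀ : Set G) := by
    rw [hB₀, Subgroup.zpowers_le]
    apply mem_normalizer_of_cj_eq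
    show (Subgroup.zpowers (y ^ p)).map (MulAut.conj (x ^ 2)).toMonoidHom = Subgroup.zpowers (y ^ p)
    rw [MonoidHom.map_zpowers]
    show Subgroup.zpowers (x ^ 2 * y ^ p * (x ^ 2)⁻¹) = _
    have h1 : x ^ 2 * y ^ p = y ^ p * x ^ 2 := ((Commute.pow_right hcomm p)).eq
    rw [h1]
    simp
  have hB₀A : B₀ ≤ Subgroup.normalizer (A : Set G) := by
    rw [hB₀, Subgroup.zpowers_le]
    exact Subgroup.pow_mem _ (hBA (Subgroup.mem_zpowers x)) 2
  set K := A ⊔ B with hK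
  set R := A₀ ⊔ B₀ with hR
  have hcK : Nat.card K = p ^ (k' + 1) * 2 ^ (m' + 1) := by
    rw [hK, sup_comm, card_sup_of_coprime hBA (by rw [hcA, hcB]; exact (hcpq _ _).symm), hcA, hcB, mul_comm]
  have hcR : Nat.card R = p ^ k' * 2 ^ m' := by
    rw [hR, sup_comm, card_sup_of_coprime hB₀A₀ (by rw [hcA₀, hcB₀]; exact (hcpq _ _).symm), hcA₀, hcB₀, mul_comm]
  have hA₀A : A₀ ≤ A := by
    rw [hA₀, Subgroup.zpowers_le]
    exact Subgroup.pow_mem _ (Subgroup.mem_zpowers y) p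
  have hB₀B : B₀ ≤ B := by
    rw [hB₀, Subgroup.zpowers_le]
    exact Subgroup.pow_mem _ (Subgroup.mem_zpowers x) 2
  have hRK : R ≤ K := sup_le (hA₀A.trans le_sup_left) (hB₀B.trans le_sup_right)
  have hzn : ∀ (g a : G), (g * a * g⁻¹ = a ∨ g * a * g⁻¹ = a⁻¹) →
      g ∈ Subgroup.normalizer ((Subgroup.zpowers a : Subgroup G) : Set G) := by
    intro g a h
    apply mem_normalizer_of_cj_eq
    show (Subgroup.zpowers a).map (MulAut.conj g).toMonoidHom = Subgroup.zpowers a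
    rw [MonoidHom.map_zpowers]
    show Subgroup.zpowers (g * a * g⁻¹) = _
    rcases h with h | h
    · rw [h]
    · rw [h, Subgroup.zpowers_inv]
  have hsupn : ∀ (g : G) (C D : Subgroup G), g ∈ Subgroup.normalizer (C : Set G) →
      g ∈ Subgroup.normalizer (D : Set G) → g ∈ Subgroup.normalizer ((C ⊔ D : Subgroup G) : Set G) := by
    intro g C D h1 h2
    apply mem_normalizer_of_cj_eq
    have h3 : cj g (C ⊔ D) = cj g C ⊔ cj g D := Subgroup.map_sup _ _ _
    rw [h3, cj_eq_of_mem_normalizer h1, cj_eq_of_mem_normalizer h2]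
  have hKN : K ≤ Subgroup.normalizer (R : Set G) := by
    apply sup_le
    · rw [hA, Subgroup.zpowers_le]
      apply hsupn
      · apply hzn
        left
        have : y * y ^ p = y ^ p * y := (Commute.pow_right (Commute.refl y) p).eq
        rw [this]
        simp
      · apply hzn
        left
        rw [← hcomm]
        simp
    · rw [hB, Subgroup.zpowers_le]
      apply hsupn
      · apply hzn
        right
        have := (MulAut.conj x).toMonoidHom.map_pow y p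
        have h2 : (MulAut.conj x).toMonoidHom (y ^ p) = x * y ^ p * x⁻¹ := rfl
        have h3 : (MulAut.conj x).toMonoidHom y = x * y * x⁻¹ := rfl
        rw [h2, h3, hxy] at this
        rw [this, inv_pow]
      · apply hzn
        left
        have : x * x ^ 2 = x ^ 2 * x := (Commute.pow_right (Commute.refl x) 2).eq
        rw [this]
        simp
  haveI hRn : (R.subgroupOf K).Normal := Subgroup.normal_subgroupOf_of_le_normalizer hKN
  have hyK : y ∈ K := Subgroup.mem_sup_left (Subgroup.mem_zpowers y)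
  have hxK : x ∈ K := Subgroup.mem_sup_right (Subgroup.mem_zpowers x)
  set Y : ↥K := ⟨y, hyK⟩ with hY
  set X : ↥K := ⟨x, hxK⟩ with hX
  have hmem1 : ∀ a : ↥K, (a : G) ∈ R → QuotientGroup.mk' (R.subgroupOf K) a = 1 := by
    intro a ha
    rw [← MonoidHom.mem_ker, QuotientGroup.ker_mk']
    exact ha
  have hmem2 : ∀ a : ↥K, QuotientGroup.mk' (R.subgroupOf K) a = 1 → (a : G) ∈ R := by
    intro a ha
    rw [← MonoidHom.mem_ker, QuotientGroup.ker_mk'] at ha
    exact ha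
  set ρ := QuotientGroup.mk' (R.subgroupOf K) Y with hρ
  set σ := QuotientGroup.mk' (R.subgroupOf K) X with hσ
  have hyp : y ^ p ∈ R := Subgroup.mem_sup_left (Subgroup.mem_zpowers _)
  have hx2 : x ^ 2 ∈ R := Subgroup.mem_sup_right (Subgroup.mem_zpowers _)
  have hyR : y ∉ R := by
    intro h
    have h1 : A ≤ R := by
      rw [hA, Subgroup.zpowers_le]; exact h
    have h2 := Subgroup.card_dvd_of_le h1
    rw [hcA, hcR] at h2
    have h3 : p ^ (k' + 1) ∣ p ^ k' := (hcpq _ _).dvd_of_dvd_mul_right h2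
    have h4 := (Nat.pow_dvd_pow_iff_le_right hp.one_lt).1 h3
    omega
  have hρp : ρ ^ p = 1 := by
    rw [hρ, ← map_pow]
    exact hmem1 _ hyp
  have hρ1 : ρ ≠ 1 := fun e => hyR (hmem2 _ e)
  have hρo : orderOf ρ = p := orderOf_eq_prime hρp hρ1
  have hσσ : σ * σ = 1 := by
    rw [hσ, ← map_mul]
    apply hmem1
    show x * x ∈ R
    rw [← pow_two]
    exact hx2
  have hσρ : σ * ρ * σ⁻¹ = ρ⁻¹ := by
    rw [hσ, hρ, ← map_mul, ← map_inv, ← map_mul, ← map_inv]
    congr 1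
    apply Subtype.ext
    exact hxy
  have hσz : σ ∉ Subgroup.zpowers ρ := by
    rintro ⟨i, hi⟩
    have h1 : (Y ^ i)⁻¹ * X ∈ R.subgroupOf K := by
      apply QuotientGroup.eq.1
      have h2 : QuotientGroup.mk' (R.subgroupOf K) (Y ^ i) = σ := by
        rw [map_zpow]
        exact hi
      exact h2
    have h3 : x ∈ A ⊔ B₀ := by
      have h4 : ((Y ^ i)⁻¹ * X : ↥K).1 ∈ R := h1
      have h5 : x = (Y ^ i : ↥K).1 * ((Y ^ i)⁻¹ * X : ↥K).1 := by
        show x = ((Y ^ i * ((Y ^ i)⁻¹ * X) : ↥K) : G)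
        rw [mul_inv_cancel_left]
      rw [h5]
      apply Subgroup.mul_mem
      · apply Subgroup.mem_sup_left
        show y ^ i ∈ A
        exact Subgroup.zpow_mem _ (Subgroup.mem_zpowers y) i
      · exact (sup_le (hA₀A.trans le_sup_left) le_sup_right : R ≤ A ⊔ B₀) h4
    have h6 : B ≤ A ⊔ B₀ := by
      rw [hB, Subgroup.zpowers_le]; exact h3
    have h7 := Subgroup.card_dvd_of_le h6
    have h8 : Nat.card ↥(A ⊔ B₀) ∣ Nat.card B₀ * Nat.card A := by
      rw [sup_comm]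
      exact card_sup_dvd hB₀A
    have h9 := h7.trans h8
    rw [hcB, hcB₀, hcA] at h9
    have h10 : 2 ^ (m' + 1) ∣ 2 ^ m' := ((hcpq _ _).symm).dvd_of_dvd_mul_right h9
    have h11 := (Nat.pow_dvd_pow_iff_le_right Nat.one_lt_two).1 h10
    omega
  have hcard : Nat.card (↥K ⧸ R.subgroupOf K) = 2 * p := by
    have h1 := Subgroup.card_eq_card_quotient_mul_card_subgroup (R.subgroupOf K)
    have h2 : Nat.card (R.subgroupOf K) = Nat.card R :=
      Nat.card_congr (Subgroup.subgroupOfEquivOfLe hRK).toEquiv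
    rw [h2, hcR, hcK] at h1
    have h3 : 0 < p ^ k' * 2 ^ m' := Nat.mul_pos (pow_pos hp.pos _) (by positivity)
    apply Nat.eq_of_mul_eq_mul_right h3
    rw [← h1]
    ring
  exact ⟨K, R, hRn, Cfsg.Agent.Lib.TwoGroups.nonempty_mulEquiv_dihedral_of ρ σ hρo hσσ hσρ hσz hcard⟩

theorem invert_of_normalizes [Finite G] (hp2 : p ≠ 2) {x : G} {P : Subgroup G}
    (hx : ∃ k, orderOf x = 2 ^ k) (hP : IsPGroup p P) (hxN : x ∈ Subgroup.normalizer (P : Set G))
    (hxC : x ∉ Subgroup.centralizer (P : Set G)) :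
    ∃ x y : G, (∃ k, orderOf x = 2 ^ k) ∧ (∃ k, orderOf y = p ^ k) ∧ y ≠ 1 ∧ x * y * x⁻¹ = y⁻¹ := by
  have hp : p.Prime := Fact.out
  obtain ⟨k₀, hk₀⟩ := hx
  have hex : ∃ k, x ^ 2 ^ k ∈ Subgroup.centralizer (P : Set G) := ⟨k₀, by
    rw [← hk₀, pow_orderOf_eq_one]; exact Subgroup.one_mem _⟩
  classical
  set k := Nat.find hex with hk
  have hkc : x ^ 2 ^ k ∈ Subgroup.centralizer (P : Set G) := Nat.find_spec hex
  have hk0 : k ≠ 0 := by
    intro e
    rw [e, pow_zero, pow_one] at hkc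
    exact hxC hkc
  obtain ⟨j, hj⟩ := Nat.exists_eq_succ_of_ne_zero hk0
  have hjc : x ^ 2 ^ j ∉ Subgroup.centralizer (P : Set G) := Nat.find_min hex (by omega)
  set x₁ := x ^ 2 ^ j with hx₁
  have hx₁o : ∃ c, orderOf x₁ = 2 ^ c := by
    have h3 : x₁ ^ 2 ^ k₀ = 1 := by
      rw [hx₁, ← pow_mul, mul_comm, pow_mul, ← hk₀, pow_orderOf_eq_one, one_pow]
    obtain ⟨c, -, hc⟩ := (Nat.dvd_prime_pow Nat.prime_two).1 (orderOf_dvd_of_pow_eq_one h3)
    exact ⟨c, hc⟩
  have hx₁N : x₁ ∈ Subgroup.normalizer (P : Set G) := Subgroup.pow_mem _ hxN _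
  rw [Subgroup.mem_centralizer_iff] at hjc
  push Not at hjc
  obtain ⟨v, hv, hvne⟩ := hjc
  have hsq : x₁ * (x₁ * v * x₁⁻¹) * x₁⁻¹ = v := by
    have h1 : x₁ * x₁ = x ^ 2 ^ k := by
      rw [hj, pow_succ, pow_mul, pow_two]
    have h2 := Subgroup.mem_centralizer_iff.1 hkc v hv
    rw [← h1] at h2
    calc x₁ * (x₁ * v * x₁⁻¹) * x₁⁻¹ = (x₁ * x₁) * v * (x₁ * x₁)⁻¹ := by simp [mul_assoc]
      _ = v := by rw [← h2, mul_inv_cancel_right]
  set y := v * (x₁ * v * x₁⁻¹)⁻¹ with hy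
  have hyP : y ∈ P := P.mul_mem hv (P.inv_mem ((Subgroup.mem_normalizer_iff.1 hx₁N v).1 hv))
  refine ⟨x₁, y, hx₁o, orderOf_of_mem_isPGroup hP hyP, ?_, invert_algebra hsq⟩
  intro e
  apply hvne
  have h1 : v = x₁ * v * x₁⁻¹ := by
    rw [hy, mul_inv_eq_one] at e
    exact e
  have h2 : v * x₁ = x₁ * v := by
    nth_rewrite 1 [h1]
    group
  exact h2

theorem main_S2758 [Finite G] (hp : p ≠ 2) :
    (Involves (DihedralGroup p) G ↔ ∃ (x : G) (P : Subgroup G), (∃ k : ℕ, orderOf x = 2 ^ k) ∧ IsPGroup p ↥P ∧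
      x ∈ Subgroup.normalizer (P : Set G) ∧ x ∉ Subgroup.centralizer (P : Set G)) ∧
    (Involves (DihedralGroup p) G ↔ ∃ x y : G, (∃ k : ℕ, orderOf x = 2 ^ k) ∧ (∃ k : ℕ, orderOf y = p ^ k) ∧
      y ≠ 1 ∧ x * y * x⁻¹ = y⁻¹) := by
  have hpp : p.Prime := Fact.out
  have hAC : Involves (DihedralGroup p) G ↔ ∃ x y : G, (∃ k : ℕ, orderOf x = 2 ^ k) ∧ (∃ k : ℕ, orderOf y = p ^ k) ∧
      y ≠ 1 ∧ x * y * x⁻¹ = y⁻¹ := by
    constructor
    · rintro ⟨K, R, hR, ⟨e⟩⟩
      haveI := hR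
      let f : ↥K →* DihedralGroup p := e.toMonoidHom.comp (QuotientGroup.mk' (R.subgroupOf K))
      have hf : Function.Surjective f := e.surjective.comp (QuotientGroup.mk'_surjective _)
      obtain ⟨x, y, hx, hy, hy1, hxy⟩ := exists_invert_of_surj_dihedral hp f hf
      refine ⟨x, y, ?_, ?_, fun h => hy1 (Subtype.ext h), ?_⟩
      · rwa [Subgroup.orderOf_coe]
      · rwa [Subgroup.orderOf_coe]
      · exact congrArg Subtype.val hxy
    · rintro ⟨x, y, ⟨m, hm⟩, ⟨k, hk⟩, hy1, hxy⟩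
      exact involves_of_invert hp hm hk hy1 hxy
  refine ⟨?_, hAC⟩
  rw [hAC]
  constructor
  · rintro ⟨x, y, hx, ⟨k, hk⟩, hy1, hxy⟩
    refine ⟨x, Subgroup.zpowers y, hx, ?_, ?_, ?_⟩
    · intro a
      refine ⟨k, ?_⟩
      apply Subtype.ext
      obtain ⟨m, hm⟩ := a.2
      show (a : G) ^ p ^ k = 1
      rw [← hm]
      show (y ^ m) ^ p ^ k = 1
      rw [← zpow_natCast, ← zpow_mul, mul_comm, zpow_mul, zpow_natCast, ← hk, pow_orderOf_eq_one, one_zpow]
    · apply mem_normalizer_of_cj_eq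
      show (Subgroup.zpowers y).map (MulAut.conj x).toMonoidHom = Subgroup.zpowers y
      rw [MonoidHom.map_zpowers]
      show Subgroup.zpowers (x * y * x⁻¹) = _
      rw [hxy, Subgroup.zpowers_inv]
    · intro hc
      have h1 := Subgroup.mem_centralizer_iff.1 hc y (Subgroup.mem_zpowers y)
      have h2 : y = y⁻¹ := by
        rw [← hxy, ← h1]
        group
      have h3 : y ^ 2 = 1 := by
        rw [pow_two]
        nth_rewrite 1 [h2]
        simp
      have h4 := orderOf_dvd_of_pow_eq_one h3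
      rw [hk] at h4
      have h5 : Nat.Coprime (p ^ k) 2 := Nat.Coprime.pow_left k ((Nat.coprime_primes hpp Nat.prime_two).2 hp)
      have h6 := Nat.Coprime.eq_one_of_dvd h5 h4
      rw [← hk] at h6
      exact hy1 (orderOf_eq_one_iff.1 h6)
  · rintro ⟨x, P, hx, hP, hxN, hxC⟩
    exact invert_of_normalizes hp hx hP hxN hxC

end Cfsg.Agent.Lib.LocalEven
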