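/-
A Schreier--Sims certificate for the explicit Mathieu groups of degree 11 and 12 (helper23).
-/
import Mathlib

set_option autoImplicit false

namespace Cfsg.Agent.Lib.LocalEven.M12Cert

open Equiv MulAction

/-- Lookup in a list of naturals. -/
def lk (l : List ℕ) (i : ℕ) : ℕ := l.getD i 0

/-- Composition of list permutations. -/
def mulL (a b : List ℕ) : List ℕ := b.map (lk a)

/-- `l` is the list of values of `g`. -/
def Rep (g : Perm (Fin 12)) (l : List ℕ) : Prop :=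
  l.length = 12 ∧ ∀ i : Fin 12, lk l i.val = (g i).val

theorem lk_map (f : ℕ → ℕ) (b : List ℕ) (i : ℕ) (h : i < b.length) :
    lk (b.map f) i = f (lk b i) := by
  unfold lk
  rw [List.getD_eq_getElem _ _ (by simpa using h), List.getD_eq_getElem _ _ h]
  simp

theorem Rep.mul {g h : Perm (Fin 12)} {a b : List ℕ} (hg : Rep g a) (hh : Rep h b) :
    Rep (g * h) (mulL a b) := by
  refine ⟨by simpa [mulL] using hh.1, fun i => ?_⟩
  unfold mulL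
  rw [lk_map _ _ _ (by rw [hh.1]; exact i.2), hh.2 i, hg.2 (h i)]
  rfl

theorem Rep.inj {g h : Perm (Fin 12)} {l : List ℕ} (hg : Rep g l) (hh : Rep h l) : g = h := by
  ext i
  rw [← hg.2 i, hh.2 i]

theorem Rep.inv {g : Perm (Fin 12)} {l li : List ℕ} (hg : Rep g l) (hl : li.length = 12)
    (hi : ∀ i : Fin 12, lk li (lk l i.val) = i.val) : Rep g⁻¹ li := by
  refine ⟨hl, fun j => ?_⟩
  have h := hi (g⁻¹ j)
  rw [hg.2 (g⁻¹ j)] at h
  simpa using h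

/-- The identity. -/
def idL : List ℕ := List.range 12

theorem rep_one : Rep 1 idL := ⟨rfl, by decide⟩

/-- The generators. -/
def gS : Perm (Fin 12) := swap (3 : Fin 12) 5 * swap (3 : Fin 12) 4 * swap (6 : Fin 12) 8 *
  swap (6 : Fin 12) 7 * swap (9 : Fin 12) 11 * swap (9 : Fin 12) 10
/-- The generators. -/
def gT : Perm (Fin 12) := swap (3 : Fin 12) 9 * swap (3 : Fin 12) 6 * swap (4 : Fin 12) 10 *
  swap (4 : Fin 12) 7 * swap (5 : Fin 12) 11 * swap (5 : Fin 12) 8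
/-- The generators. -/
def gU : Perm (Fin 12) := swap (4 : Fin 12) 9 * swap (4 : Fin 12) 5 * swap (4 : Fin 12) 6 *
  swap (7 : Fin 12) 10 * swap (7 : Fin 12) 11 * swap (7 : Fin 12) 8
/-- The generators. -/
def gV : Perm (Fin 12) := swap (4 : Fin 12) 11 * swap (4 : Fin 12) 5 * swap (4 : Fin 12) 7 *
  swap (6 : Fin 12) 8 * swap (6 : Fin 12) 9 * swap (6 : Fin 12) 10
/-- The generators. -/
def gW : Perm (Fin 12) := swap (4 : Fin 12) 8 * swap (4 : Fin 12) 5 * swap (4 : Fin 12) 10 *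
  swap (6 : Fin 12) 7 * swap (6 : Fin 12) 9 * swap (6 : Fin 12) 11
/-- The generators. -/
def gX1 : Perm (Fin 12) := swap (0 : Fin 12) 3 * swap (6 : Fin 12) 7 * swap (8 : Fin 12) 10 *
  swap (9 : Fin 12) 11
/-- The generators. -/
def gX2 : Perm (Fin 12) := swap (0 : Fin 12) 1 * swap (6 : Fin 12) 9 * swap (7 : Fin 12) 10 *
  swap (8 : Fin 12) 11
/-- The generators. -/
def gX3 : Perm (Fin 12) := swap (1 : Fin 12) 2 * swap (6 : Fin 12) 11 * swap (7 : Fin 12) 9 *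
  swap (8 : Fin 12) 10

/-- The generators, indexed. -/
def gen : ℕ → Perm (Fin 12)
  | 0 => gS | 1 => gT | 2 => gU | 3 => gV | 4 => gW | 5 => gX1 | 6 => gX2 | 7 => gX3 | _ => 1

/-- The generators, as lists. -/
def genL : ℕ → List ℕ
  | 0 => [0, 1, 2, 4, 5, 3, 7, 8, 6, 10, 11, 9]
  | 1 => [0, 1, 2, 6, 7, 8, 9, 10, 11, 3, 4, 5]
  | 2 => [0, 1, 2, 3, 6, 9, 5, 8, 11, 4, 7, 10]
  | 3 => [0, 1, 2, 3, 7, 11, 10, 5, 6, 8, 9, 4]
  | 4 => [0, 1, 2, 3, 10, 8, 11, 6, 4, 7, 5, 9]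
  | 5 => [3, 1, 2, 0, 4, 5, 7, 6, 10, 11, 8, 9]
  | 6 => [1, 0, 2, 3, 4, 5, 9, 10, 11, 6, 7, 8]
  | 7 => [0, 2, 1, 3, 4, 5, 11, 9, 10, 7, 8, 6]
  | _ => idL

theorem rep_gen (n : ℕ) : Rep (gen n) (genL n) := by
  match n with
  | 0 => exact ⟨rfl, by decide⟩
  | 1 => exact ⟨rfl, by decide⟩
  | 2 => exact ⟨rfl, by decide⟩
  | 3 => exact ⟨rfl, by decide⟩
  | 4 => exact ⟨rfl, by decide⟩
  | 5 => exact ⟨rfl, by decide⟩
  | 6 => exact ⟨rfl, by decide⟩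
  | 7 => exact ⟨rfl, by decide⟩
  | _ + 8 => exact rep_one

/-- The value of a word. -/
def evW : List ℕ → Perm (Fin 12)
  | [] => 1
  | a :: w => gen a * evW w

/-- The value of a word, as a list. -/
def wordL : List ℕ → List ℕ
  | [] => idL
  | a :: w => mulL (genL a) (wordL w)

theorem rep_word (w : List ℕ) : Rep (evW w) (wordL w) := by
  induction w with
  | nil => exact rep_one
  | cons a w ih => exact (rep_gen a).mul ih

/-- The subgroup generated by the letters in a list. -/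
def HH (L : List ℕ) : Subgroup (Perm (Fin 12)) := Subgroup.closure (gen '' {a | a ∈ L})

theorem evW_mem {L w : List ℕ} (h : ∀ a ∈ w, a ∈ L) : evW w ∈ HH L := by
  induction w with
  | nil => exact (HH L).one_mem
  | cons a w ih =>
    exact (HH L).mul_mem (Subgroup.subset_closure ⟨a, h a (by simp), rfl⟩)
      (ih fun b hb => h b (by simp [hb]))

/-- An element of a transversal: a word, its value and the inverse of the value. -/
structure E where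
  /-- word -/
  w : List ℕ
  /-- value -/
  l : List ℕ
  /-- inverse value -/
  li : List ℕ

/-- Validity of a transversal entry. -/
def okE (L : List ℕ) (e : E) : Bool :=
  e.w.all (fun a => L.contains a) && wordL e.w == e.l && e.li.length == 12 &&
    (List.range 12).all fun i => lk e.li (lk e.l i) == i

theorem okE_rep {L : List ℕ} {e : E} (h : okE L e = true) :
    (∀ a ∈ e.w, a ∈ L) ∧ Rep (evW e.w) e.l ∧ Rep (evW e.w)⁻¹ e.li := by
  simp only [okE, Bool.and_eq_true, List.all_eq_true, beq_iff_eq, List.contains_iff_mem] at h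
  obtain ⟨⟨⟨h1, h2⟩, h3⟩, h4⟩ := h
  have hr : Rep (evW e.w) e.l := h2 ▸ rep_word e.w
  refine ⟨h1, hr, hr.inv h3 fun i => ?_⟩
  exact h4 i.val (by simpa using i.2)

/-- Sifting through a list of levels. -/
def sift : List (ℕ × List E) → List ℕ → Bool
  | [], y => y == idL
  | (b, T) :: L, y => T.any fun e => (lk e.l b == lk y b) && sift L (mulL e.li y)

/-- Validity of all entries on all levels. -/
def okLevels (A : List ℕ) (L : List (ℕ × List E)) : Bool :=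
  L.all fun x => x.2.all (okE A)

theorem sift_sound {A : List ℕ} {L : List (ℕ × List E)} (hL : okLevels A L = true)
    {g : Perm (Fin 12)} {y : List ℕ} (hy : Rep g y) (hs : sift L y = true) : g ∈ HH A := by
  induction L generalizing g y with
  | nil =>
    have : y = idL := by simpa [sift] using hs
    subst this
    rw [hy.inj rep_one]
    exact (HH A).one_mem
  | cons x L ih =>
    obtain ⟨b, T⟩ := x
    simp only [sift, List.any_eq_true, Bool.and_eq_true] at hs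
    obtain ⟨e, he, -, hs⟩ := hs
    simp only [okLevels, List.all_cons, Bool.and_eq_true, List.all_eq_true] at hL
    obtain ⟨h1, h2⟩ := hL
    obtain ⟨h3, h4, h5⟩ := okE_rep (h1 e he)
    have h6 := ih (by simpa [okLevels] using h2) (h5.mul hy) hs
    have h7 := (HH A).mul_mem (evW_mem h3) h6
    simpa using h7

/-- Elements of the product set of a transversal and a subgroup. -/
def TK (T : List E) (K : Subgroup (Perm (Fin 12))) (g : Perm (Fin 12)) : Prop :=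
  ∃ e ∈ T, ∃ k ∈ K, g = evW e.w * k

theorem TK_iterate {T : List E} {K : Subgroup (Perm (Fin 12))} {s : Perm (Fin 12)}
    (hs : ∀ g, TK T K g → TK T K (s * g)) (n : ℕ) (g : Perm (Fin 12)) (hg : TK T K g) :
    TK T K (s ^ n * g) := by
  induction n with
  | zero => simpa using hg
  | succ n ih =>
    rw [pow_succ', mul_assoc]
    exact hs _ ih

/-- The step of the certificate: left multiplication by the generators preserves `T K`. -/
theorem step {A B : List ℕ} {b : ℕ} {T : List E} {L : List (ℕ × List E)}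
    (hT : okLevels B L = true) (hE : T.all (okE A) = true)
    (h1 : ∃ e ∈ T, e.w = [])
    (hc : A.all (fun a => T.all fun e => sift ((b, T) :: L) (mulL (genL a) e.l)) = true) :
    ∀ g ∈ HH A, TK T (HH B) g := by
  have hmul : ∀ a ∈ A, ∀ g, TK T (HH B) g → TK T (HH B) (gen a * g) := by
    rintro a ha g ⟨e, he, k, hk, rfl⟩
    simp only [List.all_eq_true] at hc hE
    have h2 := hc a ha e he
    simp only [sift, List.any_eq_true, Bool.and_eq_true] at h2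
    obtain ⟨e', he', -, hs⟩ := h2
    obtain ⟨-, hr, -⟩ := okE_rep (hE e he)
    obtain ⟨-, -, hri⟩ := okE_rep (hE e' he')
    have h3 := sift_sound hT (hri.mul ((rep_gen a).mul hr)) hs
    refine ⟨e', he', _, (HH B).mul_mem h3 hk, ?_⟩
    group
  intro g hg
  induction hg using Subgroup.closure_induction_left with
  | one =>
    obtain ⟨e, he, h⟩ := h1
    exact ⟨e, he, 1, (HH B).one_mem, by simp [h, evW]⟩
  | mul_left x hx y _ hy =>
    obtain ⟨a, ha, rfl⟩ := hx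
    exact hmul a ha _ hy
  | inv_mul_cancel x hx y _ hy =>
    obtain ⟨a, ha, rfl⟩ := hx
    have h := TK_iterate (hmul a ha) (orderOf (gen a) - 1) y hy
    have h2 : (gen a)⁻¹ = gen a ^ (orderOf (gen a) - 1) := by
      rw [eq_comm, ← mul_eq_one_iff_eq_inv, ← pow_succ, Nat.sub_add_cancel (orderOf_pos _),
        pow_orderOf_eq_one]
    rw [h2]
    exact h

/-- Transversal of level 1 (base point 2). -/
def T1 : List E := [
  ⟨[], [0, 1, 2, 3, 4, 5, 6, 7, 8, 9, 10, 11], [0, 1, 2, 3, 4, 5, 6, 7, 8, 9, 10, 11]⟩,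
  ⟨[7], [0, 2, 1, 3, 4, 5, 11, 9, 10, 7, 8, 6], [0, 2, 1, 3, 4, 5, 11, 9, 10, 7, 8, 6]⟩,
  ⟨[6, 7], [1, 2, 0, 3, 4, 5, 8, 6, 7, 10, 11, 9], [2, 0, 1, 3, 4, 5, 7, 8, 6, 11, 9, 10]⟩,
  ⟨[5, 6, 7], [1, 2, 3, 0, 4, 5, 10, 7, 6, 8, 9, 11], [3, 0, 1, 2, 4, 5, 8, 7, 9, 10, 6, 11]⟩,
  ⟨[0, 5, 6, 7], [1, 2, 4, 0, 5, 3, 11, 8, 7, 6, 10, 9], [3, 0, 1, 5, 2, 4, 9, 8, 7, 11, 10, 6]⟩,
  ⟨[1, 5, 6, 7], [1, 2, 6, 0, 7, 8, 4, 10, 9, 11, 3, 5], [3, 0, 1, 10, 6, 11, 2, 4, 5, 8, 7, 9]⟩,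
  ⟨[0, 0, 5, 6, 7], [1, 2, 5, 0, 3, 4, 9, 6, 8, 7, 11, 10], [3, 0, 1, 4, 5, 2, 7, 9, 8, 6, 11, 10]⟩,
  ⟨[1, 0, 5, 6, 7], [1, 2, 7, 0, 8, 6, 5, 11, 10, 9, 4, 3], [3, 0, 1, 11, 10, 6, 5, 2, 4, 9, 8, 7]⟩,
  ⟨[1, 1, 5, 6, 7], [1, 2, 9, 0, 10, 11, 7, 4, 3, 5, 6, 8], [3, 0, 1, 8, 7, 9, 10, 6, 11, 2, 4, 5]⟩,
  ⟨[4, 0, 5, 6, 7], [1, 2, 10, 0, 8, 3, 9, 4, 6, 11, 5, 7], [3, 0, 1, 5, 7, 10, 8, 11, 4, 6, 2, 9]⟩,
  ⟨[4, 1, 5, 6, 7], [1, 2, 11, 0, 6, 4, 10, 5, 7, 9, 3, 8], [3, 0, 1, 10, 5, 7, 4, 8, 11, 9, 6, 2]⟩,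
  ⟨[1, 0, 0, 5, 6, 7], [1, 2, 8, 0, 6, 7, 3, 9, 11, 10, 5, 4], [3, 0, 1, 6, 11, 10, 4, 5, 2, 7, 9, 8]⟩]

/-- Transversal of level 2 (base point 1). -/
def T2 : List E := [
  ⟨[], [0, 1, 2, 3, 4, 5, 6, 7, 8, 9, 10, 11], [0, 1, 2, 3, 4, 5, 6, 7, 8, 9, 10, 11]⟩,
  ⟨[6], [1, 0, 2, 3, 4, 5, 9, 10, 11, 6, 7, 8], [1, 0, 2, 3, 4, 5, 9, 10, 11, 6, 7, 8]⟩,
  ⟨[5, 6], [1, 3, 2, 0, 4, 5, 11, 8, 9, 7, 6, 10], [3, 0, 2, 1, 4, 5, 10, 9, 7, 8, 11, 6]⟩,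
  ⟨[0, 5, 6], [1, 4, 2, 0, 5, 3, 9, 6, 10, 8, 7, 11], [3, 0, 2, 5, 1, 4, 7, 10, 9, 6, 8, 11]⟩,
  ⟨[1, 5, 6], [1, 6, 2, 0, 7, 8, 5, 11, 3, 10, 9, 4], [3, 0, 2, 8, 11, 6, 1, 4, 5, 10, 9, 7]⟩,
  ⟨[0, 0, 5, 6], [1, 5, 2, 0, 3, 4, 10, 7, 11, 6, 8, 9], [3, 0, 2, 4, 5, 1, 9, 7, 10, 11, 6, 8]⟩,
  ⟨[1, 0, 5, 6], [1, 7, 2, 0, 8, 6, 3, 9, 4, 11, 10, 5], [3, 0, 2, 6, 8, 11, 5, 1, 4, 7, 10, 9]⟩,
  ⟨[1, 1, 5, 6], [1, 9, 2, 0, 10, 11, 8, 5, 6, 4, 3, 7], [3, 0, 2, 10, 9, 7, 8, 11, 6, 1, 4, 5]⟩,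
  ⟨[4, 0, 5, 6], [1, 10, 2, 0, 8, 3, 7, 11, 5, 4, 6, 9], [3, 0, 2, 5, 9, 8, 10, 6, 4, 11, 1, 7]⟩,
  ⟨[4, 1, 5, 6], [1, 11, 2, 0, 6, 4, 8, 9, 3, 5, 7, 10], [3, 0, 2, 8, 5, 9, 4, 10, 6, 7, 11, 1]⟩,
  ⟨[1, 0, 0, 5, 6], [1, 8, 2, 0, 6, 7, 4, 10, 5, 9, 11, 3], [3, 0, 2, 11, 6, 8, 4, 5, 1, 9, 7, 10]⟩]

/-- Transversal of level 3 (base point 0). -/
def T3 : List E := [
  ⟨[], [0, 1, 2, 3, 4, 5, 6, 7, 8, 9, 10, 11], [0, 1, 2, 3, 4, 5, 6, 7, 8, 9, 10, 11]⟩,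
  ⟨[5], [3, 1, 2, 0, 4, 5, 7, 6, 10, 11, 8, 9], [3, 1, 2, 0, 4, 5, 7, 6, 10, 11, 8, 9]⟩,
  ⟨[0, 5], [4, 1, 2, 0, 5, 3, 8, 7, 11, 9, 6, 10], [3, 1, 2, 5, 0, 4, 10, 7, 6, 9, 11, 8]⟩,
  ⟨[1, 5], [6, 1, 2, 0, 7, 8, 10, 9, 4, 5, 11, 3], [3, 1, 2, 11, 8, 9, 0, 4, 5, 7, 6, 10]⟩,
  ⟨[0, 0, 5], [5, 1, 2, 0, 3, 4, 6, 8, 9, 10, 7, 11], [3, 1, 2, 4, 5, 0, 6, 10, 7, 8, 9, 11]⟩,
  ⟨[1, 0, 5], [7, 1, 2, 0, 8, 6, 11, 10, 5, 3, 9, 4], [3, 1, 2, 9, 11, 8, 5, 0, 4, 10, 7, 6]⟩,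
  ⟨[1, 1, 5], [9, 1, 2, 0, 10, 11, 4, 3, 7, 8, 5, 6], [3, 1, 2, 7, 6, 10, 11, 8, 9, 0, 4, 5]⟩,
  ⟨[4, 0, 5], [10, 1, 2, 0, 8, 3, 4, 6, 9, 7, 11, 5], [3, 1, 2, 5, 6, 11, 7, 9, 4, 8, 0, 10]⟩,
  ⟨[4, 1, 5], [11, 1, 2, 0, 6, 4, 5, 7, 10, 8, 9, 3], [3, 1, 2, 11, 5, 6, 4, 7, 9, 10, 8, 0]⟩,
  ⟨[1, 0, 0, 5], [8, 1, 2, 0, 6, 7, 9, 11, 3, 4, 10, 5], [3, 1, 2, 8, 9, 11, 4, 5, 0, 6, 10, 7]⟩]

/-- Transversal of level 4 (base point 3). -/
def T4 : List E := [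
  ⟨[], [0, 1, 2, 3, 4, 5, 6, 7, 8, 9, 10, 11], [0, 1, 2, 3, 4, 5, 6, 7, 8, 9, 10, 11]⟩,
  ⟨[0], [0, 1, 2, 4, 5, 3, 7, 8, 6, 10, 11, 9], [0, 1, 2, 5, 3, 4, 8, 6, 7, 11, 9, 10]⟩,
  ⟨[1], [0, 1, 2, 6, 7, 8, 9, 10, 11, 3, 4, 5], [0, 1, 2, 9, 10, 11, 3, 4, 5, 6, 7, 8]⟩,
  ⟨[0, 0], [0, 1, 2, 5, 3, 4, 8, 6, 7, 11, 9, 10], [0, 1, 2, 4, 5, 3, 7, 8, 6, 10, 11, 9]⟩,
  ⟨[1, 0], [0, 1, 2, 7, 8, 6, 10, 11, 9, 4, 5, 3], [0, 1, 2, 11, 9, 10, 5, 3, 4, 8, 6, 7]⟩,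
  ⟨[1, 1], [0, 1, 2, 9, 10, 11, 3, 4, 5, 6, 7, 8], [0, 1, 2, 6, 7, 8, 9, 10, 11, 3, 4, 5]⟩,
  ⟨[4, 0], [0, 1, 2, 10, 8, 3, 6, 4, 11, 5, 9, 7], [0, 1, 2, 5, 7, 9, 6, 11, 4, 10, 3, 8]⟩,
  ⟨[4, 1], [0, 1, 2, 11, 6, 4, 7, 5, 9, 3, 10, 8], [0, 1, 2, 9, 5, 7, 4, 6, 11, 8, 10, 3]⟩,
  ⟨[1, 0, 0], [0, 1, 2, 8, 6, 7, 11, 9, 10, 5, 3, 4], [0, 1, 2, 10, 11, 9, 4, 5, 3, 7, 8, 6]⟩]

/-- Transversal of level 5 (base point 4). -/
def T5 : List E := [
  ⟨[], [0, 1, 2, 3, 4, 5, 6, 7, 8, 9, 10, 11], [0, 1, 2, 3, 4, 5, 6, 7, 8, 9, 10, 11]⟩,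
  ⟨[2], [0, 1, 2, 3, 6, 9, 5, 8, 11, 4, 7, 10], [0, 1, 2, 3, 9, 6, 4, 10, 7, 5, 11, 8]⟩,
  ⟨[3], [0, 1, 2, 3, 7, 11, 10, 5, 6, 8, 9, 4], [0, 1, 2, 3, 11, 7, 8, 4, 9, 10, 6, 5]⟩,
  ⟨[4], [0, 1, 2, 3, 10, 8, 11, 6, 4, 7, 5, 9], [0, 1, 2, 3, 8, 10, 7, 9, 5, 11, 4, 6]⟩,
  ⟨[2, 2], [0, 1, 2, 3, 5, 4, 9, 11, 10, 6, 8, 7], [0, 1, 2, 3, 5, 4, 9, 11, 10, 6, 8, 7]⟩,
  ⟨[2, 3], [0, 1, 2, 3, 8, 10, 7, 9, 5, 11, 4, 6], [0, 1, 2, 3, 10, 8, 11, 6, 4, 7, 5, 9]⟩,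
  ⟨[3, 4], [0, 1, 2, 3, 9, 6, 4, 10, 7, 5, 11, 8], [0, 1, 2, 3, 6, 9, 5, 8, 11, 4, 7, 10]⟩,
  ⟨[4, 2], [0, 1, 2, 3, 11, 7, 8, 4, 9, 10, 6, 5], [0, 1, 2, 3, 7, 11, 10, 5, 6, 8, 9, 4]⟩]

theorem card_le_of_TK {A B : List ℕ} {T : List E} (h : ∀ g ∈ HH A, TK T (HH B) g) :
    Nat.card (HH A) ≤ T.length * Nat.card (HH B) := by
  classical
  let F : Fin T.length × HH B → Perm (Fin 12) := fun x => evW (T.get x.1).w * x.2.1
  have hsub : (HH A : Set (Perm (Fin 12))) ⊆ Set.range F := by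
    intro g hg
    obtain ⟨e, he, k, hk, rfl⟩ := h g hg
    obtain ⟨i, hi, rfl⟩ := List.mem_iff_getElem.mp he
    exact ⟨(⟨i, hi⟩, ⟨k, hk⟩), rfl⟩
  have h1 : Nat.card (HH A) = (HH A : Set (Perm (Fin 12))).ncard := by
    rw [← Nat.card_coe_set_eq]; rfl
  rw [h1]
  calc (HH A : Set (Perm (Fin 12))).ncard ≤ (Set.range F).ncard :=
        Set.ncard_le_ncard hsub (Set.toFinite _)
    _ ≤ Nat.card (Fin T.length × HH B) := by
        rw [← Set.image_univ]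
        refine (Set.ncard_image_le (Set.toFinite _)).trans ?_
        rw [Set.ncard_univ]
    _ = T.length * Nat.card (HH B) := by
        rw [Nat.card_prod, Nat.card_eq_fintype_card, Fintype.card_fin]

/-- The base. -/
def b5 : Fin 5 → Fin 12 := ![2, 1, 0, 3, 4]

/-- Embeddings agreeing with the base on the first `n` places are reached by `K`. -/
def QQ (n : ℕ) (K : Subgroup (Perm (Fin 12))) : Prop :=
  ∀ y : Fin 5 ↪ Fin 12, (∀ i : Fin 5, i.val < n → y i = b5 i) → ∃ g ∈ K, ∀ i, g (b5 i) = y i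

theorem QQ_step {n : ℕ} (hn : n < 5) {K K' : Subgroup (Perm (Fin 12))} (hKK : K ≤ K')
    (hQ : QQ (n + 1) K)
    (hT : ∀ c : Fin 12, (∀ i : Fin 5, i.val < n → c ≠ b5 i) → ∃ t ∈ K',
      (∀ i : Fin 5, i.val < n → t (b5 i) = b5 i) ∧ t (b5 ⟨n, hn⟩) = c) : QQ n K' := by
  intro y hy
  obtain ⟨t, ht, ht1, ht2⟩ := hT (y ⟨n, hn⟩) (fun i hi h => by
    have h2 : y ⟨n, hn⟩ = y i := h.trans (hy i hi).symm
    have h3 := y.injective h2
    have h4 : n = i.val := congrArg Fin.val h3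
    omega)
  let y' : Fin 5 ↪ Fin 12 := y.trans (t⁻¹ : Perm (Fin 12)).toEmbedding
  have hy' : ∀ i, y' i = t⁻¹ (y i) := fun i => rfl
  obtain ⟨g, hg, hg2⟩ := hQ y' (fun i hi => by
    rw [hy']
    rcases Nat.lt_succ_iff_lt_or_eq.mp hi with h | h
    · rw [hy i h, Perm.inv_eq_iff_eq, ht1 i h]
    · have : i = ⟨n, hn⟩ := Fin.ext h
      rw [this, Perm.inv_eq_iff_eq, ht2])
  refine ⟨t * g, K'.mul_mem ht (hKK hg), fun i => ?_⟩
  rw [Perm.mul_apply, hg2 i, hy']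
  simp

theorem hT_of_list {A : List ℕ} {T : List E} (hE : T.all (okE A) = true) {n : ℕ} (hn : n < 5)
    (h : ∀ c : Fin 12, (∀ i : Fin 5, i.val < n → c ≠ b5 i) → ∃ e ∈ T,
      (∀ i : Fin 5, i.val < n → lk e.l (b5 i).val = (b5 i).val) ∧
        lk e.l (b5 ⟨n, hn⟩).val = c.val) :
    ∀ c : Fin 12, (∀ i : Fin 5, i.val < n → c ≠ b5 i) → ∃ t ∈ HH A,
      (∀ i : Fin 5, i.val < n → t (b5 i) = b5 i) ∧ t (b5 ⟨n, hn⟩) = c := by
  intro c hc
  obtain ⟨e, he, h1, h2⟩ := h c hc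
  simp only [List.all_eq_true] at hE
  obtain ⟨h3, h4, -⟩ := okE_rep (hE e he)
  refine ⟨evW e.w, evW_mem h3, fun i hi => ?_, ?_⟩
  · apply Fin.ext
    rw [← h4.2, h1 i hi]
  · apply Fin.ext
    rw [← h4.2, h2]

/-- Letters of the levels. -/
def A1 : List ℕ := [0, 1, 2, 3, 4, 5, 6, 7]
/-- Letters of the levels. -/
def A2 : List ℕ := [0, 1, 2, 3, 4, 5, 6]
/-- Letters of the levels. -/
def A3 : List ℕ := [0, 1, 2, 3, 4, 5]
/-- Letters of the levels. -/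
def A4 : List ℕ := [0, 1, 2, 3, 4]
/-- Letters of the levels. -/
def A5 : List ℕ := [2, 3, 4]

theorem E1 : T1.all (okE A1) = true := by decide +kernel
theorem E2 : T2.all (okE A2) = true := by decide +kernel
theorem E3 : T3.all (okE A3) = true := by decide +kernel
theorem E4 : T4.all (okE A4) = true := by decide +kernel
theorem E5 : T5.all (okE A5) = true := by decide +kernel

theorem step5 : ∀ g ∈ HH A5, TK T5 (HH []) g :=
  step (b := 4) (L := []) (by decide +kernel) E5 (by decide +kernel) (by decide +kernel)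

theorem step4 : ∀ g ∈ HH A4, TK T4 (HH A5) g :=
  step (b := 3) (L := [(4, T5)]) (by decide +kernel) E4 (by decide +kernel) (by decide +kernel)

theorem step3 : ∀ g ∈ HH A3, TK T3 (HH A4) g :=
  step (b := 0) (L := [(3, T4), (4, T5)]) (by decide +kernel) E3 (by decide +kernel)
    (by decide +kernel)

theorem step2 : ∀ g ∈ HH A2, TK T2 (HH A3) g :=
  step (b := 1) (L := [(0, T3), (3, T4), (4, T5)]) (by decide +kernel) E2 (by decide +kernel)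
    (by decide +kernel)

theorem step1 : ∀ g ∈ HH A1, TK T1 (HH A2) g :=
  step (b := 2) (L := [(1, T2), (0, T3), (3, T4), (4, T5)]) (by decide +kernel) E1
    (by decide +kernel) (by decide +kernel)

theorem HH_nil : HH [] = ⊥ := by
  simp [HH]

theorem card_A5_le : Nat.card (HH A5) ≤ 8 := by
  have h := card_le_of_TK step5
  have h2 : T5.length = 8 := by decide +kernel
  rw [HH_nil, h2] at h
  simpa using h

theorem card_A4_le : Nat.card (HH A4) ≤ 72 := by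
  have h := card_le_of_TK step4
  have h2 : T4.length = 9 := by decide +kernel
  have := card_A5_le
  rw [h2] at h
  omega

theorem card_A3_le : Nat.card (HH A3) ≤ 720 := by
  have h := card_le_of_TK step3
  have h2 : T3.length = 10 := by decide +kernel
  have := card_A4_le
  rw [h2] at h
  omega

theorem card_A2_le : Nat.card (HH A2) ≤ 7920 := by
  have h := card_le_of_TK step2
  have h2 : T2.length = 11 := by decide +kernel
  have := card_A3_le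
  rw [h2] at h
  omega

theorem card_A1_le_mul : Nat.card (HH A1) ≤ 12 * Nat.card (HH A2) := by
  have h := card_le_of_TK step1
  have h2 : T1.length = 12 := by decide +kernel
  rwa [h2] at h

theorem HH_mono {A B : List ℕ} (h : ∀ a ∈ A, a ∈ B) : HH A ≤ HH B :=
  Subgroup.closure_mono (Set.image_mono fun a ha => h a ha)

theorem Q5 : QQ 5 (HH A5) := by
  intro y hy
  refine ⟨1, (HH A5).one_mem, fun i => ?_⟩
  rw [hy i i.2]
  rfl

theorem Q4 : QQ 4 (HH A5) :=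
  QQ_step (by norm_num) le_rfl Q5 (hT_of_list E5 (by norm_num) (by decide +kernel))

theorem Q3 : QQ 3 (HH A4) :=
  QQ_step (by norm_num) (HH_mono (by decide)) Q4 (hT_of_list E4 (by norm_num) (by decide +kernel))

theorem Q2 : QQ 2 (HH A3) :=
  QQ_step (by norm_num) (HH_mono (by decide)) Q3 (hT_of_list E3 (by norm_num) (by decide +kernel))

theorem Q1 : QQ 1 (HH A2) :=
  QQ_step (by norm_num) (HH_mono (by decide)) Q2 (hT_of_list E2 (by norm_num) (by decide +kernel))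

theorem Q0 : QQ 0 (HH A1) :=
  QQ_step (by norm_num) (HH_mono (by decide)) Q1 (hT_of_list E1 (by norm_num) (by decide +kernel))

theorem transitive_A1 : MulAction.IsMultiplyPretransitive (HH A1) (Fin 12) 5 := by
  rw [MulAction.isMultiplyPretransitive_iff]
  have key : ∀ y : Fin 5 ↪ Fin 12, ∃ g ∈ HH A1, ∀ i, g (b5 i) = y i := fun y =>
    Q0 y (fun i hi => absurd hi (Nat.not_lt_zero _))
  intro x y
  obtain ⟨g, hg, h1⟩ := key x
  obtain ⟨f, hf, h2⟩ := key y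
  refine ⟨⟨f * g⁻¹, (HH A1).mul_mem hf ((HH A1).inv_mem hg)⟩, ?_⟩
  apply Function.Embedding.ext
  intro i
  show (f * g⁻¹) (x i) = y i
  rw [← h1 i, Perm.mul_apply]
  simp [h2 i]

theorem card_emb : Nat.card (Fin 5 ↪ Fin 12) = 95040 := by
  rw [Nat.card_eq_fintype_card, Fintype.card_embedding_eq]
  simp

theorem card_stab_mul (y : Fin 5 ↪ Fin 12) :
    Nat.card (stabilizer (HH A1) y) * 95040 = Nat.card (HH A1) := by
  have h1 := Subgroup.card_mul_index (stabilizer (HH A1) y)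
  have h2 : (stabilizer (HH A1) y).index = 95040 := by
    rw [index_stabilizer]
    trans (Set.univ : Set (Fin 5 ↪ Fin 12)).ncard
    · congr 1
      apply Set.eq_univ_of_forall
      intro z
      obtain ⟨g, hg⟩ := (isMultiplyPretransitive_iff.mp transitive_A1) y z
      exact ⟨g, hg⟩
    · rw [Set.ncard_univ, card_emb]
  rwa [h2] at h1

theorem card_A1_ge : 95040 ≤ Nat.card (HH A1) := by
  rw [← card_stab_mul (Function.Embedding.mk b5 (by decide))]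
  have : 0 < Nat.card (stabilizer (HH A1) (Function.Embedding.mk b5 (by decide))) := Nat.card_pos
  omega

theorem card_A2 : Nat.card (HH A2) = 7920 := by
  have h1 := card_A1_ge
  have h2 := card_A1_le_mul
  have h3 := card_A2_le
  omega

theorem card_A1 : Nat.card (HH A1) = 95040 := by
  have h1 := card_A1_ge
  have h2 := card_A1_le_mul
  have h3 := card_A2_le
  omega

theorem stab_A1 (y : Fin 5 ↪ Fin 12) : stabilizer (HH A1) y = ⊥ := by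
  apply Subgroup.eq_bot_of_card_eq
  have h := card_stab_mul y
  rw [card_A1] at h
  omega

theorem A2_eq : HH A2 = HH A1 ⊓ stabilizer (Perm (Fin 12)) (2 : Fin 12) := by
  have hfix : HH A2 ≤ stabilizer (Perm (Fin 12)) (2 : Fin 12) := by
    refine (Subgroup.closure_le _).mpr ?_
    rintro _ ⟨a, ha, rfl⟩
    have h : ∀ a ∈ A2, gen a (2 : Fin 12) = 2 := by decide
    exact h a ha
  refine le_antisymm (le_inf (HH_mono (by decide)) hfix) ?_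
  rintro g ⟨hg1, hg2⟩
  obtain ⟨e, he, k, hk, rfl⟩ := step1 g hg1
  have hk2 : k (2 : Fin 12) = 2 := hfix hk
  have hg3 : (evW e.w * k) (2 : Fin 12) = 2 := hg2
  rw [Perm.mul_apply, hk2] at hg3
  have hE := E1
  simp only [List.all_eq_true] at hE
  obtain ⟨-, h4, -⟩ := okE_rep (hE e he)
  have h5 : lk e.l 2 = 2 := by
    have := h4.2 2
    rw [hg3] at this
    exact this
  have h6 : ∀ e ∈ T1, lk e.l 2 = 2 → e.w = [] := by decide +kernel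
  rw [h6 e he h5]
  simpa [evW] using hk

theorem closure_A1 : Subgroup.closure {gS, gT, gU, gV, gW, gX1, gX2, gX3} = HH A1 := by
  unfold HH A1
  congr 1
  ext x
  simp only [Set.mem_insert_iff, Set.mem_singleton_iff, Set.mem_image, Set.mem_ofPred_eq,
    List.mem_cons, List.not_mem_nil, or_false, exists_eq_or_imp, exists_eq_left]
  rw [show gen 0 = gS from rfl, show gen 1 = gT from rfl, show gen 2 = gU from rfl,
    show gen 3 = gV from rfl, show gen 4 = gW from rfl, show gen 5 = gX1 from rfl,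
    show gen 6 = gX2 from rfl, show gen 7 = gX3 from rfl]
  simp only [eq_comm]

theorem closure_A2 : Subgroup.closure {gS, gT, gU, gV, gW, gX1, gX2} = HH A2 := by
  unfold HH A2
  congr 1
  ext x
  simp only [Set.mem_insert_iff, Set.mem_singleton_iff, Set.mem_image, Set.mem_ofPred_eq,
    List.mem_cons, List.not_mem_nil, or_false, exists_eq_or_imp, exists_eq_left]
  rw [show gen 0 = gS from rfl, show gen 1 = gT from rfl, show gen 2 = gU from rfl,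
    show gen 3 = gV from rfl, show gen 4 = gW from rfl, show gen 5 = gX1 from rfl,
    show gen 6 = gX2 from rfl]
  simp only [eq_comm]

/-- The Mathieu groups of degree 12 and 11 in the explicit form. -/
theorem main_M12 :
    MulAction.IsMultiplyPretransitive
        (Subgroup.closure {gS, gT, gU, gV, gW, gX1, gX2, gX3}) (Fin 12) 5 ∧
      (∀ y : Fin 5 ↪ Fin 12,
        MulAction.stabilizer (Subgroup.closure {gS, gT, gU, gV, gW, gX1, gX2, gX3}) y = ⊥) ∧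
      Nat.card (Subgroup.closure {gS, gT, gU, gV, gW, gX1, gX2, gX3}) = 95040 ∧
      Nat.card (Subgroup.closure {gS, gT, gU, gV, gW, gX1, gX2}) = 7920 ∧
      Subgroup.closure {gS, gT, gU, gV, gW, gX1, gX2} =
        Subgroup.closure {gS, gT, gU, gV, gW, gX1, gX2, gX3} ⊓
          MulAction.stabilizer (Perm (Fin 12)) (2 : Fin 12) := by
  rw [closure_A1, closure_A2]
  exact ⟨transitive_A1, stab_A1, card_A1, card_A2, A2_eq⟩

end Cfsg.Agent.Lib.LocalEven.M12Cert
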