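/-
Hall `{2,3}`-subgroups of `PSL₂(q)` (helper23).
-/
import Mathlib
import Cfsg.Agent.Lib.LocalEven.PglMax4
import Cfsg.Prelude.Def_OddOrderLocal

set_option autoImplicit false
set_option linter.unusedSimpArgs false
set_option linter.unusedVariables false
set_option linter.unusedSectionVars false
set_option linter.style.haveILetI false

namespace Cfsg.Agent.Lib.LocalEven.PslHall

open Cfsg.Agent.Lib.Classical Cfsg.Agent.Lib.LocalEven.PslMax Cfsg.Agent.Lib.LocalEven.PslMax2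
  Cfsg.Agent.Lib.LocalEven.PslMax3 Cfsg.Agent.Lib.LocalEven.PslMax4 Cfsg.Agent.Lib.LocalEven.PglMax4 Matrix
open scoped MatrixGroups

section Num

/-- The `{2,3}`-part. -/
def Ap (m : ℕ) : ℕ := 2 ^ m.factorization 2 * 3 ^ m.factorization 3

theorem Ap_pos (m : ℕ) : 0 < Ap m := by
  unfold Ap
  positivity

/-- A number whose prime divisors are `2` and `3`. -/
def Is23 (x : ℕ) : Prop := ∀ r : ℕ, r.Prime → r ∣ x → r = 2 ∨ r = 3

theorem is23_pow (a b : ℕ) : Is23 (2 ^ a * 3 ^ b) := by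
  intro r hr h
  rcases (Nat.Prime.dvd_mul hr).1 h with h1 | h1
  · left
    exact (Nat.prime_dvd_prime_iff_eq hr Nat.prime_two).1 (hr.dvd_of_dvd_pow h1)
  · right
    exact (Nat.prime_dvd_prime_iff_eq hr Nat.prime_three).1 (hr.dvd_of_dvd_pow h1)

theorem coprime_of_is23 {x y : ℕ} (hx : Is23 x) (h2 : ¬ 2 ∣ y) (h3 : ¬ 3 ∣ y) : Nat.Coprime x y := by
  apply Nat.coprime_of_dvd
  intro r hr h1 h4
  rcases hx r hr h1 with rfl | rfl
  · exact h2 h4
  · exact h3 h4

theorem part_unique {X Y X' Y' : ℕ} (h : X * Y = X' * Y') (hX : Is23 X) (hX' : Is23 X') (hY2 : ¬ 2 ∣ Y) (hY3 : ¬ 3 ∣ Y)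
    (hY2' : ¬ 2 ∣ Y') (hY3' : ¬ 3 ∣ Y') : X = X' := by
  apply Nat.dvd_antisymm
  · exact (coprime_of_is23 hX hY2' hY3').dvd_of_dvd_mul_right ⟨Y, h.symm⟩
  · exact (coprime_of_is23 hX' hY2 hY3).dvd_of_dvd_mul_right ⟨Y', h⟩

theorem exists_compl (m : ℕ) (hm : m ≠ 0) : ∃ R : ℕ, m = Ap m * R ∧ ¬ 2 ∣ R ∧ ¬ 3 ∣ R := by
  have h2 := Nat.ordProj_mul_ordCompl_eq_self m 2
  set u := ordCompl[2] m with hu
  have h3 := Nat.ordProj_mul_ordCompl_eq_self u 3
  have hu0 : u ≠ 0 := by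
    rintro h
    rw [h, mul_zero] at h2
    exact hm h2.symm
  have hu2 : ¬ 2 ∣ u := Nat.not_dvd_ordCompl Nat.prime_two hm
  have hf3 : u.factorization 3 = m.factorization 3 := by
    rw [hu, Nat.factorization_ordCompl]
    simp
  have h3R : ¬ 3 ∣ u / 3 ^ m.factorization 3 := by
    have := Nat.not_dvd_ordCompl Nat.prime_three hu0
    rwa [hf3] at this
  rw [hf3] at h3
  refine ⟨u / 3 ^ m.factorization 3, ?_, ?_, h3R⟩
  · unfold Ap
    rw [mul_assoc, h3, h2]
  · intro h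
    apply hu2
    exact h.trans (Nat.div_dvd_of_dvd (by rw [← hf3]; exact Nat.ordProj_dvd u 3))

/-- The Hall property in terms of the order. -/
theorem hall_iff {G : Type*} [Group G] [Finite G] (H : Subgroup G) {q : ℕ} (hq2 : ¬ 2 ∣ q) (hq3 : ¬ 3 ∣ q) (hq1 : 2 ≤ q)
    (hG : 2 * Nat.card G = q * (q ^ 2 - 1)) :
    Cfsg.IsPiHall ({2, 3} : Set ℕ) H ↔ 2 * Nat.card H = Ap (q ^ 2 - 1) := by
  have hm0 : q ^ 2 - 1 ≠ 0 := by
    have : 4 ≤ q ^ 2 := by nlinarith
    omega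
  obtain ⟨R, hR, hR2, hR3⟩ := exists_compl (q ^ 2 - 1) hm0
  have hcard := Subgroup.card_mul_index H
  have hA : Is23 (Ap (q ^ 2 - 1)) := is23_pow _ _
  have hpos : 0 < Nat.card H := Nat.card_pos
  have hmul2 : ∀ {x y : ℕ}, x.Prime → x ∣ q * R → x = 2 ∨ x = 3 → False := by
    intro x y hx h1 h2
    rcases (Nat.Prime.dvd_mul hx).1 h1 with h3 | h3 <;> rcases h2 with rfl | rfl
    · exact hq2 h3
    · exact hq3 h3
    · exact hR2 h3
    · exact hR3 h3
  constructor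
  · rintro ⟨h1, h2⟩
    have e : (2 * Nat.card H) * H.index = Ap (q ^ 2 - 1) * (q * R) := by
      rw [mul_assoc, hcard, hG]
      nth_rw 1 [hR]
      ring
    apply part_unique e
    · intro r hr h3
      rcases (Nat.Prime.dvd_mul hr).1 h3 with h4 | h4
      · left
        exact (Nat.prime_dvd_prime_iff_eq hr Nat.prime_two).1 h4
      · have := h1 r hr h4
        simpa using this
    · exact hA
    · exact h2 2 Nat.prime_two (by simp)
    · exact h2 3 Nat.prime_three (by simp)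
    · intro h3
      exact hmul2 (y := 0) Nat.prime_two h3 (Or.inl rfl)
    · intro h3
      exact hmul2 (y := 0) Nat.prime_three h3 (Or.inr rfl)
  · intro h
    have e : H.index = q * R := by
      apply Nat.eq_of_mul_eq_mul_left (Ap_pos (q ^ 2 - 1))
      rw [← h, mul_assoc, hcard, hG]
      nth_rw 1 [hR]
      rw [h]
      ring
    constructor
    · intro r hr h1
      have h3 : r ∣ Ap (q ^ 2 - 1) := by
        rw [← h]
        exact h1.mul_left 2
      simpa using hA r hr h3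
    · intro r hr h1
      rw [e]
      intro h2
      exact hmul2 (y := 0) hr h2 (by simpa using h1)

theorem key_num {N N' h R : ℕ} (hh : 0 < h) (hNN : N * N' = 2 * h * R) (hdvd : h ∣ N) (hR2 : ¬ 2 ∣ R) (hR3 : ¬ 3 ∣ R) :
    ¬ 3 ∣ N' ∧ ¬ 4 ∣ N' := by
  obtain ⟨s, rfl⟩ := hdvd
  have e : s * N' = 2 * R := by
    apply Nat.eq_of_mul_eq_mul_left hh
    rw [← mul_assoc, hNN]
    ring
  constructor
  · intro h3
    have h4 : 3 ∣ 2 * R := by
      rw [← e]
      exact h3.mul_left s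
    exact hR3 ((Nat.Coprime.dvd_mul_left (by norm_num)).1 h4)
  · intro h3
    have h4 : 4 ∣ 2 * R := by
      rw [← e]
      exact h3.mul_left s
    apply hR2
    obtain ⟨c, hc⟩ := h4
    exact ⟨c, by omega⟩

theorem num_left (q : ℕ) (h3 : ¬ 3 ∣ q + 1) (h4 : ¬ 4 ∣ q + 1) (hq3 : ¬ 3 ∣ q) (hq2 : ¬ 2 ∣ q) (h5 : 5 ≤ q) :
    3 ∣ q - 1 ∧ q % 4 = 1 := by
  have h6 : q % 3 = 1 := by
    rw [Nat.dvd_iff_mod_eq_zero] at h3 hq3
    omega
  have h7 : q % 4 = 1 := by
    rw [Nat.dvd_iff_mod_eq_zero] at h4 hq2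
    omega
  refine ⟨?_, h7⟩
  rw [Nat.dvd_iff_mod_eq_zero]
  omega

theorem num_right (q : ℕ) (h3 : ¬ 3 ∣ q - 1) (h4 : ¬ 4 ∣ q - 1) (hq3 : ¬ 3 ∣ q) (hq2 : ¬ 2 ∣ q) (h5 : 5 ≤ q) :
    3 ∣ q + 1 ∧ q % 4 = 3 := by
  have h6 : q % 3 = 2 := by
    rw [Nat.dvd_iff_mod_eq_zero] at h3 hq3
    omega
  have h7 : q % 4 = 3 := by
    rw [Nat.dvd_iff_mod_eq_zero] at h4 hq2
    omega
  refine ⟨?_, h7⟩
  rw [Nat.dvd_iff_mod_eq_zero]
  omega

theorem num_three (q : ℕ) (hq3 : ¬ 3 ∣ q) : 3 ∣ q - 1 ∨ 3 ∣ q + 1 := by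
  omega

end Num

variable {F : Type*} [Field F] [Fintype F] {q : ℕ} (hF : Fintype.card F = q) (p : ℕ) [hp : Fact p.Prime] [CharP F p]

include hF in
/-- A dihedral Hall subgroup. -/
theorem hall_of_dih (hp5 : 5 ≤ p) (hodd : Odd q) (h5 : 5 ≤ q) (N N' : ℕ) (hN : N = q - 1 ∨ N = q + 1) (hNN : N * N' = q ^ 2 - 1)
    (hN'0 : N' ≠ 0) (h3 : ¬ 3 ∣ N') (h4 : N' % 4 = 2) : ∃ H : Subgroup (Pe F), 2 * Nat.card H = Ap (q ^ 2 - 1) := by
  classical
  obtain ⟨ρ, σ, ho, hσσ, hc, hn⟩ := exists_dih_data hF p N hN (by rcases hN with h | h <;> omega)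
  rw [gcd_two_odd (Nat.odd_iff.1 hodd)] at ho
  have hN0 : N ≠ 0 := by rcases hN with h | h <;> omega
  have hNeven : Even N := by
    obtain ⟨k, hk⟩ := hodd
    rcases hN with h | h
    · exact ⟨k, by omega⟩
    · exact ⟨k + 1, by omega⟩
  obtain ⟨n₀, hn₀⟩ := hNeven
  have hN2 : N / 2 = n₀ := by omega
  rw [hN2] at ho
  -- the factorisation
  have hf := Nat.factorization_mul hN0 hN'0
  rw [hNN] at hf
  have hf2 : (N').factorization 2 = 1 := by
    obtain ⟨u, hu⟩ : ∃ u, N' = 2 * u := ⟨N' / 2, by omega⟩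
    have hu2 : ¬ 2 ∣ u := by omega
    rw [hu, Nat.factorization_mul (by norm_num) (by omega), Finsupp.add_apply, Nat.Prime.factorization_self Nat.prime_two,
      Nat.factorization_eq_zero_of_not_dvd hu2]
  have hf3 : (N').factorization 3 = 0 := Nat.factorization_eq_zero_of_not_dvd h3
  set a := N.factorization 2 with ha
  set b := N.factorization 3 with hb
  have ha1 : 1 ≤ a := by
    apply (Nat.Prime.dvd_iff_one_le_factorization Nat.prime_two hN0).1
    rw [hn₀]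
    exact ⟨n₀, by omega⟩
  have hAp : Ap (q ^ 2 - 1) = 2 ^ (a + 1) * 3 ^ b := by
    unfold Ap
    rw [hf, Finsupp.add_apply, Finsupp.add_apply, hf2, hf3, add_zero]
  obtain ⟨a', ha'⟩ : ∃ a', a = a' + 1 := ⟨a - 1, by omega⟩
  rw [ha'] at hAp
  set k := 2 ^ a' * 3 ^ b with hk
  have hkdvd : k ∣ n₀ := by
    have h1 : 2 ^ (a' + 1) ∣ N := by
      rw [← ha', ha]
      exact Nat.ordProj_dvd N 2
    have h2 : 3 ^ b ∣ N := by
      rw [hb]
      exact Nat.ordProj_dvd N 3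
    have h3' : 2 ^ (a' + 1) * 3 ^ b ∣ N :=
      Nat.Coprime.mul_dvd_of_dvd_of_dvd (Nat.Coprime.pow _ _ (by norm_num)) h1 h2
    have h5' : 2 * k ∣ 2 * n₀ := by
      have e1 : 2 * k = 2 ^ (a' + 1) * 3 ^ b := by rw [hk]; ring
      have e2 : 2 * n₀ = N := by omega
      rw [e1, e2]
      exact h3'
    exact Nat.dvd_of_mul_dvd_mul_left (by norm_num) h5'
  obtain ⟨d, hd⟩ := hkdvd
  have hk0 : 0 < k := by
    rw [hk]
    positivity
  have hn₀0 : n₀ ≠ 0 := by omega
  have hd0 : d ≠ 0 := by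
    rintro rfl
    rw [mul_zero] at hd
    exact hn₀0 hd
  have ho1 : orderOf (ρ ^ d) = k := by
    rw [orderOf_pow_of_dvd hd0 (by rw [ho, hd]; exact Dvd.intro_left _ rfl), ho, hd]
    exact Nat.mul_div_cancel _ (Nat.pos_of_ne_zero hd0)
  have hc1 : σ * ρ ^ d * σ⁻¹ = (ρ ^ d)⁻¹ := by
    rw [← conj_pow, hc, inv_pow]
  have hn1 : σ ∉ Subgroup.zpowers (ρ ^ d) := by
    intro h
    apply hn
    have hle : Subgroup.zpowers (ρ ^ d) ≤ Subgroup.zpowers ρ :=
      Subgroup.zpowers_le.2 (Subgroup.npow_mem_zpowers _ _)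
    exact hle h
  obtain ⟨H₀, -, -, hcard, -⟩ := exists_dih_sub (ρ ^ d) σ ho1 hσσ hc1 hn1
  refine ⟨H₀, ?_⟩
  rw [hcard, hAp, hk]
  ring

include hF in
theorem Hall_main (hp5 : 5 ≤ p) :
    (∃ H : Subgroup (Matrix.ProjectiveSpecialLinearGroup (Fin 2) F), Cfsg.IsPiHall ({2, 3} : Set ℕ) H) ↔
      (3 ∣ q - 1 ∧ q % 4 = 1) ∨ (3 ∣ q + 1 ∧ q % 4 = 3) ∨
        2 ^ (q ^ 2 - 1).factorization 2 * 3 ^ (q ^ 2 - 1).factorization 3 = 24 ∨
        2 ^ (q ^ 2 - 1).factorization 2 * 3 ^ (q ^ 2 - 1).factorization 3 = 48 := by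
  classical
  obtain ⟨n, -, hn⟩ := FiniteField.card F p
  rw [hF] at hn
  have hpq : p ∣ q := by
    rw [hn]
    exact dvd_pow_self _ n.ne_zero
  have hp2 : ¬ 2 ∣ p := by
    intro h
    have := (Nat.prime_dvd_prime_iff_eq Nat.prime_two hp.out).1 h
    omega
  have hp3 : ¬ 3 ∣ p := by
    intro h
    have := (Nat.prime_dvd_prime_iff_eq Nat.prime_three hp.out).1 h
    omega
  have hq2 : ¬ 2 ∣ q := by
    rw [hn]
    exact fun h => hp2 (Nat.prime_two.dvd_of_dvd_pow h)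
  have hq3 : ¬ 3 ∣ q := by
    rw [hn]
    exact fun h => hp3 (Nat.prime_three.dvd_of_dvd_pow h)
  have hodd : Odd q := Nat.not_even_iff_odd.1 (fun h => hq2 h.two_dvd)
  have hq5 : 5 ≤ q := by
    have := Nat.le_of_dvd (by
      have : 0 < Fintype.card F := Fintype.card_pos
      omega) hpq
    omega
  have hG : 2 * Nat.card (Pe F) = q * (q ^ 2 - 1) := card_psl2_odd hF hodd
  have hfac : (q - 1) * (q + 1) = q ^ 2 - 1 := by
    obtain ⟨k, hk⟩ : ∃ k, q = k + 1 := ⟨q - 1, by omega⟩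
    subst hk
    rw [Nat.add_sub_cancel]
    apply (Nat.sub_eq_of_eq_add _).symm
    ring
  have hAp : ∀ H : Subgroup (Pe F), Cfsg.IsPiHall ({2, 3} : Set ℕ) H ↔ 2 * Nat.card H = Ap (q ^ 2 - 1) :=
    fun H => hall_iff H hq2 hq3 (by omega) hG
  have hm0 : q ^ 2 - 1 ≠ 0 := by
    rw [← hfac]
    exact Nat.mul_ne_zero (by omega) (by omega)
  obtain ⟨R, hR, hR2, hR3⟩ := exists_compl (q ^ 2 - 1) hm0
  constructor
  · rintro ⟨H, hH⟩
    have hcH := (hAp H).1 hH
    have hpr : ∀ r : ℕ, r.Prime → r ∣ Nat.card H → r = 2 ∨ r = 3 := by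
      intro r hr h
      simpa using hH.1 r hr h
    have hnop : ∀ g : H, g ≠ 1 → g ^ p ≠ 1 := by
      intro g hg1 hgp
      have h1 : orderOf g = p := orderOf_eq_prime hgp hg1
      have h2 : p ∣ Nat.card H := by
        rw [← h1]
        exact orderOf_dvd_natCard g
      rcases hpr p hp.out h2 with h | h <;> omega
    have hconcl : ∀ N N' : ℕ, (N = q - 1 ∧ N' = q + 1 ∨ N = q + 1 ∧ N' = q - 1) → Nat.card H ∣ N →
        (3 ∣ q - 1 ∧ q % 4 = 1) ∨ (3 ∣ q + 1 ∧ q % 4 = 3) := by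
      intro N N' hNN hd
      have e : N * N' = 2 * Nat.card H * R := by
        rw [hcH, ← hR, ← hfac]
        rcases hNN with ⟨rfl, rfl⟩ | ⟨rfl, rfl⟩
        · rfl
        · exact mul_comm _ _
      obtain ⟨h3, h4⟩ := key_num Nat.card_pos e hd hR2 hR3
      rcases hNN with ⟨rfl, rfl⟩ | ⟨rfl, rfl⟩
      · left
        exact num_left q h3 h4 hq3 hq2 hq5
      · right
        exact num_right q h3 h4 hq3 hq2 hq5
    have hlarge : ∃ r : H, r ≠ 1 ∧ Nat.card H ∣ 2 * orderOf r → True := ⟨1, fun _ => trivial⟩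
    have hnottriv : Nat.card H ≠ 1 := by
      intro h
      rw [h] at hcH
      have h3 : 3 ∣ Ap (q ^ 2 - 1) * R := by
        rw [← hR, ← hfac]
        rcases num_three q hq3 with h | h
        · exact h.mul_right _
        · exact h.mul_left _
      rw [← hcH] at h3
      rcases (Nat.Prime.dvd_mul Nat.prime_three).1 h3 with h4 | h4
      · omega
      · exact hR3 h4
    rcases dickson_master p H with ⟨h1, h2⟩ | ⟨⟨c, ρ, hc, hρ, hρp, ⟨e⟩⟩, -⟩ | ⟨⟨e⟩, -⟩ | ⟨⟨e⟩, -⟩ | ⟨⟨e⟩, -⟩ | ⟨P, ⟨g, hg1, hgp⟩, hP⟩ | ⟨K₀, P, hK⟩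
    · exfalso
      obtain ⟨g₀, hgen⟩ := IsCyclic.exists_generator (α := H)
      have hog : orderOf g₀ = Nat.card H := orderOf_eq_card_of_forall_mem_zpowers hgen
      have hg1 : g₀ ≠ 1 := by
        intro h
        rw [h, orderOf_one] at hog
        exact hnottriv hog.symm
      have hg₀p : (g₀ : Pe F) ^ p ≠ 1 := fun h => hnop g₀ hg1 (Subtype.ext (by simpa using h))
      obtain ⟨N, hN, hN3, ρ', σ', ho, -, -, -, hmem⟩ := torus_data hF p (g₀ : Pe F) hg₀p
      rw [gcd_two_odd (Nat.odd_iff.1 hodd)] at ho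
      have hd1 := orderOf_dvd_of_mem_zpowers hmem
      rw [Subgroup.orderOf_coe, hog, ho] at hd1
      have hNeven : 2 ∣ N := by
        obtain ⟨k, hk⟩ := hodd
        rcases hN with h | h <;> omega
      have hd2 : 2 * Nat.card H ∣ N := by
        obtain ⟨s, hs⟩ := hd1
        obtain ⟨t, ht⟩ := hNeven
        rw [ht, Nat.mul_div_cancel_left _ (by norm_num)] at hs
        rw [ht, hs]
        exact ⟨s, by ring⟩
      obtain ⟨N', hN'⟩ : ∃ N', (N = q - 1 ∧ N' = q + 1 ∨ N = q + 1 ∧ N' = q - 1) := by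
        rcases hN with h | h
        · exact ⟨q + 1, Or.inl ⟨h, rfl⟩⟩
        · exact ⟨q - 1, Or.inr ⟨h, rfl⟩⟩
      have e : N * N' = 2 * Nat.card H * R := by
        rw [hcH, ← hR, ← hfac]
        rcases hN' with ⟨rfl, rfl⟩ | ⟨rfl, rfl⟩
        · rfl
        · exact mul_comm _ _
      obtain ⟨s, hs⟩ := hd2
      have hs' : s * N' = R := by
        apply Nat.eq_of_mul_eq_mul_left (by
          have : 0 < Nat.card H := Nat.card_pos
          omega : 0 < 2 * Nat.card H)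
        rw [← mul_assoc, ← hs, e]
      apply hR2
      rw [← hs']
      apply Dvd.dvd.mul_left
      obtain ⟨k, hk⟩ := hodd
      rcases hN' with ⟨-, rfl⟩ | ⟨-, rfl⟩ <;> omega
    · haveI : NeZero c := ⟨by omega⟩
      have hcH2 : Nat.card H = 2 * c := by rw [Nat.card_congr e.toEquiv, DihedralGroup.nat_card]
      have hρp' : (ρ : Pe F) ^ p ≠ 1 := fun h => hρp (Subtype.ext (by simpa using h))
      obtain ⟨N, hN, hN3, ρ', σ', ho, -, -, -, hmem⟩ := torus_data hF p (ρ : Pe F) hρp'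
      rw [gcd_two_odd (Nat.odd_iff.1 hodd)] at ho
      have hd1 := orderOf_dvd_of_mem_zpowers hmem
      rw [Subgroup.orderOf_coe, hρ, ho] at hd1
      have hNeven : 2 ∣ N := by
        obtain ⟨k, hk⟩ := hodd
        rcases hN with h | h <;> omega
      have hd2 : Nat.card H ∣ N := by
        obtain ⟨s, hs⟩ := hd1
        obtain ⟨t, ht⟩ := hNeven
        rw [ht, Nat.mul_div_cancel_left _ (by norm_num)] at hs
        rw [ht, hs, hcH2]
        exact ⟨s, by ring⟩
      obtain ⟨N', hN'⟩ : ∃ N', (N = q - 1 ∧ N' = q + 1 ∨ N = q + 1 ∧ N' = q - 1) := by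
        rcases hN with h | h
        · exact ⟨q + 1, Or.inl ⟨h, rfl⟩⟩
        · exact ⟨q - 1, Or.inr ⟨h, rfl⟩⟩
      rcases hconcl N N' hN' hd2 with h | h
      · exact Or.inl h
      · exact Or.inr (Or.inl h)
    · right; right; left
      show Ap (q ^ 2 - 1) = 24
      rw [← hcH, Nat.card_congr e.toEquiv, card_alt_four]
    · right; right; right
      show Ap (q ^ 2 - 1) = 48
      rw [← hcH, Nat.card_congr e.toEquiv, card_perm_four]
    · exfalso
      have h5 : 5 ∣ Nat.card H := by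
        rw [Nat.card_congr e.toEquiv, card_alt_five]
        norm_num
      rcases hpr 5 (by norm_num) h5 with h | h <;> omega
    · exact (hnop g hg1 hgp).elim
    · exfalso
      have hmem : mkP (uu (1 : F)) ∈ conjSub P H := by
        rcases hK with hK | ⟨hsq, hK⟩
        · rw [hK]
          exact uu_mem_psl K₀ K₀.one_mem
        · rw [hK]
          obtain ⟨x, hx⟩ := uu_mem_psl K₀ K₀.one_mem
          rw [← hx]
          obtain ⟨A, rfl⟩ := mkP_surj x
          exact map_mem_pgl _ hsq A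
      rw [mem_conjSub] at hmem
      apply hnop ⟨_, hmem⟩
      · intro h
        have h1 : Th P (mkP (uu (1 : F))) = 1 := congrArg Subtype.val h
        have h2 : mkP (uu (1 : F)) = mkP (uu 0) := by
          rw [uu_zero]
          apply (Th P).injective
          rw [h1]
          exact (map_one _).symm
        exact one_ne_zero (uu_mkP_inj h2)
      · apply Subtype.ext
        have h1 : mkP (uu (1 : F)) ^ p = 1 := by
          have e : ∀ n : ℕ, mkP (uu (1 : F)) ^ n = mkP (uu (n : F)) := by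
            intro n
            induction n with
            | zero => simp [uu_zero]
            | succ n ih =>
              rw [pow_succ, ih, ← mkP_mul, ← uu_add]
              push_cast
              rfl
          rw [e, CharP.cast_eq_zero, uu_zero]
          rfl
        show Th P (mkP (uu (1 : F))) ^ p = 1
        rw [← map_pow, h1, map_one]
  · rintro (⟨h3, h4⟩ | ⟨h3, h4⟩ | h | h)
    · obtain ⟨H, hH⟩ := hall_of_dih hF p hp5 hodd hq5 (q - 1) (q + 1) (Or.inl rfl) hfac (by omega) (by omega) (by omega)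
      exact ⟨H, (hAp H).2 hH⟩
    · obtain ⟨H, hH⟩ := hall_of_dih hF p hp5 hodd hq5 (q + 1) (q - 1) (Or.inr rfl) (by rw [mul_comm]; exact hfac) (by omega)
        (by omega) (by omega)
      exact ⟨H, (hAp H).2 hH⟩
    · have hodd2 : Fintype.card F % 2 = 1 := by
        rw [hF]
        exact Nat.odd_iff.1 hodd
      obtain ⟨S⟩ := QSplit.nonempty_of_odd hodd2
      refine ⟨S.a4.T, (hAp _).2 ?_⟩
      rw [S.a4.card_T]
      exact h.symm
    · have hodd2 : Fintype.card F % 2 = 1 := by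
        rw [hF]
        exact Nat.odd_iff.1 hodd
      obtain ⟨S⟩ := QSplit.nonempty_of_odd hodd2
      have h16 : 16 ∣ q ^ 2 - 1 := by
        have h1 : 16 ∣ 2 ^ (q ^ 2 - 1).factorization 2 * 3 ^ (q ^ 2 - 1).factorization 3 := by
          rw [h]
          norm_num
        have h2 : Nat.Coprime 16 (3 ^ (q ^ 2 - 1).factorization 3) := Nat.Coprime.pow_right _ (by norm_num)
        exact (h2.dvd_of_dvd_mul_right h1).trans (Nat.ordProj_dvd _ 2)
      have h8 : q % 8 = 1 ∨ q % 8 = 7 := by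
        by_contra hcon
        have h9 : q ^ 2 % 16 = 9 := by
          rw [Nat.pow_mod]
          obtain ⟨k, hk⟩ := hodd
          have : q % 16 = 3 ∨ q % 16 = 5 ∨ q % 16 = 11 ∨ q % 16 = 13 := by omega
          rcases this with h | h | h | h <;> rw [h]
        have h10 : 1 ≤ q ^ 2 := Nat.one_le_pow _ _ (by omega)
        omega
      obtain ⟨X, hX, -, -⟩ := exists_S4 hF S h8
      refine ⟨X, (hAp _).2 ?_⟩
      rw [hX]
      exact h.symm

end Cfsg.Agent.Lib.LocalEven.PslHall
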