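import Mathlib
import Cfsg.Prelude.Def_RootSubgroups
import Cfsg.Agent.Lib.Root.Invol

/-! Root involutions: if `y, d, yd ∈ D` commute and `x` is an odd partner of `d` with `yx` of order 4,
then `y = (fd)²` for some `f ∈ D` with `fd` of order 4.  The conjugates of `y` under `⟨d, x⟩` commute
and the map `u ↦ u^ρ u^(ρ⁻¹)` is a permutation of the relevant members. -/

set_option autoImplicit false

namespace Cfsg.Agent.Lib.LocalEven.RiStep

open Cfsg
open Cfsg.Agent.Lib.Root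

variable {G : Type*} [Group G] {D : Set G}

/-- conjugates under powers of `ρ` -/
def Yc (ρ u : G) (i : ℤ) : G := ρ ^ i * u * (ρ ^ i)⁻¹

theorem Yc_zero (ρ u : G) : Yc ρ u 0 = u := by simp [Yc]

theorem Yc_shift (ρ u : G) (a i : ℤ) : ρ ^ a * Yc ρ u i * (ρ ^ a)⁻¹ = Yc ρ u (a + i) := by
  unfold Yc
  rw [zpow_add]
  group

theorem Yc_mem (hD : IsRootInvolutionSet D) {ρ u : G} (hu : u ∈ D) (i : ℤ) : Yc ρ u i ∈ D :=
  hD.conj_mem u hu _

theorem sq_comm {a b : G} (ha : a * a = 1) (hb : b * b = 1) (h4 : (a * b) ^ 4 = 1) :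
    a * (b * a * b) = (b * a * b) * a := by
  have hai : a⁻¹ = a := inv_eq_of_mul_eq_one_left ha
  have hbi : b⁻¹ = b := inv_eq_of_mul_eq_one_left hb
  have e1 : a * (b * a * b) = (a * b) ^ 2 := by rw [pow_two]; group
  have e2 : (b * a * b) * a = ((a * b) ^ 2)⁻¹ := by
    rw [pow_two, mul_inv_rev, mul_inv_rev, hai, hbi]; group
  have e3 : ((a * b) ^ 2) * ((a * b) ^ 2) = 1 := by
    rw [← pow_add]; exact h4
  rw [e1, e2]
  exact eq_inv_of_mul_eq_one_left e3

theorem four_sq_mem (hD : IsRootInvolutionSet D) {a b : G} (ha : a ∈ D) (hb : b ∈ D)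
    (h4 : orderOf (a * b) = 4) : (a * b) ^ 2 ∈ D := by
  rcases hD.pair a ha b hb with h | h | h
  · exfalso
    have h2 : (a * b) ^ 2 = 1 := by
      rw [pow_two]
      calc (a * b) * (a * b) = a * (b * a) * b := by group
        _ = a * (a * b) * b := by rw [h]
        _ = (a * a) * (b * b) := by group
        _ = 1 := by rw [ri_sq hD ha, ri_sq hD hb, one_mul]
    have := orderOf_dvd_of_pow_eq_one h2
    rw [h4] at this
    omega
  · rw [h4] at h
    exact absurd h (by decide)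
  · exact h.2

section core

variable {d x u : G}

theorem refl_mem (hD : IsRootInvolutionSet D) (hd : d ∈ D) (hx : x ∈ D)
    (hodd : Odd (orderOf (d * x))) (j : ℤ) : (d * x) ^ j * d ∈ D := by
  have hdd := ri_sq hD hd
  have hxx := ri_sq hD hx
  obtain ⟨m, hm⟩ := hodd
  set k : ℤ := j * (m + 1) with hk
  have e1 : (d * x) ^ (2 * k) = (d * x) ^ j := by
    have h1 : 2 * k = ((2 * m + 1 : ℕ) : ℤ) * j + j := by rw [hk]; push_cast; ring
    rw [h1, zpow_add, zpow_mul, ← hm, zpow_natCast, pow_orderOf_eq_one, one_zpow, one_mul]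
  have e2 := Lib.Invol.conj_by_zpow hdd hxx k
  have e3 : (d * x) ^ k * d * ((d * x) ^ k)⁻¹ = (d * x) ^ j * d := by
    rw [e2, ← e1, Lib.Invol.zpow_mul_x hdd hxx]
  rw [← e3]
  exact hD.conj_mem d hd _

theorem d_Yc (hd : d * d = 1) (hx : x * x = 1) (hud : u * d = d * u) (i : ℤ) :
    d * Yc (d * x) u i * d = Yc (d * x) u (-i) := by
  unfold Yc
  have h1 := Lib.Invol.conj_zpow_eq hd hx i
  have h2 : d * (d * x) ^ i = (d * x) ^ (-i) * d := by
    rw [← h1, mul_assoc _ d d, hd, mul_one]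
  have h3 : ((d * x) ^ i)⁻¹ * d = d * (d * x) ^ i := by
    rw [← zpow_neg, Lib.Invol.zpow_mul_x hd hx, neg_neg]
  have h4 : ((d * x) ^ (-i))⁻¹ = (d * x) ^ i := by rw [zpow_neg, inv_inv]
  rw [h4]
  calc d * ((d * x) ^ i * u * ((d * x) ^ i)⁻¹) * d
      = (d * (d * x) ^ i) * u * (((d * x) ^ i)⁻¹ * d) := by group
    _ = ((d * x) ^ (-i) * d) * u * (d * (d * x) ^ i) := by rw [h3, ← h2]
    _ = (d * x) ^ (-i) * (d * u) * d * (d * x) ^ i := by group
    _ = (d * x) ^ (-i) * (u * d) * d * (d * x) ^ i := by rw [hud]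
    _ = (d * x) ^ (-i) * u * (d * d) * (d * x) ^ i := by group
    _ = (d * x) ^ (-i) * u * (d * x) ^ i := by rw [hd, mul_one]

theorem x_Yc (hd : d * d = 1) (hx : x * x = 1) (hud : u * d = d * u) (i : ℤ) :
    x * Yc (d * x) u i * x = Yc (d * x) u (-i - 1) := by
  have hdi : d⁻¹ = d := inv_eq_of_mul_eq_one_left hd
  have hxi : x⁻¹ = x := inv_eq_of_mul_eq_one_left hx
  have h1 := Yc_shift (d * x) u 1 i
  rw [zpow_one] at h1
  have h2 := d_Yc hd hx hud (1 + i)
  rw [← h1] at h2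
  have h3 : -(1 + i) = -i - 1 := by ring
  rw [h3] at h2
  rw [← h2]
  generalize Yc (d * x) u i = Y
  have e : d * (d * x * Y * (d * x)⁻¹) * d = (d * d) * x * Y * x⁻¹ * (d⁻¹ * d) := by group
  rw [e, hd, hxi, inv_mul_cancel, one_mul, mul_one]

theorem Yc_neg_one (hd : d * d = 1) (hx : x * x = 1) (hud : u * d = d * u) :
    Yc (d * x) u (-1) = x * u * x := by
  have := x_Yc hd hx hud 0
  rw [Yc_zero] at this
  rw [this]
  simp

/-- The conjugates of `u` under powers of `ρ = dx` commute. -/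
theorem Yc_comm_nat (hD : IsRootInvolutionSet D) (hd : d ∈ D) (hx : x ∈ D) (hu : u ∈ D)
    (hud : u * d = d * u) (hudD : u * d ∈ D) (hne : d ≠ x) (hodd : Odd (orderOf (d * x)))
    (h4 : orderOf (u * x) = 4) (j : ℕ) :
    u * Yc (d * x) u j = Yc (d * x) u j * u := by
  have hdd := ri_sq hD hd
  have hxx := ri_sq hD hx
  have huu := ri_sq hD hu
  have hdi : d⁻¹ = d := inv_eq_of_mul_eq_one_left hdd
  have hui : u⁻¹ = u := inv_eq_of_mul_eq_one_left huu
  have h41 : (u * x) ^ 4 = 1 := by rw [← h4]; exact pow_orderOf_eq_one _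
  -- the base case
  have hb0 : u * Yc (d * x) u (-1) = Yc (d * x) u (-1) * u := by
    rw [Yc_neg_one hdd hxx hud]
    exact sq_comm huu hxx h41
  have hb1 : Yc (d * x) u 1 * u = u * Yc (d * x) u 1 := by
    have := congrArg (fun g => (d * x) * g * (d * x)⁻¹) hb0
    have e1 : (d * x) * Yc (d * x) u (-1) * (d * x)⁻¹ = u := by
      have := Yc_shift (d * x) u 1 (-1)
      rw [zpow_one] at this
      rw [this]; simp [Yc_zero]
    have e2 : (d * x) * u * (d * x)⁻¹ = Yc (d * x) u 1 := by simp [Yc]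
    have e3 : ∀ a b : G, (d * x) * (a * b) * (d * x)⁻¹
        = ((d * x) * a * (d * x)⁻¹) * ((d * x) * b * (d * x)⁻¹) := by intro a b; group
    rw [e3, e3, e1, e2] at this
    exact this
  have hb2 : Yc (d * x) u 1 * u ∈ D := by
    -- `Y(1) u` is the conjugate of `u Y(-1) = (ux)²`
    have e : u * Yc (d * x) u (-1) = (u * x) ^ 2 := by
      rw [Yc_neg_one hdd hxx hud, pow_two]; group
    have hm : u * Yc (d * x) u (-1) ∈ D := by rw [e]; exact four_sq_mem hD hu hx h4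
    have := hD.conj_mem _ hm (d * x)
    have e3 : (d * x) * (u * Yc (d * x) u (-1)) * (d * x)⁻¹
        = ((d * x) * u * (d * x)⁻¹) * ((d * x) * Yc (d * x) u (-1) * (d * x)⁻¹) := by group
    rw [e3] at this
    have e1 : (d * x) * Yc (d * x) u (-1) * (d * x)⁻¹ = u := by
      have := Yc_shift (d * x) u 1 (-1)
      rw [zpow_one] at this
      rw [this]; simp [Yc_zero]
    have e2 : (d * x) * u * (d * x)⁻¹ = Yc (d * x) u 1 := by simp [Yc]
    rwa [e1, e2] at this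
  induction j using Nat.strong_induction_on with
  | _ j ih =>
  rcases Nat.lt_or_ge j 2 with hj | hj
  · interval_cases j
    · simp [Yc_zero]
    · simpa using hb1.symm
  obtain ⟨l, rfl⟩ : ∃ l, j = l + 1 := ⟨j - 1, by omega⟩
  set J : ℤ := ((l + 1 : ℕ) : ℤ) with hJ
  by_cases hdvd : ((orderOf (d * x) : ℕ) : ℤ) ∣ J
  · have : (d * x) ^ J = 1 := (orderOf_dvd_iff_zpow_eq_one).mp hdvd
    simp [Yc, this]
  -- the reflection
  set t : G := (d * x) ^ J * d with ht
  have htD : t ∈ D := refl_mem hD hd hx hodd J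
  have htt := ri_sq hD htD
  have hti : t⁻¹ = t := inv_eq_of_mul_eq_one_left htt
  have hdt : d * t = (d * x) ^ (-J) := by
    rw [ht, ← mul_assoc, Lib.Invol.conj_zpow_eq hdd hxx]
  have hdtodd : Odd (orderOf (d * t)) := by
    rw [hdt]
    exact Odd.of_dvd_nat hodd (orderOf_dvd_of_pow_eq_one (by
      rw [← zpow_natCast, ← zpow_mul, mul_comm, zpow_mul, zpow_natCast, pow_orderOf_eq_one, one_zpow]))
  have hdtne : d ≠ t := by
    intro h
    have h1 : d * t = 1 := by rw [← h]; exact hdd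
    rw [hdt, zpow_neg, inv_eq_one] at h1
    exact hdvd (orderOf_dvd_iff_zpow_eq_one.mpr h1)
  have hut : ¬ (u * t = t * u) := fun h => ri_lem1 hD hu hd htD hud hudD hdtodd hdtne h
  have hYt : t * u * t = Yc (d * x) u J := by
    have h1 : t * u * t = t * u * t⁻¹ := by rw [hti]
    rw [h1, ht]
    have h3 := Lib.Invol.zpow_mul_x hdd hxx J
    rw [mul_inv_rev, hdi]
    unfold Yc
    calc (d * x) ^ J * d * u * (d * ((d * x) ^ J)⁻¹)
        = (d * x) ^ J * (d * u * d) * ((d * x) ^ J)⁻¹ := by group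
      _ = (d * x) ^ J * u * ((d * x) ^ J)⁻¹ := by
        have : d * u * d = u := by rw [← hud, mul_assoc, hdd, mul_one]
        rw [this]
  rcases hD.pair u hu t htD with h | h | h
  · exact absurd h hut
  · exfalso
    have e : u * Yc (d * x) u J = (u * t) ^ 2 := by
      rw [← hYt, pow_two]; group
    have hodd2 : Odd (orderOf (u * Yc (d * x) u J)) := by
      rw [e]
      exact Odd.of_dvd_nat h (orderOf_pow_dvd 2)
    have hne2 : u ≠ Yc (d * x) u J := by
      intro h1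
      apply hut
      have h2 : t * u * t = u := by rw [hYt]; exact h1.symm
      calc u * t = (t * u * t) * t := by rw [h2]
        _ = t * u * (t * t) := by group
        _ = t * u := by rw [htt, mul_one]
    have hY1D : Yc (d * x) u 1 ∈ D := Yc_mem hD hu 1
    have hYjD : Yc (d * x) u J ∈ D := Yc_mem hD hu J
    refine ri_lem1 hD hY1D hu hYjD hb1 hb2 hodd2 hne2 ?_
    -- commuting of `Y 1` and `Y j`
    have h1 := ih l (by omega)
    have h2 := congrArg (fun g => (d * x) * g * (d * x)⁻¹) h1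
    have e3 : ∀ a b : G, (d * x) * (a * b) * (d * x)⁻¹
        = ((d * x) * a * (d * x)⁻¹) * ((d * x) * b * (d * x)⁻¹) := by intro a b; group
    have e4 : (d * x) * u * (d * x)⁻¹ = Yc (d * x) u 1 := by simp [Yc]
    have e5 : (d * x) * Yc (d * x) u l * (d * x)⁻¹ = Yc (d * x) u J := by
      have := Yc_shift (d * x) u 1 l
      rw [zpow_one] at this
      rw [this, hJ]
      congr 1
      push_cast
      ring
    rw [e3, e3, e4, e5] at h2
    exact h2
  · have h41' : (u * t) ^ 4 = 1 := by rw [← h.1]; exact pow_orderOf_eq_one _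
    have := sq_comm huu htt h41'
    rw [hYt] at this
    exact this

/-- All conjugates commute. -/
theorem Yc_comm (hD : IsRootInvolutionSet D) (hd : d ∈ D) (hx : x ∈ D) (hu : u ∈ D)
    (hud : u * d = d * u) (hudD : u * d ∈ D) (hne : d ≠ x) (hodd : Odd (orderOf (d * x)))
    (h4 : orderOf (u * x) = 4) (a b : ℤ) :
    Yc (d * x) u a * Yc (d * x) u b = Yc (d * x) u b * Yc (d * x) u a := by
  have key : ∀ (a : ℤ) (j : ℕ), Yc (d * x) u a * Yc (d * x) u (a + j)
      = Yc (d * x) u (a + j) * Yc (d * x) u a := by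
    intro a j
    have h1 := Yc_comm_nat hD hd hx hu hud hudD hne hodd h4 j
    have h2 := congrArg (fun g => (d * x) ^ a * g * ((d * x) ^ a)⁻¹) h1
    have e3 : ∀ p q : G, (d * x) ^ a * (p * q) * ((d * x) ^ a)⁻¹
        = ((d * x) ^ a * p * ((d * x) ^ a)⁻¹) * ((d * x) ^ a * q * ((d * x) ^ a)⁻¹) := by
      intro p q; group
    have e4 : (d * x) ^ a * u * ((d * x) ^ a)⁻¹ = Yc (d * x) u a := rfl
    rw [e3, e3, e4, Yc_shift] at h2
    exact h2
  rcases le_total a b with h | h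
  · obtain ⟨j, rfl⟩ : ∃ j : ℕ, b = a + j := ⟨(b - a).toNat, by omega⟩
    exact key a j
  · obtain ⟨j, rfl⟩ : ∃ j : ℕ, a = b + j := ⟨(a - b).toNat, by omega⟩
    exact (key b j).symm

/-- `Y(1) d` has order 4. -/
theorem Yc_one_order (hD : IsRootInvolutionSet D) (hd : d ∈ D) (hx : x ∈ D) (hu : u ∈ D)
    (hud : u * d = d * u) (hudD : u * d ∈ D) (hne : d ≠ x) (hodd : Odd (orderOf (d * x)))
    (h4 : orderOf (u * x) = 4) : orderOf (Yc (d * x) u 1 * d) = 4 := by
  have hdd := ri_sq hD hd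
  have hxx := ri_sq hD hx
  have huu := ri_sq hD hu
  have hdi : d⁻¹ = d := inv_eq_of_mul_eq_one_left hdd
  have hcomm := Yc_comm hD hd hx hu hud hudD hne hodd h4
  set ρ := d * x with hρ
  set t : G := ρ⁻¹ * d * ρ with ht
  have htD : t ∈ D := by
    have := hD.conj_mem d hd ρ⁻¹
    rwa [inv_inv] at this
  have htt := ri_sq hD htD
  have hti : t⁻¹ = t := inv_eq_of_mul_eq_one_left htt
  have hconj : Yc ρ u 1 * d = ρ * (u * t) * ρ⁻¹ := by
    unfold Yc
    rw [ht, zpow_one]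
    group
  rw [hconj, ri_orderOf_conj]
  have hdρ : d * ρ⁻¹ * d = ρ := by
    have := Lib.Invol.conj_zpow_eq hdd hxx (-1)
    rw [← hρ, zpow_neg_one, neg_neg, zpow_one] at this
    exact this
  have hdt : d * t = ρ ^ 2 := by
    rw [ht, pow_two]
    calc d * (ρ⁻¹ * d * ρ) = (d * ρ⁻¹ * d) * ρ := by group
      _ = ρ * ρ := by rw [hdρ]
  have hρ1 : ρ ≠ 1 := by
    intro h
    apply hne
    have h2 : d * x = 1 := h
    calc d = d * (x * x) := by rw [hxx, mul_one]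
      _ = (d * x) * x := by group
      _ = x := by rw [h2, one_mul]
  have hρ2 : ρ ^ 2 ≠ 1 := by
    intro h
    have h3 := orderOf_dvd_of_pow_eq_one h
    have h4' := Nat.le_of_dvd (by norm_num) h3
    obtain ⟨m, hm⟩ := hodd
    have h5 : orderOf ρ = 1 := by omega
    exact hρ1 (orderOf_eq_one_iff.mp h5)
  have hdtodd : Odd (orderOf (d * t)) := by
    rw [hdt]
    exact Odd.of_dvd_nat hodd (orderOf_pow_dvd 2)
  have hdtne : d ≠ t := by
    intro h
    have h1 : d * t = 1 := by rw [← h]; exact hdd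
    rw [hdt] at h1
    exact hρ2 h1
  have hut : ¬ (u * t = t * u) := fun h => ri_lem1 hD hu hd htD hud hudD hdtodd hdtne h
  have hYt : t * u * t = Yc ρ u (-2) := by
    have h1 := d_Yc hdd hxx hud 1
    have h2 := Yc_shift ρ u (-1) (-1)
    rw [← hρ] at h1
    have h3 : (-1 : ℤ) + -1 = -2 := by norm_num
    rw [h3, ← h1] at h2
    rw [← h2, zpow_neg_one, inv_inv]
    unfold Yc
    rw [zpow_one, ht]
    group
  rcases hD.pair u hu t htD with h | h | h
  · exact absurd h hut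
  · exfalso
    have e : (u * t) ^ 2 = u * Yc ρ u (-2) := by
      rw [← hYt, pow_two]; group
    have hc := hcomm 0 (-2)
    rw [Yc_zero] at hc
    have e4 : (u * t) ^ 4 = 1 := by
      have : (u * t) ^ 4 = (u * t) ^ 2 * (u * t) ^ 2 := by rw [← pow_add]
      rw [this, e]
      calc u * Yc ρ u (-2) * (u * Yc ρ u (-2)) = u * (Yc ρ u (-2) * u) * Yc ρ u (-2) := by group
        _ = u * (u * Yc ρ u (-2)) * Yc ρ u (-2) := by rw [hc]
        _ = (u * u) * (Yc ρ u (-2) * Yc ρ u (-2)) := by group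
        _ = 1 := by rw [huu, ri_sq hD (Yc_mem hD hu _), one_mul]
    have h5 := orderOf_dvd_of_pow_eq_one e4
    obtain ⟨m, hm⟩ := h
    have h6 : orderOf (u * t) = 1 := by
      have h7 : orderOf (u * t) ≤ 4 := Nat.le_of_dvd (by norm_num) h5
      interval_cases hv : orderOf (u * t) <;> omega
    apply hut
    have h8 : u * t = 1 := orderOf_eq_one_iff.mp h6
    have h9 : t = u := by
      calc t = u * (u * t) := by rw [← mul_assoc, huu, one_mul]
        _ = u := by rw [h8, mul_one]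
    rw [h9]
  · exact h.1

end core

section normR

variable {d x y : G}

/-- The subgroup generated by the conjugates of `y`. -/
def Rg (ρ y : G) : Subgroup G := Subgroup.closure (Set.range (Yc ρ y))

theorem Yc_mem_Rg (ρ y : G) (i : ℤ) : Yc ρ y i ∈ Rg ρ y := Subgroup.subset_closure ⟨i, rfl⟩

theorem Rg_comm {ρ y : G}
    (h : ∀ a b : ℤ, Yc ρ y a * Yc ρ y b = Yc ρ y b * Yc ρ y a) :
    ∀ g ∈ Rg ρ y, ∀ g' ∈ Rg ρ y, g * g' = g' * g := by
  have h1 : ∀ g ∈ Rg ρ y, ∀ b : ℤ, g * Yc ρ y b = Yc ρ y b * g := by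
    intro g hg b
    induction hg using Subgroup.closure_induction with
    | mem g hg =>
      obtain ⟨a, rfl⟩ := hg
      exact h a b
    | one => simp
    | mul p q _ _ hp hq =>
      rw [mul_assoc, hq, ← mul_assoc, hp, mul_assoc]
    | inv p _ hp =>
      rw [inv_mul_eq_iff_eq_mul, ← mul_assoc, hp, mul_assoc, mul_inv_cancel, mul_one]
  intro g hg g' hg'
  induction hg' using Subgroup.closure_induction with
  | mem g' hg' =>
    obtain ⟨b, rfl⟩ := hg'
    exact h1 g hg b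
  | one => simp
  | mul p q _ _ hp hq =>
    rw [← mul_assoc, hp, mul_assoc, hq, mul_assoc]
  | inv p _ hp =>
    rw [mul_inv_eq_iff_eq_mul, mul_assoc, hp, ← mul_assoc, inv_mul_cancel, one_mul]

theorem Rg_sq {ρ y : G}
    (hc : ∀ g ∈ Rg ρ y, ∀ g' ∈ Rg ρ y, g * g' = g' * g)
    (hY : ∀ i : ℤ, Yc ρ y i * Yc ρ y i = 1) :
    ∀ g ∈ Rg ρ y, g * g = 1 := by
  intro g hg
  induction hg using Subgroup.closure_induction with
  | mem g hg =>
    obtain ⟨a, rfl⟩ := hg
    exact hY a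
  | one => simp
  | mul p q hp hq ihp ihq =>
    calc p * q * (p * q) = p * (q * p) * q := by group
      _ = p * (p * q) * q := by rw [hc q hq p hp]
      _ = (p * p) * (q * q) := by group
      _ = 1 := by rw [ihp, ihq, one_mul]
  | inv p _ hp =>
    rw [← mul_inv_rev, hp, inv_one]

theorem Rg_conj (ρ y : G) (a : ℤ) : ∀ g ∈ Rg ρ y, ρ ^ a * g * (ρ ^ a)⁻¹ ∈ Rg ρ y := by
  intro g hg
  induction hg using Subgroup.closure_induction with
  | mem g hg =>
    obtain ⟨i, rfl⟩ := hg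
    rw [Yc_shift]
    exact Yc_mem_Rg _ _ _
  | one => simp
  | mul p q _ _ hp hq =>
    have : ρ ^ a * (p * q) * (ρ ^ a)⁻¹ = (ρ ^ a * p * (ρ ^ a)⁻¹) * (ρ ^ a * q * (ρ ^ a)⁻¹) := by group
    rw [this]
    exact Subgroup.mul_mem _ hp hq
  | inv p _ hp =>
    have : ρ ^ a * p⁻¹ * (ρ ^ a)⁻¹ = (ρ ^ a * p * (ρ ^ a)⁻¹)⁻¹ := by group
    rw [this]
    exact Subgroup.inv_mem _ hp

theorem Rg_conj_x (hd : d * d = 1) (hx : x * x = 1) (hyd : y * d = d * y) :
    ∀ g ∈ Rg (d * x) y, x * g * x ∈ Rg (d * x) y := by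
  have hxi : x⁻¹ = x := inv_eq_of_mul_eq_one_left hx
  intro g hg
  induction hg using Subgroup.closure_induction with
  | mem g hg =>
    obtain ⟨i, rfl⟩ := hg
    rw [x_Yc hd hx hyd]
    exact Yc_mem_Rg _ _ _
  | one => simp [hx]
  | mul p q _ _ hp hq =>
    have : x * (p * q) * x = (x * p * x) * (x * q * x) := by
      calc x * (p * q) * x = x * p * (x * x) * q * x := by rw [hx]; group
        _ = _ := by group
    rw [this]
    exact Subgroup.mul_mem _ hp hq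
  | inv p _ hp =>
    have : x * p⁻¹ * x = (x * p * x)⁻¹ := by
      rw [mul_inv_rev, mul_inv_rev, hxi]; group
    rw [this]
    exact Subgroup.inv_mem _ hp

/-- norm for the action of `ρ` -/
def nrm (ρ g : G) : ℕ → G
  | 0 => 1
  | m + 1 => nrm ρ g m * (ρ ^ m * g * (ρ ^ m)⁻¹)

theorem nrm_pow (ρ g : G) (m : ℕ) : (g * ρ) ^ m = nrm ρ g m * ρ ^ m := by
  induction m with
  | zero => simp [nrm]
  | succ m ih =>
    rw [pow_succ, ih, nrm, pow_succ]
    group

theorem nrm_conj (ρ g : G) (a : ℤ) (m : ℕ) :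
    nrm ρ (ρ ^ a * g * (ρ ^ a)⁻¹) m = ρ ^ a * nrm ρ g m * (ρ ^ a)⁻¹ := by
  induction m with
  | zero => simp [nrm]
  | succ m ih =>
    rw [nrm, nrm, ih]
    have e : ρ ^ m * (ρ ^ a * g * (ρ ^ a)⁻¹) * (ρ ^ m)⁻¹
        = ρ ^ a * (ρ ^ m * g * (ρ ^ m)⁻¹) * (ρ ^ a)⁻¹ := by
      have h1 : ρ ^ m * ρ ^ a = ρ ^ a * ρ ^ m := by
        rw [← zpow_natCast, ← zpow_add, ← zpow_add, add_comm]
      calc ρ ^ m * (ρ ^ a * g * (ρ ^ a)⁻¹) * (ρ ^ m)⁻¹
          = (ρ ^ m * ρ ^ a) * g * (ρ ^ m * ρ ^ a)⁻¹ := by group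
        _ = (ρ ^ a * ρ ^ m) * g * (ρ ^ a * ρ ^ m)⁻¹ := by rw [h1]
        _ = _ := by group
    rw [e]
    group

theorem nrm_mem {ρ y : G} {g : G} (hg : g ∈ Rg ρ y) (m : ℕ) : nrm ρ g m ∈ Rg ρ y := by
  induction m with
  | zero => exact Subgroup.one_mem _
  | succ m ih =>
    rw [nrm]
    refine Subgroup.mul_mem _ ih ?_
    have := Rg_conj ρ y (m : ℤ) g hg
    simpa using this

theorem nrm_mul {ρ y : G} (hc : ∀ g ∈ Rg ρ y, ∀ g' ∈ Rg ρ y, g * g' = g' * g)
    {g h : G} (hg : g ∈ Rg ρ y) (hh : h ∈ Rg ρ y) (m : ℕ) :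
    nrm ρ (g * h) m = nrm ρ g m * nrm ρ h m := by
  induction m with
  | zero => simp [nrm]
  | succ m ih =>
    rw [nrm, nrm, nrm, ih]
    have hgc : ρ ^ m * g * (ρ ^ m)⁻¹ ∈ Rg ρ y := by
      have := Rg_conj ρ y (m : ℤ) g hg
      simpa using this
    have e : ρ ^ m * (g * h) * (ρ ^ m)⁻¹ = (ρ ^ m * g * (ρ ^ m)⁻¹) * (ρ ^ m * h * (ρ ^ m)⁻¹) := by
      group
    rw [e]
    have h1 := hc _ (nrm_mem hh m) _ hgc
    calc nrm ρ g m * nrm ρ h m * (ρ ^ m * g * (ρ ^ m)⁻¹ * (ρ ^ m * h * (ρ ^ m)⁻¹))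
        = nrm ρ g m * (nrm ρ h m * (ρ ^ m * g * (ρ ^ m)⁻¹)) * (ρ ^ m * h * (ρ ^ m)⁻¹) := by group
      _ = nrm ρ g m * ((ρ ^ m * g * (ρ ^ m)⁻¹) * nrm ρ h m) * (ρ ^ m * h * (ρ ^ m)⁻¹) := by rw [h1]
      _ = _ := by group

/-- The norm vanishes on `R`. -/
theorem nrm_all {ρ y : G} {n : ℕ} (hc : ∀ g ∈ Rg ρ y, ∀ g' ∈ Rg ρ y, g * g' = g' * g)
    (hs : ∀ g ∈ Rg ρ y, g * g = 1) (hy : nrm ρ y n = 1) :
    ∀ g ∈ Rg ρ y, nrm ρ g n = 1 := by
  have h0 : ∀ m, nrm ρ (1 : G) m = 1 := by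
    intro m
    induction m with
    | zero => rfl
    | succ m ih => simp [nrm, ih]
  intro g hg
  induction hg using Subgroup.closure_induction with
  | mem g hg =>
    obtain ⟨i, rfl⟩ := hg
    rw [Yc, nrm_conj, hy]
    simp
  | one => exact h0 n
  | mul p q hp hq ihp ihq =>
    rw [nrm_mul hc hp hq, ihp, ihq, one_mul]
  | inv p hp ihp =>
    have : p⁻¹ = p := inv_eq_of_mul_eq_one_left (hs p hp)
    rw [this, ihp]

theorem fix_one {ρ y : G} {n : ℕ} (hn : Odd n) (hs : ∀ g ∈ Rg ρ y, g * g = 1)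
    (hall : ∀ g ∈ Rg ρ y, nrm ρ g n = 1) {v : G} (hv : v ∈ Rg ρ y) (hf : ρ * v = v * ρ) :
    v = 1 := by
  have hcomm : ∀ m : ℕ, ρ ^ m * v * (ρ ^ m)⁻¹ = v := by
    intro m
    have : Commute ρ v := hf
    rw [(this.pow_left m).eq]
    group
  have h1 : ∀ m, nrm ρ v m = v ^ m := by
    intro m
    induction m with
    | zero => simp [nrm]
    | succ m ih => rw [nrm, ih, hcomm, pow_succ]
  have h2 := hall v hv
  rw [h1] at h2
  obtain ⟨k, rfl⟩ := hn
  rw [pow_succ, pow_mul, pow_two, hs v hv, one_pow, one_mul] at h2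
  exact h2

end normR

section final

variable {d x y : G}

/-- The map `u ↦ u^ρ u^{ρ⁻¹}`. -/
def Bm (ρ u : G) : G := Yc ρ u 1 * Yc ρ u (-1)

theorem exists_sq_partner [Finite G] (hD : IsRootInvolutionSet D) (hd : d ∈ D) (hx : x ∈ D)
    (hy : y ∈ D) (hyd : y * d = d * y) (hydD : y * d ∈ D) (hne : d ≠ x)
    (hodd : Odd (orderOf (d * x))) (h4 : orderOf (y * x) = 4) :
    ∃ f ∈ D, orderOf (f * d) = 4 ∧ (f * d) ^ 2 = y ∧ f * y = y * f := by
  classical
  have hdd := ri_sq hD hd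
  have hxx := ri_sq hD hx
  have hyy := ri_sq hD hy
  set ρ := d * x with hρ
  have hcY := Yc_comm hD hd hx hy hyd hydD hne hodd h4
  have hc := Rg_comm hcY
  have hYs : ∀ i : ℤ, Yc ρ y i * Yc ρ y i = 1 := fun i => ri_sq hD (Yc_mem hD hy i)
  have hs := Rg_sq hc hYs
  have hyR : y ∈ Rg ρ y := by
    have := Yc_mem_Rg ρ y 0
    rwa [Yc_zero] at this
  -- the norm of `y`
  have hnrm : nrm ρ y (orderOf ρ) = 1 := by
    have h1 := nrm_pow ρ y (orderOf ρ)
    rw [pow_orderOf_eq_one, mul_one] at h1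
    have h2 : Odd (orderOf (y * ρ)) := by
      rcases ri_lem3 hD hy hd hx hyd hydD hodd hne with h | h
      · rw [h4] at h
        exact absurd h.1 (by decide)
      · rw [hρ, ← mul_assoc]
        exact h.1
    have h3 : Odd (orderOf (nrm ρ y (orderOf ρ))) := by
      rw [← h1]
      exact Odd.of_dvd_nat h2 (orderOf_pow_dvd _)
    have h5 : orderOf (nrm ρ y (orderOf ρ)) ∣ 2 :=
      orderOf_dvd_of_pow_eq_one (by rw [pow_two]; exact hs _ (nrm_mem hyR _))
    have h6 := Nat.le_of_dvd (by norm_num) h5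
    obtain ⟨m, hm⟩ := h3
    have h7 : orderOf (nrm ρ y (orderOf ρ)) = 1 := by omega
    exact orderOf_eq_one_iff.mp h7
  have hall := nrm_all (n := orderOf ρ) hc hs hnrm
  -- conjugation by `ρ^{±1}` preserves `R`
  have hR1 : ∀ g ∈ Rg ρ y, ∀ i : ℤ, Yc ρ g i ∈ Rg ρ y := fun g hg i => Rg_conj ρ y i g hg
  -- injectivity of `Bm`
  have hBm_mul : ∀ g ∈ Rg ρ y, ∀ g' ∈ Rg ρ y, Bm ρ (g * g') = Bm ρ g * Bm ρ g' := by
    intro g hg g' hg'
    have e : ∀ i : ℤ, Yc ρ (g * g') i = Yc ρ g i * Yc ρ g' i := by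
      intro i; unfold Yc; group
    unfold Bm
    rw [e, e]
    have h1 := hc _ (hR1 g' hg' 1) _ (hR1 g hg (-1))
    calc Yc ρ g 1 * Yc ρ g' 1 * (Yc ρ g (-1) * Yc ρ g' (-1))
        = Yc ρ g 1 * (Yc ρ g' 1 * Yc ρ g (-1)) * Yc ρ g' (-1) := by group
      _ = Yc ρ g 1 * (Yc ρ g (-1) * Yc ρ g' 1) * Yc ρ g' (-1) := by rw [h1]
      _ = _ := by group
  have hBm_mem : ∀ g ∈ Rg ρ y, Bm ρ g ∈ Rg ρ y := fun g hg =>
    Subgroup.mul_mem _ (hR1 g hg 1) (hR1 g hg (-1))
  have hinj : ∀ g ∈ Rg ρ y, ∀ g' ∈ Rg ρ y, Bm ρ g = Bm ρ g' → g = g' := by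
    intro g hg g' hg' he
    have hv : g * g' ∈ Rg ρ y := Subgroup.mul_mem _ hg hg'
    have h1 : Bm ρ (g * g') = 1 := by
      rw [hBm_mul g hg g' hg', ← he]
      exact hs _ (hBm_mem g hg)
    have h2 : Yc ρ (g * g') 1 = Yc ρ (g * g') (-1) := by
      have h3 := hs _ (hR1 _ hv (-1))
      have h4 : Yc ρ (g * g') 1 * Yc ρ (g * g') (-1) = 1 := h1
      calc Yc ρ (g * g') 1 = Yc ρ (g * g') 1 * (Yc ρ (g * g') (-1) * Yc ρ (g * g') (-1)) := by
            rw [h3, mul_one]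
        _ = Yc ρ (g * g') 1 * Yc ρ (g * g') (-1) * Yc ρ (g * g') (-1) := by group
        _ = Yc ρ (g * g') (-1) := by rw [h4, one_mul]
    -- `ρ²` centralizes `gg'`
    have h3 : ρ ^ 2 * (g * g') = (g * g') * ρ ^ 2 := by
      have h4 : ρ * (g * g') * ρ⁻¹ = ρ⁻¹ * (g * g') * ρ := by
        have := h2
        simpa [Yc] using this
      calc ρ ^ 2 * (g * g') = ρ * (ρ * (g * g') * ρ⁻¹) * ρ := by rw [pow_two]; group
        _ = ρ * (ρ⁻¹ * (g * g') * ρ) * ρ := by rw [h4]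
        _ = (g * g') * ρ ^ 2 := by rw [pow_two]; group
    have h5 : ρ * (g * g') = (g * g') * ρ := by
      obtain ⟨m, hm⟩ := hodd
      have h6 : ρ = (ρ ^ 2) ^ (m + 1) := by
        rw [← pow_mul]
        have h7 : 2 * (m + 1) = (2 * m + 1) + 1 := by ring
        rw [h7, ← hm, pow_succ, pow_orderOf_eq_one, one_mul]
      have h8 : Commute (ρ ^ 2) (g * g') := h3
      have h9 := h8.pow_left (m + 1)
      rw [← h6] at h9
      exact h9
    have h10 := fix_one hodd hs hall hv h5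
    calc g = g * (g' * g') := by rw [hs g' hg', mul_one]
      _ = (g * g') * g' := by group
      _ = g' := by rw [h10, one_mul]
  -- the set `Ξ`
  let Ξ : Set G := {u | u ∈ Rg ρ y ∧ u ∈ D ∧ u * d = d * u ∧ u * d ∈ D ∧ orderOf (u * x) = 4}
  have hclosed : ∀ u ∈ Ξ, Bm ρ u ∈ Ξ ∧ orderOf (Yc ρ u 1 * d) = 4 ∧
      (Yc ρ u 1 * d) ^ 2 = Bm ρ u := by
    rintro u ⟨huR, hu, hud, hudD, hu4⟩
    have h1 := Yc_one_order hD hd hx hu hud hudD hne hodd hu4
    have h1' : orderOf (Yc ρ u 1 * d) = 4 := h1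
    have hfD : Yc ρ u 1 ∈ D := Yc_mem hD hu 1
    have hfdm : d * Yc ρ u 1 * d = Yc ρ u (-1) := d_Yc hdd hxx hud 1
    have hsq : (Yc ρ u 1 * d) ^ 2 = Bm ρ u := by
      unfold Bm
      rw [← hfdm, pow_two]
      group
    have hcD : Bm ρ u ∈ D := by
      rw [← hsq]
      exact four_sq_mem hD hfD hd h1'
    have hff := ri_sq hD hfD
    have h41 : (Yc ρ u 1 * d) ^ 4 = 1 := by rw [← h1']; exact pow_orderOf_eq_one _
    -- `c` commutes with `d`
    have hcd : Bm ρ u * d = d * Bm ρ u := by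
      have h5 := sq_comm hdd hff (by
        have e : (d * Yc ρ u 1) ^ 4 = d * (Yc ρ u 1 * d) ^ 4 * d⁻¹ := by
          rw [← conj_pow]; congr 1; group
        rw [e, h41]; simp)
      have e : Bm ρ u = Yc ρ u 1 * d * Yc ρ u 1 * d := by
        rw [← hsq, pow_two]; group
      rw [e]
      calc Yc ρ u 1 * d * Yc ρ u 1 * d * d = (Yc ρ u 1 * d * Yc ρ u 1) * (d * d) := by group
        _ = Yc ρ u 1 * d * Yc ρ u 1 := by rw [hdd, mul_one]
        _ = d * (d * (Yc ρ u 1 * d * Yc ρ u 1)) := by rw [← mul_assoc, hdd, one_mul]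
        _ = d * ((Yc ρ u 1 * d * Yc ρ u 1) * d) := by rw [h5]
    have hcdD : Bm ρ u * d ∈ D := by
      have h5 := ri_conj' hD hd hfD
      have e : Bm ρ u * d = Yc ρ u 1 * d * Yc ρ u 1 := by
        have e1 : Bm ρ u = Yc ρ u 1 * d * Yc ρ u 1 * d := by
          rw [← hsq, pow_two]; group
        rw [e1, mul_assoc _ d d, hdd, mul_one]
      rw [e]
      exact h5
    have hcR : Bm ρ u ∈ Rg ρ y := hBm_mem u huR
    have hc4 : orderOf (Bm ρ u * x) = 4 := by
      have hnc : ¬ (Bm ρ u * x = x * Bm ρ u) := fun h =>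
        ri_lem1 hD hcD hd hx hcd hcdD hodd hne h
      have hxc : x * Bm ρ u * x ∈ Rg ρ y := Rg_conj_x hdd hxx hyd _ hcR
      have e4 : (Bm ρ u * x) ^ 4 = 1 := by
        have h6 : (Bm ρ u * x) ^ 2 = Bm ρ u * (x * Bm ρ u * x) := by
          rw [pow_two]; group
        have : (Bm ρ u * x) ^ 4 = (Bm ρ u * x) ^ 2 * (Bm ρ u * x) ^ 2 := by rw [← pow_add]
        rw [this, h6]
        exact hs _ (Subgroup.mul_mem _ hcR hxc)
      rcases hD.pair _ hcD x hx with h | h | h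
      · exact absurd h hnc
      · exfalso
        have h5 := orderOf_dvd_of_pow_eq_one e4
        obtain ⟨m, hm⟩ := h
        have h6 : orderOf (Bm ρ u * x) = 1 := by
          have h7 : orderOf (Bm ρ u * x) ≤ 4 := Nat.le_of_dvd (by norm_num) h5
          interval_cases hv : orderOf (Bm ρ u * x) <;> omega
        apply hnc
        have h8 : Bm ρ u * x = 1 := orderOf_eq_one_iff.mp h6
        have h9 : Bm ρ u = x := by
          calc Bm ρ u = Bm ρ u * (x * x) := by rw [hxx, mul_one]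
            _ = (Bm ρ u * x) * x := by group
            _ = x := by rw [h8, one_mul]
        rw [h9]
      · exact h.1
    exact ⟨⟨hcR, hcD, hcd, hcdD, hc4⟩, h1', hsq⟩
  -- permutation on the finite set
  have hyΞ : y ∈ Ξ := ⟨hyR, hy, hyd, hydD, h4⟩
  haveI : Finite Ξ := Set.toFinite _
  let φ : Ξ → Ξ := fun u => ⟨Bm ρ u, (hclosed u u.2).1⟩
  have hφinj : Function.Injective φ := by
    intro a b hab
    have h1 : Bm ρ a = Bm ρ b := congrArg Subtype.val hab
    exact Subtype.ext (hinj a a.2.1 b b.2.1 h1)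
  obtain ⟨u, hu⟩ := (Finite.injective_iff_surjective.mp hφinj) ⟨y, hyΞ⟩
  have hBu : Bm ρ u = y := congrArg Subtype.val hu
  obtain ⟨-, h1, h2⟩ := hclosed u u.2
  refine ⟨Yc ρ u 1, Yc_mem hD u.2.2.1 1, h1, h2.trans hBu, ?_⟩
  rw [← hBu]
  exact hc _ (hR1 u u.2.1 1) _ (hBm_mem u u.2.1)

end final

end Cfsg.Agent.Lib.LocalEven.RiStep
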