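import Mathlib
import Cfsg.Prelude.Def_RootSubgroups
import Cfsg.Agent.Lib.Root.Invol
import Cfsg.Agent.Lib.LocalEven.RiStep

/-! Root involutions with connected odd graph: members with the same odd partners have the same
commuting members; the blocks of such members are commuting sets. -/

set_option autoImplicit false

namespace Cfsg.Agent.Lib.LocalEven.RiBlock

open Cfsg
open Cfsg.Agent.Lib.Root
open Cfsg.Agent.Lib.LocalEven.RiStep
open scoped commutatorElement

variable {G : Type*} [Group G] {D : Set G}

section pure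

/-- The key identity. -/
theorem lemC {e d f : G} (he : e * e = 1) (hd : d * d = 1) (hf : f * f = 1) (hd1 : d ≠ 1)
    (hed : e * d = d * e) (h4 : (f * d) ^ 4 = 1) (hef : (e * f) ^ 4 = 1)
    (hc : e * ((f * d) ^ 2) * e = (f * d) ^ 2 * d) : False := by
  set g : G := e * f * e * f with hg
  have hfe4 : (f * e) ^ 4 = 1 := by
    have e1 : f * e = f * (e * f) * f⁻¹ := by group
    rw [e1, conj_pow, hef]
    simp
  -- `g` commutes with `f`
  have hgf : g * f = f * g := by
    have h1 := sq_comm hf he hfe4
    rw [hg]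
    calc e * f * e * f * f = ((e * f * e) * f) * f := by group
      _ = (f * (e * f * e)) * f := by rw [← h1]
      _ = f * (e * f * e * f) := by group
  have hgg : g * g = 1 := by
    rw [hg]
    have : (e * f) ^ 4 = e * f * e * f * (e * f * e * f) := by
      simp only [pow_succ, pow_zero, one_mul, mul_assoc]
    rw [← this, hef]
  have hgi : g⁻¹ = g := inv_eq_of_mul_eq_one_left hgg
  have hdi : d⁻¹ = d := inv_eq_of_mul_eq_one_left hd
  have hfi : f⁻¹ = f := inv_eq_of_mul_eq_one_left hf
  have he1 : e * f * e = g * f := by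
    rw [hg, mul_assoc _ f f, hf, mul_one]
  have he2 : e * (d * f * d) * e = (d * g * d) * (d * f * d) := by
    have h1 : (d * g * d) * (d * f * d) = d * (g * f) * d := by
      calc (d * g * d) * (d * f * d) = d * g * (d * d) * f * d := by group
        _ = d * (g * f) * d := by rw [hd]; group
    rw [h1, ← he1]
    have h2 : d * e = e * d := hed.symm
    calc e * (d * f * d) * e = (e * d) * f * (d * e) := by group
      _ = (d * e) * f * (e * d) := by rw [hed, h2]
      _ = d * (e * f * e) * d := by group
  have hsq : (f * d) ^ 2 = f * (d * f * d) := by rw [pow_two]; group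
  have hc1 : (e * f * e) * (e * (d * f * d) * e) = f * (d * f * d) * d := by
    have h1 := hc
    rw [hsq] at h1
    rw [← h1]
    calc (e * f * e) * (e * (d * f * d) * e) = e * f * (e * e) * (d * f * d) * e := by group
      _ = e * (f * (d * f * d)) * e := by rw [he]; group
  rw [he1, he2] at hc1
  -- cancelling
  have hc2 : g * (d * g * d) * (d * f * d) = (d * f * d) * d := by
    have h1 : f * (g * (d * g * d) * (d * f * d)) = f * ((d * f * d) * d) := by
      calc f * (g * (d * g * d) * (d * f * d)) = (f * g) * (d * g * d) * (d * f * d) := by group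
        _ = (g * f) * (d * g * d) * (d * f * d) := by rw [hgf]
        _ = g * f * (d * g * d * (d * f * d)) := by group
        _ = f * (d * f * d) * d := hc1
        _ = _ := by group
    exact mul_left_cancel h1
  have hfp : (d * f * d) * (d * f * d) = 1 := by
    calc (d * f * d) * (d * f * d) = d * f * (d * d) * f * d := by group
      _ = d * (f * f) * d := by rw [hd]; group
      _ = 1 := by rw [hf, mul_one, hd]
  have hE : g * (d * g * d) = (d * f * d) * d * (d * f * d) := by
    calc g * (d * g * d) = g * (d * g * d) * ((d * f * d) * (d * f * d)) := by rw [hfp, mul_one]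
      _ = (g * (d * g * d) * (d * f * d)) * (d * f * d) := by group
      _ = _ := by rw [hc2]
  -- `f, f'` commute
  have hcomm := sq_comm hf hd h4
  -- the right side is `f d f`
  have hR : (d * f * d) * d * (d * f * d) = f * d * f := by
    have h1 : (d * f * d) * d * (d * f * d) = (d * f * d) * f * d := by
      calc (d * f * d) * d * (d * f * d) = d * f * (d * d) * (d * f * d) := by group
        _ = d * f * (d * f * d) := by rw [hd, mul_one]
        _ = d * f * d * f * d := by group
        _ = (d * f * d) * f * d := by group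
    rw [h1, ← hcomm]
    calc f * (d * f * d) * d = f * d * f * (d * d) := by group
      _ = f * d * f := by rw [hd, mul_one]
  rw [hR] at hE
  -- conjugating by `g`
  have hk : g * (f * d * f) * g = f * d * f := by
    have h0 : (f * d * f) * (f * d * f) = 1 := by
      calc (f * d * f) * (f * d * f) = f * d * (f * f) * d * f := by group
        _ = f * (d * d) * f := by rw [hf]; group
        _ = 1 := by rw [hd, mul_one, hf]
    have h1 : (f * d * f)⁻¹ = f * d * f := inv_eq_of_mul_eq_one_left h0
    have h2 : g * (f * d * f) * g = (f * d * f)⁻¹ := by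
      rw [← hE]
      have : (g * (d * g * d))⁻¹ = d * g * d * g := by
        rw [mul_inv_rev, mul_inv_rev, mul_inv_rev, hgi, hdi]
        group
      rw [this]
      calc g * (g * (d * g * d)) * g = (g * g) * (d * g * d) * g := by group
        _ = d * g * d * g := by rw [hgg, one_mul]
    rw [h2, h1]
  have hgd : g * d * g = d := by
    have h1 : f * (g * (f * d * f) * g) * f = f * (f * d * f) * f := by rw [hk]
    have h2 : f * (f * d * f) * f = d := by
      calc f * (f * d * f) * f = (f * f) * d * (f * f) := by group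
        _ = d := by rw [hf, one_mul, mul_one]
    have h3 : f * (g * (f * d * f) * g) * f = g * d * g := by
      calc f * (g * (f * d * f) * g) * f = (f * g) * f * d * f * (g * f) := by group
        _ = (g * f) * f * d * f * (f * g) := by rw [hgf]
        _ = g * (f * f) * d * (f * f) * g := by group
        _ = g * d * g := by rw [hf]; group
    rw [h3, h2] at h1
    exact h1
  have h1 : f * d * f = 1 := by
    rw [← hE]
    calc g * (d * g * d) = (g * d * g) * d := by group
      _ = 1 := by rw [hgd, hd]
  apply hd1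
  calc d = f * (f * d * f) * f := by
        have : f * (f * d * f) * f = (f * f) * d * (f * f) := by group
        rw [this, hf, one_mul, mul_one]
    _ = 1 := by rw [h1, mul_one, hf]

/-- A finite set of involutions, closed under the commutators of its members, contains a member
commuting with all of them. -/
theorem exists_central [Finite G] {B : Set G} (hne : B.Nonempty) (hs : ∀ b ∈ B, b * b = 1)
    (h1 : ∀ b ∈ B, b ≠ 1) (hcj : ∀ a ∈ B, ∀ b ∈ B, a * b * a ∈ B)
    (hp : ∀ a ∈ B, ∀ b ∈ B, a * b = b * a ∨ (a * b * a * b ∈ B ∧ (a * b) ^ 4 = 1)) :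
    ∃ z ∈ B, ∀ b ∈ B, z * b = b * z := by
  classical
  haveI : Fact (Nat.Prime 2) := ⟨Nat.prime_two⟩
  set Q := Subgroup.closure B with hQ
  let Δ : Set Q := (fun q : Q => (q : G)) ⁻¹' B
  have hinv : ∀ b ∈ B, b⁻¹ = b := fun b hb => inv_eq_of_mul_eq_one_left (hs b hb)
  have hconjQ' : ∀ g ∈ Q, (∀ a ∈ B, g * a * g⁻¹ ∈ B) ∧ (∀ a ∈ B, g⁻¹ * a * g ∈ B) := by
    intro g hg
    induction hg using Subgroup.closure_induction with
    | mem g hg =>
      constructor
      · intro a ha
        rw [hinv g hg]
        exact hcj g hg a ha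
      · intro a ha
        rw [hinv g hg]
        exact hcj g hg a ha
    | one => simp
    | mul p q _ _ hp hq =>
      constructor
      · intro a ha
        have : p * q * a * (p * q)⁻¹ = p * (q * a * q⁻¹) * p⁻¹ := by group
        rw [this]
        exact hp.1 _ (hq.1 a ha)
      · intro a ha
        have : (p * q)⁻¹ * a * (p * q) = q⁻¹ * (p⁻¹ * a * p) * q := by group
        rw [this]
        exact hq.2 _ (hp.2 a ha)
    | inv p _ hp =>
      constructor
      · intro a ha
        rw [inv_inv]
        exact hp.2 a ha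
      · intro a ha
        rw [inv_inv]
        exact hp.1 a ha
  have hconjQ : ∀ g ∈ Q, ∀ a ∈ B, g * a * g⁻¹ ∈ B := fun g hg => (hconjQ' g hg).1
  have hΔ : Lib.Invol.ConjClosed Δ := by
    intro a ha g
    exact hconjQ g g.2 a ha
  have hpair : ∀ a ∈ Δ, ∀ b ∈ Δ, IsPGroup 2 (Subgroup.closure ({a, b} : Set Q)) := by
    intro a ha b hb
    apply ri_pair_pgroup
    · exact Subtype.ext (hs _ ha)
    · exact Subtype.ext (hs _ hb)
    · rcases hp _ ha _ hb with h | h
      · apply Subtype.ext
        show ((a : G) * b) ^ 4 = 1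
        have h2 : ((a : G) * b) * ((a : G) * b) = 1 := by
          calc ((a : G) * b) * ((a : G) * b) = (a : G) * (b * a) * b := by group
            _ = (a : G) * (a * b) * b := by rw [h]
            _ = ((a : G) * a) * (b * b) := by group
            _ = 1 := by rw [hs _ ha, hs _ hb, one_mul]
        calc ((a : G) * b) ^ 4 = (((a : G) * b) * ((a : G) * b)) ^ 2 := by
              rw [← pow_two, ← pow_mul]
          _ = 1 := by rw [h2, one_pow]
      · apply Subtype.ext
        show ((a : G) * b) ^ 4 = 1
        exact h.2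
  have hcl := Lib.Invol.isPGroup_closure_of_pairs 2 _ rfl Δ hΔ hpair
  have htop : Subgroup.closure Δ = ⊤ := Subgroup.closure_closure_coe_preimage
  have hP : IsPGroup 2 Q := by
    rw [htop] at hcl
    exact IsPGroup.of_equiv hcl Subgroup.topEquiv
  have hnil : Group.IsNilpotent Q := hP.isNilpotent
  obtain ⟨N, hN⟩ := hnil.nilpotent
  obtain ⟨b₀, hb₀⟩ := hne
  have hex : ∃ n, ∃ b ∈ Δ, b ∈ Subgroup.upperCentralSeries Q n := by
    refine ⟨N, ⟨b₀, Subgroup.subset_closure hb₀⟩, hb₀, ?_⟩
    rw [hN]
    exact Subgroup.mem_top _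
  obtain ⟨b, hb, hbm⟩ := Nat.find_spec hex
  have hmin := fun m (hm : m < Nat.find hex) => Nat.find_min hex hm
  set n := Nat.find hex with hn
  have hn0 : n ≠ 0 := by
    intro h0
    rw [h0, Subgroup.upperCentralSeries_zero, Subgroup.mem_bot] at hbm
    exact h1 _ hb (congrArg Subtype.val hbm)
  obtain ⟨m, hm⟩ := Nat.exists_eq_succ_of_ne_zero hn0
  rw [hm, Nat.succ_eq_add_one, Subgroup.mem_upperCentralSeries_succ_iff] at hbm
  refine ⟨b, hb, ?_⟩
  intro c hc
  by_contra hnc
  have hcQ : c ∈ Q := Subgroup.subset_closure hc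
  have h2 := hbm ⟨c, hcQ⟩
  rcases hp b hb c hc with h | h
  · exact hnc h
  · apply hmin m (by omega)
    refine ⟨⟨b * c * b * c, Subgroup.subset_closure h.1⟩, h.1, ?_⟩
    have e : (⟨(b : G) * c * b * c, Subgroup.subset_closure h.1⟩ : Q) = ⁅b, (⟨c, hcQ⟩ : Q)⁆ := by
      apply Subtype.ext
      show (b : G) * c * b * c = (b : G) * c * (b : G)⁻¹ * c⁻¹
      rw [hinv _ hb, hinv _ hc]
    rw [e]
    exact h2

end pure

section root

variable (hD : IsRootInvolutionSet D)
include hD

theorem odd_not_comm {d u : G} (hd : d ∈ D) (hu : u ∈ D) (hne : u ≠ d) (h : Odd (orderOf (d * u))) :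
    ¬ (u * d = d * u) := by
  intro hc
  have h2 : (d * u) ^ 2 = 1 := by
    rw [pow_two]
    calc (d * u) * (d * u) = d * (u * d) * u := by group
      _ = d * (d * u) * u := by rw [hc]
      _ = (d * d) * (u * u) := by group
      _ = 1 := by rw [ri_sq hD hd, ri_sq hD hu, one_mul]
  have h3 := orderOf_dvd_of_pow_eq_one h2
  have h4 := Nat.le_of_dvd (by norm_num) h3
  obtain ⟨m, hm⟩ := h
  have h5 : orderOf (d * u) = 1 := by omega
  apply hne
  have h6 : d * u = 1 := orderOf_eq_one_iff.mp h5
  calc u = d * (d * u) := by rw [← mul_assoc, ri_sq hD hd, one_mul]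
    _ = d := by rw [h6, mul_one]

/-- Trichotomy. -/
theorem tri {d u : G} (hd : d ∈ D) (hu : u ∈ D) :
    u ∈ oddPartners D d ∨ u * d = d * u ∨ orderOf (d * u) = 4 := by
  rcases hD.pair d hd u hu with h | h | h
  · exact Or.inr (Or.inl h.symm)
  · by_cases hne : u = d
    · right; left; rw [hne]
    · exact Or.inl ⟨hu, hne, h⟩
  · exact Or.inr (Or.inr h.1)

omit hD in
theorem four_not_odd {d u : G} (h : orderOf (d * u) = 4) : u ∉ oddPartners D d := by
  rintro ⟨-, -, h2⟩
  rw [h] at h2
  exact absurd h2 (by decide)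

theorem comm_not_odd {d u : G} (hd : d ∈ D) (hu : u * d = d * u) : u ∉ oddPartners D d := by
  rintro ⟨h1, h2, h3⟩
  exact odd_not_comm hD hd h1 h2 h3 hu

theorem four_pow {d u : G} (hd : d ∈ D) (hu : u ∈ D) (h : u ∉ oddPartners D d) : (d * u) ^ 4 = 1 := by
  rcases tri hD hd hu with h1 | h1 | h1
  · exact absurd h1 h
  · have h2 : (d * u) * (d * u) = 1 := by
      calc (d * u) * (d * u) = d * (u * d) * u := by group
        _ = d * (d * u) * u := by rw [h1]
        _ = (d * d) * (u * u) := by group
        _ = 1 := by rw [ri_sq hD hd, ri_sq hD hu, one_mul]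
    calc (d * u) ^ 4 = ((d * u) * (d * u)) ^ 2 := by rw [← pow_two, ← pow_mul]
      _ = 1 := by rw [h2, one_pow]
  · rw [← h1]
    exact pow_orderOf_eq_one _

/-- The union description of the complement. -/
theorem mem_union_iff {d u : G} (hd : d ∈ D) (hu : u ∈ D) :
    u ∈ commutingMembers D d ∪ fourPartners D d ↔ u ∉ oddPartners D d := by
  constructor
  · rintro (⟨-, h⟩ | ⟨-, h⟩)
    · exact comm_not_odd hD hd h
    · exact four_not_odd h
  · intro h
    rcases tri hD hd hu with h1 | h1 | h1
    · exact absurd h1 h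
    · exact Or.inl ⟨hu, h1⟩
    · exact Or.inr ⟨hu, h1⟩

theorem union_eq_iff {d e : G} (hd : d ∈ D) (he : e ∈ D) :
    commutingMembers D d ∪ fourPartners D d = commutingMembers D e ∪ fourPartners D e ↔
      oddPartners D d = oddPartners D e := by
  have hsub : ∀ {a u : G}, u ∈ commutingMembers D a ∪ fourPartners D a → u ∈ D := by
    rintro a u (h | h) <;> exact h.1
  have hsub2 : ∀ {a u : G}, u ∈ oddPartners D a → u ∈ D := fun h => h.1
  constructor
  · intro h
    ext u
    constructor
    · intro hu
      by_contra hn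
      have h1 := (mem_union_iff hD he hu.1).mpr hn
      rw [← h] at h1
      exact (mem_union_iff hD hd hu.1).mp h1 hu
    · intro hu
      by_contra hn
      have h1 := (mem_union_iff hD hd hu.1).mpr hn
      rw [h] at h1
      exact (mem_union_iff hD he hu.1).mp h1 hu
  · intro h
    ext u
    constructor
    · intro hu
      have hm := hsub hu
      rw [mem_union_iff hD he hm, ← h]
      exact (mem_union_iff hD hd hm).mp hu
    · intro hu
      have hm := hsub hu
      rw [mem_union_iff hD hd hm, h]
      exact (mem_union_iff hD he hm).mp hu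

/-- Conjugating the set of odd partners. -/
theorem odd_conj {a u : G} (g : G) (h : u ∈ oddPartners D a) :
    g * u * g⁻¹ ∈ oddPartners D (g * a * g⁻¹) := by
  refine ⟨hD.conj_mem u h.1 g, ?_, ?_⟩
  · intro h1
    apply h.2.1
    simpa using h1
  · have : g * a * g⁻¹ * (g * u * g⁻¹) = g * (a * u) * g⁻¹ := by group
    rw [this, ri_orderOf_conj]
    exact h.2.2

theorem odd_conj_iff {a u : G} (g : G) :
    g * u * g⁻¹ ∈ oddPartners D (g * a * g⁻¹) ↔ u ∈ oddPartners D a := by
  constructor
  · intro h
    have := odd_conj hD g⁻¹ h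
    have e1 : g⁻¹ * (g * u * g⁻¹) * g⁻¹⁻¹ = u := by group
    have e2 : g⁻¹ * (g * a * g⁻¹) * g⁻¹⁻¹ = a := by group
    rwa [e1, e2] at this
  · exact odd_conj hD g

theorem odd_image (a g : G) :
    oddPartners D (g * a * g⁻¹) = (fun u => g * u * g⁻¹) '' oddPartners D a := by
  ext v
  constructor
  · intro h
    refine ⟨g⁻¹ * v * g, ?_, by group⟩
    rw [← odd_conj_iff hD g]
    have : g * (g⁻¹ * v * g) * g⁻¹ = v := by group
    rwa [this]
  · rintro ⟨u, hu, rfl⟩
    exact odd_conj hD g hu

/-- The members are conjugate. -/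
theorem conj_of_conn (hc : IsConnectedSet (OddAdj D) D) {a b : G} (ha : a ∈ D) (hb : b ∈ D) :
    ∃ g : G, b = g * a * g⁻¹ := by
  have h := hc a ha b hb
  induction h with
  | refl => exact ⟨1, by simp⟩
  | tail _ hbc ih =>
    obtain ⟨g, rfl⟩ := ih hbc.1
    obtain ⟨g', hg'⟩ := ri_conj_of_odd (ri_sq hD hbc.1) (ri_sq hD hbc.2.1) hbc.2.2.2
    refine ⟨g' * g, ?_⟩
    rw [hg']
    group

theorem odd_ncard [Finite G] (hc : IsConnectedSet (OddAdj D) D) {a b : G} (ha : a ∈ D) (hb : b ∈ D) :
    (oddPartners D a).ncard = (oddPartners D b).ncard := by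
  obtain ⟨g, rfl⟩ := conj_of_conn hD hc ha hb
  rw [odd_image hD]
  refine (Set.ncard_image_of_injective _ ?_).symm
  intro u v huv
  simpa using huv

theorem odd_eq_of_subset [Finite G] (hc : IsConnectedSet (OddAdj D) D) {a b : G} (ha : a ∈ D)
    (hb : b ∈ D) (h : oddPartners D a ⊆ oddPartners D b) : oddPartners D a = oddPartners D b :=
  Set.eq_of_subset_of_ncard_le h (odd_ncard hD hc hb ha).le (Set.toFinite _)

/-- Facts on a product of order four. -/
theorem four_facts {a b : G} (ha : a ∈ D) (hb : b ∈ D) (h4 : orderOf (a * b) = 4) :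
    a * b * a * b ∈ D ∧ (a * b * a * b) * a = a * (a * b * a * b) ∧
      (a * b * a * b) * b = b * (a * b * a * b) ∧ (a * b * a * b) * b = a * b * a ∧
      (a * b * a * b) * a = a * b * a * b * a := by
  have haa := ri_sq hD ha
  have hbb := ri_sq hD hb
  have h41 : (a * b) ^ 4 = 1 := by rw [← h4]; exact pow_orderOf_eq_one _
  have hb4 : (b * a) ^ 4 = 1 := by
    have e1 : b * a = b * (a * b) * b⁻¹ := by group
    rw [e1, conj_pow, h41]
    simp
  have h1 : a * b * a * b ∈ D := by
    have := four_sq_mem hD ha hb h4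
    rwa [pow_two, ← mul_assoc] at this
  have h2 := sq_comm haa hbb h41
  have h3 := sq_comm hbb haa hb4
  refine ⟨h1, ?_, ?_, ?_, rfl⟩
  · calc a * b * a * b * a = (a * (b * a * b)) * a := by group
      _ = ((b * a * b) * a) * a := by rw [h2]
      _ = (b * a * b) * (a * a) := by group
      _ = b * a * b := by rw [haa, mul_one]
      _ = (a * a) * (b * a * b) := by rw [haa, one_mul]
      _ = a * (a * b * a * b) := by group
  · calc a * b * a * b * b = a * b * a * (b * b) := by group
      _ = a * b * a := by rw [hbb, mul_one]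
      _ = (b * b) * (a * b * a) := by rw [hbb, one_mul]
      _ = b * (b * (a * b * a)) := by group
      _ = b * ((a * b * a) * b) := by rw [h3]
      _ = b * (a * b * a * b) := by group
  · calc a * b * a * b * b = a * b * a * (b * b) := by group
      _ = a * b * a := by rw [hbb, mul_one]

/-- `C_d = C_e` implies `A_d = A_e`. -/
theorem odd_sub_of_comm_eq {d e : G} (hd : d ∈ D) (he : e ∈ D)
    (h : commutingMembers D d = commutingMembers D e) : oddPartners D d ⊆ oddPartners D e := by
  intro x hx
  rcases tri hD he hx.1 with h1 | h1 | h1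
  · exact h1
  · exfalso
    have h2 : x ∈ commutingMembers D d := by rw [h]; exact ⟨hx.1, h1⟩
    exact odd_not_comm hD hd hx.1 hx.2.1 hx.2.2 h2.2
  · exfalso
    obtain ⟨hz, hze, hzx, hzx2, -⟩ := four_facts hD he hx.1 h1
    have h2 : e * x * e * x ∈ commutingMembers D d := by rw [h]; exact ⟨hz, hze⟩
    have h3 : (e * x * e * x) * x ∈ D := by
      rw [hzx2]
      have := ri_conj' hD hx.1 he
      exact this
    exact ri_lem1 hD hz hx.1 hd hzx h3 (ri_odd_symm hx.2.2) hx.2.1 h2.2

end root

end Cfsg.Agent.Lib.LocalEven.RiBlock
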