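import Mathlib
import Cfsg.Prelude.Def_RootSubgroups
import Cfsg.Agent.Lib.Root.Invol
import Cfsg.Agent.Lib.LocalEven.RiStep
import Cfsg.Agent.Lib.LocalEven.RiBlock

/-! Root involutions with connected odd graph: `E_d` and the order three partners. -/

set_option autoImplicit false

namespace Cfsg.Agent.Lib.LocalEven.RiMain

open Cfsg
open Cfsg.Agent.Lib.Root
open Cfsg.Agent.Lib.LocalEven.RiStep
open Cfsg.Agent.Lib.LocalEven.RiBlock

variable {G : Type*} [Group G] {D : Set G}

section

variable (hD : IsRootInvolutionSet D)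
include hD

theorem order_four_of {b x : G} (hb : b ∈ D) (hx : x ∈ D) (hnc : ¬ (b * x = x * b))
    (h4 : (b * x) ^ 4 = 1) : orderOf (b * x) = 4 := by
  rcases hD.pair b hb x hx with h | h | h
  · exact absurd h hnc
  · exfalso
    have h5 := orderOf_dvd_of_pow_eq_one h4
    obtain ⟨m, hm⟩ := h
    have h6 : orderOf (b * x) = 1 := by
      have h7 : orderOf (b * x) ≤ 4 := Nat.le_of_dvd (by norm_num) h5
      interval_cases hv : orderOf (b * x) <;> omega
    apply hnc
    have h8 : b * x = 1 := orderOf_eq_one_iff.mp h6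
    have h9 : b = x := by
      calc b = b * (x * x) := by rw [ri_sq hD hx, mul_one]
        _ = (b * x) * x := by group
        _ = x := by rw [h8, one_mul]
    rw [h9]
  · exact h.1

variable [Finite G] (hc : IsConnectedSet (OddAdj D) D)
include hc

/-- Members with the same odd partners commute. -/
theorem block_comm {a b : G} (ha : a ∈ D) (hb : b ∈ D) (h : oddPartners D a = oddPartners D b) :
    a * b = b * a := by
  classical
  let B : Set G := {u | u ∈ D ∧ oddPartners D u = oddPartners D a}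
  have hconjB : ∀ (g u v : G), u ∈ B → v ∈ B → g * u * g⁻¹ ∈ B → g * v * g⁻¹ ∈ B := by
    intro g u v hu hv hg
    refine ⟨hD.conj_mem v hv.1 g, ?_⟩
    calc oddPartners D (g * v * g⁻¹) = (fun w => g * w * g⁻¹) '' oddPartners D v := odd_image hD v g
      _ = (fun w => g * w * g⁻¹) '' oddPartners D u := by rw [hv.2, hu.2]
      _ = oddPartners D (g * u * g⁻¹) := (odd_image hD u g).symm
      _ = oddPartners D a := hg.2
  have hs : ∀ u ∈ B, u * u = 1 := fun u hu => ri_sq hD hu.1
  have h1 : ∀ u ∈ B, u ≠ 1 := fun u hu => ri_ne_one hD hu.1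
  have hcj : ∀ u ∈ B, ∀ v ∈ B, u * v * u ∈ B := by
    intro u hu v hv
    have h2 := hconjB u u v hu hv (by
      have : u * u * u⁻¹ = u := by group
      rw [this]; exact hu)
    rwa [ri_inv hD hu.1] at h2
  have hp : ∀ u ∈ B, ∀ v ∈ B, u * v = v * u ∨ (u * v * u * v ∈ B ∧ (u * v) ^ 4 = 1) := by
    intro u hu v hv
    have hnv : v ∉ oddPartners D u := by
      rw [hu.2, ← hv.2]
      rintro ⟨-, h2, -⟩
      exact h2 rfl
    rcases tri hD hu.1 hv.1 with h2 | h2 | h2
    · exact absurd h2 hnv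
    · exact Or.inl h2.symm
    · right
      refine ⟨?_, by rw [← h2]; exact pow_orderOf_eq_one _⟩
      obtain ⟨hz, hzu, -, -, -⟩ := four_facts hD hu.1 hv.1 h2
      refine ⟨hz, ?_⟩
      have huz : u * (u * v * u * v) = v * u * v := by
        calc u * (u * v * u * v) = (u * u) * v * u * v := by group
          _ = v * u * v := by rw [hs u hu, one_mul]
      have hw : v * u * v ∈ B := hcj v hv u hu
      have hsub : oddPartners D (u * v * u * v) ⊆ oddPartners D a := by
        intro x hx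
        rcases ri_lem3 hD hu.1 hz hx.1 hzu.symm (by rw [huz]; exact hw.1) hx.2.2 hx.2.1.symm
          with h3 | h3
        · rw [← hu.2]
          exact ⟨hx.1, h3.2.symm, h3.1⟩
        · rw [huz] at h3
          rw [← hw.2]
          exact ⟨hx.1, h3.2.symm, h3.1⟩
      exact odd_eq_of_subset hD hc hz ha hsub
  have haB : a ∈ B := ⟨ha, rfl⟩
  have hbB : b ∈ B := ⟨hb, h.symm⟩
  obtain ⟨z, hz, hzc⟩ := exists_central ⟨a, haB⟩ hs h1 hcj hp
  obtain ⟨g, hg⟩ := conj_of_conn hD hc hz.1 ha
  have h2 : g⁻¹ * b * g ∈ B := by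
    have h3 := hconjB g⁻¹ a b haB hbB (by
      rw [hg]
      have : g⁻¹ * (g * z * g⁻¹) * g⁻¹⁻¹ = z := by group
      rw [this]; exact hz)
    rwa [inv_inv] at h3
  have h3 := hzc _ h2
  rw [hg]
  calc g * z * g⁻¹ * b = g * (z * (g⁻¹ * b * g)) * g⁻¹ := by group
    _ = g * ((g⁻¹ * b * g) * z) * g⁻¹ := by rw [h3]
    _ = b * (g * z * g⁻¹) := by group

/-- Same odd partners implies the same commuting members (one inclusion). -/
theorem comm_sub_of_odd_eq {d e : G} (hd : d ∈ D) (he : e ∈ D)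
    (h : oddPartners D d = oddPartners D e) : commutingMembers D d ⊆ commutingMembers D e := by
  rintro y ⟨hy, hyd⟩
  refine ⟨hy, ?_⟩
  by_contra hn
  have hyA : y ∉ oddPartners D e := by
    rw [← h]
    exact comm_not_odd hD hd hyd
  have h4 : orderOf (e * y) = 4 := by
    rcases tri hD he hy with h2 | h2 | h2
    · exact absurd h2 hyA
    · exact absurd h2 hn
    · exact h2
  obtain ⟨hz, hze, hzy, hzy2, -⟩ := four_facts hD he hy h4
  set z := e * y * e * y with hzdef
  have hee := ri_sq hD he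
  have hyy := ri_sq hD hy
  have hzz := ri_sq hD hz
  have hyi : y⁻¹ = y := ri_inv hD hy
  have hez : e * z = y * e * y := by
    rw [hzdef]
    calc e * (e * y * e * y) = (e * e) * y * e * y := by group
      _ = y * e * y := by rw [hee, one_mul]
  have hconj : oddPartners D (y * e * y) = oddPartners D e := by
    have h1 := odd_image hD e y
    have h2 := odd_image hD d y
    rw [hyi] at h1 h2
    have h3 : y * d * y = d := by
      calc y * d * y = d * y * y := by rw [hyd]
        _ = d := by rw [mul_assoc, hyy, mul_one]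
    rw [h3] at h2
    rw [h1, ← h, ← h2, h]
  have hsub : oddPartners D z ⊆ oddPartners D e := by
    intro x hx
    rcases ri_lem3 hD he hz hx.1 hze.symm (by rw [hez]; exact ri_conj' hD he hy) hx.2.2 hx.2.1.symm
      with h3 | h3
    · exact ⟨hx.1, h3.2.symm, h3.1⟩
    · rw [hez] at h3
      rw [← hconj]
      exact ⟨hx.1, h3.2.symm, h3.1⟩
  have hAz : oddPartners D z = oddPartners D e := odd_eq_of_subset hD hc hz he hsub
  by_cases hAy : oddPartners D y = oddPartners D e
  · exact hn (block_comm hD hc hy he hAy)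
  have hnot : ¬ (oddPartners D z ⊆ oddPartners D y) := by
    intro h5
    apply hAy
    rw [← odd_eq_of_subset hD hc hz hy h5, hAz]
  obtain ⟨x, hxz, hxy⟩ := Set.not_subset.mp hnot
  have hyzD : y * z ∈ D := by
    rw [← hzy, hzy2]
    exact ri_conj' hD hy he
  have hnc : ¬ (y * x = x * y) := fun h5 =>
    ri_lem1 hD hy hz hxz.1 hzy.symm hyzD hxz.2.2 hxz.2.1.symm h5
  have h4x : orderOf (y * x) = 4 := by
    rcases tri hD hy hxz.1 with h2 | h2 | h2
    · exact absurd h2 hxy
    · exact absurd h2.symm hnc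
    · exact h2
  obtain ⟨f, hf, hf4, hfy, -⟩ := exists_sq_partner hD hz hxz.1 hy hzy.symm hyzD hxz.2.1.symm hxz.2.2 h4x
  have hfz : f ∉ oddPartners D e := by
    rw [← hAz]
    apply four_not_odd
    rw [ri_orderOf_swap]
    exact hf4
  refine lemC hee hzz (ri_sq hD hf) (ri_ne_one hD hz) hze.symm
    (by rw [← hf4]; exact pow_orderOf_eq_one _) (four_pow hD he hf hfz) ?_
  rw [hfy, ← hzy, hzy2]

theorem comm_eq_iff {d e : G} (hd : d ∈ D) (he : e ∈ D) :
    commutingMembers D d = commutingMembers D e ↔ oddPartners D d = oddPartners D e := by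
  constructor
  · intro h
    exact Set.Subset.antisymm (odd_sub_of_comm_eq hD hd he h) (odd_sub_of_comm_eq hD he hd h.symm)
  · intro h
    exact Set.Subset.antisymm (comm_sub_of_odd_eq hD hc hd he h)
      (comm_sub_of_odd_eq hD hc he hd h.symm)

/-- S5046. -/
theorem same_class_eq {d : G} (hd : d ∈ D) :
    sameCommutingClass D d =
      {e | e ∈ D ∧ commutingMembers D d ∪ fourPartners D d = commutingMembers D e ∪ fourPartners D e} := by
  ext e
  constructor
  · rintro ⟨he, h⟩
    exact ⟨he, (union_eq_iff hD hd he).mpr ((comm_eq_iff hD hc hd he).mp h)⟩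
  · rintro ⟨he, h⟩
    exact ⟨he, (comm_eq_iff hD hc hd he).mpr ((union_eq_iff hD hd he).mp h)⟩

/-- S5047. -/
theorem exists_order_three {a b : G} (ha : a ∈ D) (hb : b ∈ productPartners D a)
    (hbE : b ∉ sameCommutingClass D a) : ∃ x ∈ fourPartners D b, orderOf (a * x) = 3 := by
  classical
  obtain ⟨⟨hbD, hba, hne⟩, hbaD⟩ := hb
  have hC : commutingMembers D a ≠ commutingMembers D b := fun h => hbE ⟨hbD, h⟩
  have hA : oddPartners D a ≠ oddPartners D b := fun h => hC ((comm_eq_iff hD hc ha hbD).mpr h)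
  have hnot : ¬ (oddPartners D a ⊆ oddPartners D b) := fun h => hA (odd_eq_of_subset hD hc ha hbD h)
  obtain ⟨x₀, hx₀a, hx₀b⟩ := Set.not_subset.mp hnot
  have hnc0 : ¬ (b * x₀ = x₀ * b) := fun h5 =>
    ri_lem1 hD hbD ha hx₀a.1 hba hbaD hx₀a.2.2 hx₀a.2.1.symm h5
  have h40 : orderOf (b * x₀) = 4 := by
    rcases tri hD hbD hx₀a.1 with h2 | h2 | h2
    · exact absurd h2 hx₀b
    · exact absurd h2.symm hnc0
    · exact h2
  obtain ⟨f, hf, hf4, hfb, hfbc⟩ := exists_sq_partner hD ha hx₀a.1 hbD hba hbaD hx₀a.2.1.symm hx₀a.2.2 h40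
  have haa := ri_sq hD ha
  have hbb := ri_sq hD hbD
  have hff := ri_sq hD hf
  have haf : a * f * a = f * b := by
    rw [← hfb, pow_two]
    calc a * f * a = (f * f) * (a * f * a) := by rw [hff, one_mul]
      _ = _ := by group
  have hfbD : f * b ∈ D := by
    rw [← haf]
    exact ri_conj' hD hf ha
  have hfac : ¬ (a * f = f * a) := by
    intro h5
    have h6 : (f * a) ^ 2 = 1 := by
      rw [pow_two]
      calc f * a * (f * a) = f * (a * f) * a := by group
        _ = f * (f * a) * a := by rw [h5]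
        _ = (f * f) * (a * a) := by group
        _ = 1 := by rw [hff, haa, one_mul]
    have h7 := orderOf_dvd_of_pow_eq_one h6
    rw [hf4] at h7
    omega
  have hA2 : oddPartners D b ≠ oddPartners D f := by
    intro h5
    have h6 := (comm_eq_iff hD hc hbD hf).mpr h5
    have h7 : a ∈ commutingMembers D b := ⟨ha, hba.symm⟩
    rw [h6] at h7
    exact hfac h7.2
  have hnot2 : ¬ (oddPartners D b ⊆ oddPartners D f) := fun h => hA2 (odd_eq_of_subset hD hc hbD hf h)
  obtain ⟨x₁, hx₁b, hx₁f⟩ := Set.not_subset.mp hnot2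
  have hnc1 : ¬ (f * x₁ = x₁ * f) := fun h5 =>
    ri_lem1 hD hf hbD hx₁b.1 hfbc hfbD hx₁b.2.2 hx₁b.2.1.symm h5
  have h41 : orderOf (f * x₁) = 4 := by
    rcases tri hD hf hx₁b.1 with h2 | h2 | h2
    · exact absurd h2 hx₁f
    · exact absurd h2.symm hnc1
    · exact h2
  obtain ⟨x', hx', hx'4, hx'f, hx'c⟩ :=
    exists_sq_partner hD hbD hx₁b.1 hf hfbc hfbD hx₁b.2.1.symm hx₁b.2.2 h41
  have hxx := ri_sq hD hx'
  have hxi : x'⁻¹ = x' := ri_inv hD hx'
  have hai : a⁻¹ = a := ri_inv hD ha
  have haib : a * b * a = b := by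
    calc a * b * a = b * a * a := by rw [hba]
      _ = b := by rw [mul_assoc, haa, mul_one]
  have hxf : x' * f * x' = f := by
    calc x' * f * x' = f * x' * x' := by rw [hx'c]
      _ = f := by rw [mul_assoc, hxx, mul_one]
  have hxb : x' * b * x' = f * b := by
    rw [← hx'f, pow_two]
    calc x' * b * x' = x' * b * x' * (b * b) := by rw [hbb, mul_one]
      _ = _ := by group
  have hf1 : f ≠ 1 := ri_ne_one hD hf
  have hb1 : b ≠ 1 := ri_ne_one hD hbD
  have hfneb : f ≠ b := by
    rintro rfl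
    exact hfac hba.symm
  -- the action of `σ = a x'`
  set σ := a * x' with hσ
  have hσi : σ⁻¹ = x' * a := by
    rw [hσ, mul_inv_rev, hxi, hai]
  have hσb : σ * b * σ⁻¹ = f := by
    rw [hσi, hσ]
    calc a * x' * b * (x' * a) = a * (x' * b * x') * a := by group
      _ = a * (f * b) * a := by rw [hxb]
      _ = (a * f * a) * (a * b * a) := by
        calc a * (f * b) * a = a * f * (a * a) * b * a := by rw [haa]; group
          _ = _ := by group
      _ = f * b * b := by rw [haf, haib]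
      _ = f := by rw [mul_assoc, hbb, mul_one]
  have hσf : σ * f * σ⁻¹ = f * b := by
    rw [hσi, hσ]
    calc a * x' * f * (x' * a) = a * (x' * f * x') * a := by group
      _ = f * b := by rw [hxf, haf]
  have hσfb : σ * (f * b) * σ⁻¹ = b := by
    have : σ * (f * b) * σ⁻¹ = (σ * f * σ⁻¹) * (σ * b * σ⁻¹) := by group
    rw [this, hσb, hσf]
    calc f * b * f = f * (b * f) := by group
      _ = f * (f * b) := by rw [hfbc]
      _ = (f * f) * b := by group
      _ = b := by rw [hff, one_mul]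
  have hσ3 : ∀ k : ℕ, σ ^ (3 * k) * b * (σ ^ (3 * k))⁻¹ = b := by
    intro k
    induction k with
    | zero => simp
    | succ k ih =>
      have e : σ ^ (3 * (k + 1)) = σ ^ (3 * k) * (σ * σ * σ) := by
        rw [mul_add, pow_add]; simp [pow_succ, mul_assoc]
      rw [e]
      have e2 : σ ^ (3 * k) * (σ * σ * σ) * b * (σ ^ (3 * k) * (σ * σ * σ))⁻¹
          = σ ^ (3 * k) * (σ * (σ * (σ * b * σ⁻¹) * σ⁻¹) * σ⁻¹) * (σ ^ (3 * k))⁻¹ := by group
      rw [e2, hσb, hσf, hσfb, ih]
  -- `φ k` lies in `{b, f, fb}`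
  have hφ : ∀ k : ℕ, σ ^ k * b * (σ ^ k)⁻¹ = b ∨ σ ^ k * b * (σ ^ k)⁻¹ = f ∨
      σ ^ k * b * (σ ^ k)⁻¹ = f * b := by
    intro k
    induction k with
    | zero => left; simp
    | succ k ih =>
      have e2 : σ ^ (k + 1) * b * (σ ^ (k + 1))⁻¹ = σ * (σ ^ k * b * (σ ^ k)⁻¹) * σ⁻¹ := by
        rw [pow_succ']; group
      rw [e2]
      rcases ih with h | h | h <;> rw [h]
      · exact Or.inr (Or.inl hσb)
      · exact Or.inr (Or.inr hσf)
      · exact Or.inl hσfb
  -- the order of `σ`
  have hncσ : ¬ (a * x' = x' * a) := by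
    intro h5
    have h6 : σ * σ = 1 := by
      rw [hσ]
      calc a * x' * (a * x') = a * (x' * a) * x' := by group
        _ = a * (a * x') * x' := by rw [h5]
        _ = (a * a) * (x' * x') := by group
        _ = 1 := by rw [haa, hxx, one_mul]
    have h7 : σ⁻¹ = σ := inv_eq_of_mul_eq_one_left h6
    have h8 : σ * f * σ⁻¹ = b := by
      rw [← hσb, h7]
      calc σ * (σ * b * σ) * σ = (σ * σ) * b * (σ * σ) := by group
        _ = b := by rw [h6, one_mul, mul_one]
    rw [hσf] at h8
    -- wait: compare with `σ f σ⁻¹ = f b`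
    apply hf1
    calc f = f * (b * b) := by rw [hbb, mul_one]
      _ = (f * b) * b := by group
      _ = b * b := by rw [h8]
      _ = 1 := hbb
  have hσodd : Odd (orderOf σ) := by
    rcases hD.pair a ha x' hx' with h | h | h
    · exact absurd h hncσ
    · exact h
    · exfalso
      have h4' : σ ^ 4 = 1 := by rw [hσ, ← h.1]; exact pow_orderOf_eq_one _
      have h5 := hσ3 1
      have e : σ ^ (3 * 1) = σ⁻¹ := by
        apply eq_inv_of_mul_eq_one_left
        rw [← pow_succ]
        exact h4'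
      rw [e] at h5
      have h6 : σ * (σ⁻¹ * b * σ⁻¹⁻¹) * σ⁻¹ = σ * b * σ⁻¹ := by rw [h5]
      have h7 : σ * (σ⁻¹ * b * σ⁻¹⁻¹) * σ⁻¹ = b := by group
      rw [h7, hσb] at h6
      exact hfneb h6.symm
  have h3dvd : 3 ∣ orderOf σ := by
    have hn1 : σ ^ orderOf σ = 1 := pow_orderOf_eq_one σ
    obtain ⟨q, r, hr, hq⟩ : ∃ q r, r < 3 ∧ orderOf σ = 3 * q + r :=
      ⟨orderOf σ / 3, orderOf σ % 3, Nat.mod_lt _ (by norm_num), (Nat.div_add_mod _ _).symm⟩
    have hcomm : ∀ k, σ ^ k * b * (σ ^ k)⁻¹ = b → ∀ j, σ ^ (3 * q + j) = σ ^ k →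
        σ ^ j * b * (σ ^ j)⁻¹ = b := by
      intro k hk j hj
      have h5 := hσ3 q
      have h6 : σ ^ j = (σ ^ (3 * q))⁻¹ * σ ^ k := by
        rw [← hj, pow_add]; group
      rw [h6]
      have e : (σ ^ (3 * q))⁻¹ * σ ^ k * b * ((σ ^ (3 * q))⁻¹ * σ ^ k)⁻¹
          = (σ ^ (3 * q))⁻¹ * (σ ^ k * b * (σ ^ k)⁻¹) * σ ^ (3 * q) := by group
      rw [e, hk]
      calc (σ ^ (3 * q))⁻¹ * b * σ ^ (3 * q)
          = (σ ^ (3 * q))⁻¹ * (σ ^ (3 * q) * b * (σ ^ (3 * q))⁻¹) * σ ^ (3 * q) := by rw [h5]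
        _ = b := by group
    have hrr := hcomm 0 (by simp) r (by rw [← hq, pow_zero]; exact hn1)
    interval_cases r
    · exact ⟨q, by omega⟩
    · exfalso
      rw [pow_one, hσb] at hrr
      exact hfneb hrr
    · exfalso
      have e : σ ^ 2 * b * (σ ^ 2)⁻¹ = σ * (σ * b * σ⁻¹) * σ⁻¹ := by
        rw [pow_two]; group
      rw [e, hσb, hσf] at hrr
      apply hf1
      calc f = (f * b) * b := by rw [mul_assoc, hbb, mul_one]
        _ = b * b := by rw [hrr]
        _ = 1 := hbb
  obtain ⟨m, hm⟩ := h3dvd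
  have hm0 : m ≠ 0 := by
    rintro rfl
    rw [mul_zero] at hm
    rw [hm] at hσodd
    exact absurd hσodd (by decide)
  have hord3 : orderOf (σ ^ m) = 3 := by
    rw [orderOf_pow_of_dvd hm0 ⟨3, by rw [hm]; ring⟩, hm]
    exact Nat.mul_div_cancel _ (Nat.pos_of_ne_zero hm0)
  -- the element
  set x'' : G := σ ^ (-(m : ℤ)) * a with hx''
  have hx''D : x'' ∈ D := refl_mem hD ha hx' hσodd (-(m : ℤ))
  have hx''e : x'' = a * σ ^ m := by
    rw [hx'', hσ, Lib.Invol.zpow_mul_x haa hxx, neg_neg, zpow_natCast]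
  have hax : a * x'' = σ ^ m := by
    rw [hx''e, ← mul_assoc, haa, one_mul]
  have hx''i : x''⁻¹ = x'' := ri_inv hD hx''D
  refine ⟨x'', ⟨hx''D, ?_⟩, by rw [hax]; exact hord3⟩
  have hane : a ≠ x'' := by
    intro h5
    have h6 : a * x'' = 1 := by rw [← h5]; exact haa
    rw [hax] at h6
    rw [h6, orderOf_one] at hord3
    omega
  have hnc : ¬ (b * x'' = x'' * b) := fun h5 =>
    ri_lem1 hD hbD ha hx''D hba hbaD (by rw [hax, hord3]; decide) hane h5
  apply order_four_of hD hbD hx''D hnc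
  -- `x''` normalizes the four-group
  have hw : x'' * b * x'' = b ∨ x'' * b * x'' = f * b ∨ x'' * b * x'' = f := by
    have e : x'' * b * x'' = a * (σ ^ m * b * (σ ^ m)⁻¹) * a := by
      have h5 : x'' = x''⁻¹ := hx''i.symm
      calc x'' * b * x'' = x'' * b * x''⁻¹ := by rw [hx''i]
        _ = _ := by
          rw [hx''e, mul_inv_rev, hai]
          group
    rw [e]
    rcases hφ m with h | h | h <;> rw [h]
    · exact Or.inl haib
    · exact Or.inr (Or.inl haf)
    · right; right
      calc a * (f * b) * a = (a * f * a) * (a * b * a) := by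
            calc a * (f * b) * a = a * f * (a * a) * b * a := by rw [haa]; group
              _ = _ := by group
        _ = f * b * b := by rw [haf, haib]
        _ = f := by rw [mul_assoc, hbb, mul_one]
  have hs2 : (b * x'') ^ 2 = b * (x'' * b * x'') := by
    rw [pow_two]; group
  have : (b * x'') ^ 4 = (b * (x'' * b * x'')) * (b * (x'' * b * x'')) := by
    rw [← hs2, ← pow_add]
  rw [this]
  rcases hw with h | h | h <;> rw [h]
  · rw [hbb, one_mul]
  · calc b * (f * b) * (b * (f * b)) = b * f * (b * b) * f * b := by group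
      _ = b * (f * f) * b := by rw [hbb]; group
      _ = 1 := by rw [hff, mul_one, hbb]
  · calc b * f * (b * f) = b * (f * b) * f := by group
      _ = b * (b * f) * f := by rw [hfbc]
      _ = (b * b) * (f * f) := by group
      _ = 1 := by rw [hbb, hff, one_mul]

end

end Cfsg.Agent.Lib.LocalEven.RiMain
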