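import Mathlib

/-!
Schur rings over cyclic `p`-groups, in elementary language: a group of permutations of a cyclic
`p`-group `H` fixing the identity and compatible with translations, with no invariant proper
nontrivial subgroup, is transitive on the non-identity elements when `H` is not of prime order.
-/

set_option autoImplicit false
set_option linter.unusedSectionVars false
set_option linter.style.haveILetI false

namespace Cfsg.Agent.Lib.LocalEven.SchurRing

open Subgroup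

variable {H : Type*} [CommGroup H]

/-- A group of permutations compatible with translations. -/
structure SS (D : Subgroup (Equiv.Perm H)) : Prop where
  fix1 : ∀ π ∈ D, π 1 = 1
  shift : ∀ π ∈ D, ∀ t : H, ∃ π' ∈ D, ∀ y, π' y = π (y * t) * (π t)⁻¹

/-- Invariant subsets. -/
def Adm (D : Subgroup (Equiv.Perm H)) (A : Set H) : Prop := ∀ π ∈ D, ∀ x ∈ A, π x ∈ A

/-- The `D`-orbit. -/
def cls (D : Subgroup (Equiv.Perm H)) (x : H) : Set H := {w | ∃ π ∈ D, π x = w}

section basic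

variable {D : Subgroup (Equiv.Perm H)}

theorem Adm.iff {A : Set H} (hA : Adm D A) {π : Equiv.Perm H} (hπ : π ∈ D) (x : H) :
    π x ∈ A ↔ x ∈ A := by
  constructor
  · intro h
    have := hA π⁻¹ (D.inv_mem hπ) _ h
    simpa using this
  · exact hA π hπ x

theorem adm_cls (x : H) : Adm D (cls D x) := by
  rintro π hπ _ ⟨ρ, hρ, rfl⟩
  exact ⟨π * ρ, D.mul_mem hπ hρ, rfl⟩

theorem self_mem_cls (x : H) : x ∈ cls D x := ⟨1, D.one_mem, rfl⟩

theorem SS.inv (h : SS D) {A : Set H} (hA : Adm D A) : Adm D {x | x⁻¹ ∈ A} := by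
  intro π hπ x hx
  obtain ⟨π', hπ', he⟩ := h.shift π hπ x
  have h1 := hA π' hπ' _ hx
  rw [he, inv_mul_cancel, h.fix1 π hπ, one_mul] at h1
  exact h1

/-- The closure of an invariant set is invariant. -/
theorem SS.closure (h : SS D) {A : Set H} (hA : Adm D A) : Adm D (closure A : Subgroup H) := by
  have key : ∀ x ∈ Subgroup.closure A, ∀ π ∈ D, π x ∈ Subgroup.closure A := by
    intro x hx
    induction hx using closure_induction with
    | mem y hy =>
      intro π hπ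
      exact subset_closure (hA π hπ y hy)
    | one =>
      intro π hπ
      rw [h.fix1 π hπ]
      exact one_mem _
    | mul u v _ _ hu hv =>
      intro π hπ
      obtain ⟨π', hπ', he⟩ := h.shift π hπ v
      have h1 := hu π' hπ'
      rw [he] at h1
      have h2 := mul_mem h1 (hv π hπ)
      rwa [inv_mul_cancel_right] at h2
    | inv u _ hu =>
      intro π hπ
      obtain ⟨π', hπ', he⟩ := h.shift π hπ u⁻¹
      have h1 := hu π' hπ'
      rw [he, mul_inv_cancel, h.fix1 π hπ, one_mul] at h1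
      have h2 := inv_mem h1
      rwa [inv_inv] at h2
  intro π hπ x hx
  exact key x hx π hπ

/-- Translation compatibility of invariant sets. -/
theorem SS.sub_iff (h : SS D) {B : Set H} (hB : Adm D B) {π : Equiv.Perm H} (hπ : π ∈ D) (c t : H) :
    π c * (π t)⁻¹ ∈ B ↔ c * t⁻¹ ∈ B := by
  obtain ⟨π', hπ', he⟩ := h.shift π hπ t
  have h1 := he (c * t⁻¹)
  rw [inv_mul_cancel_right] at h1
  rw [← h1]
  exact hB.iff hπ' _

variable [Finite H]

/-- The counting function. -/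
noncomputable def N (A B : Set H) (c : H) : ℕ := {t | t ∈ A ∧ c * t⁻¹ ∈ B}.ncard

theorem SS.N_inv (h : SS D) {A B : Set H} (hA : Adm D A) (hB : Adm D B) {π : Equiv.Perm H}
    (hπ : π ∈ D) (c : H) : N A B (π c) = N A B c := by
  have h1 : {t | t ∈ A ∧ π c * t⁻¹ ∈ B} = π '' {t | t ∈ A ∧ c * t⁻¹ ∈ B} := by
    ext t
    constructor
    · rintro ⟨h2, h3⟩
      refine ⟨π⁻¹ t, ⟨?_, ?_⟩, by simp⟩
      · exact hA _ (D.inv_mem hπ) t h2
      · have h4 : t = π (π⁻¹ t) := by simp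
        rw [h4] at h3
        exact (h.sub_iff hB hπ _ _).mp h3
    · rintro ⟨s, ⟨h2, h3⟩, rfl⟩
      exact ⟨hA π hπ s h2, (h.sub_iff hB hπ _ _).mpr h3⟩
  unfold N
  rw [h1, Set.ncard_image_of_injective _ π.injective]

/-- The radical of an invariant set is invariant. -/
theorem SS.rad (h : SS D) {S : Set H} (hS : Adm D S) :
    Adm D {c | ∀ s ∈ S, c * s ∈ S} := by
  have hS' := h.inv hS
  have hfin : ∀ X : Set H, X.Finite := fun X => Set.toFinite X
  have hchar : ∀ c, (∀ s ∈ S, c * s ∈ S) ↔ N S {x | x⁻¹ ∈ S} c = S.ncard := by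
    intro c
    have h1 : {t | t ∈ S ∧ c * t⁻¹ ∈ {x | x⁻¹ ∈ S}} = {t | t ∈ S ∧ c⁻¹ * t ∈ S} := by
      ext t
      simp [mul_comm]
    unfold N
    rw [h1]
    constructor
    · intro h2
      have h3 : {t | t ∈ S ∧ c⁻¹ * t ∈ S} = S := by
        ext t
        constructor
        · exact fun h4 => h4.1
        · intro h4
          refine ⟨h4, ?_⟩
          -- left multiplication by `c` is a permutation of `S`
          have hinj : Set.InjOn (fun s => c * s) S := fun a _ b _ hab => mul_left_cancel hab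
          have himg : (fun s => c * s) '' S = S := by
            apply Set.eq_of_subset_of_ncard_le
            · rintro _ ⟨s, hs, rfl⟩
              exact h2 s hs
            · rw [hinj.ncard_image]
            · exact hfin _
          rw [← himg] at h4
          obtain ⟨s, hs, rfl⟩ := h4
          simpa using hs
      rw [h3]
    · intro h2 s hs
      have h3 : {t | t ∈ S ∧ c⁻¹ * t ∈ S} = S := by
        apply Set.eq_of_subset_of_ncard_le
        · exact fun t ht => ht.1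
        · rw [h2]
        · exact hfin _
      have h4 : c * s ∈ {t | t ∈ S ∧ c⁻¹ * t ∈ S} := by
        -- `c⁻¹` preserves `S`, hence so does `c`
        have hinj : Set.InjOn (fun s => c⁻¹ * s) S := fun a _ b _ hab => mul_left_cancel hab
        have himg : (fun s => c⁻¹ * s) '' S = S := by
          apply Set.eq_of_subset_of_ncard_le
          · rintro _ ⟨s, hs, rfl⟩
            rw [← h3] at hs
            exact hs.2
          · rw [hinj.ncard_image]
          · exact hfin _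
        have hs' := hs
        rw [← himg] at hs'
        obtain ⟨w, hw, hwe⟩ := hs'
        have : c * s = w := by
          simp only at hwe
          rw [← hwe]
          group
        rw [this, h3]
        exact hw
      exact h4.1
  intro π hπ c hc
  change ∀ s ∈ S, π c * s ∈ S
  have hc' : ∀ s ∈ S, c * s ∈ S := hc
  rw [hchar] at hc' ⊢
  rw [h.N_inv hS hS' hπ, hc']

end basic

section frob

open MonoidAlgebra

variable [Finite H] {D : Subgroup (Equiv.Perm H)}

theorem SS.cl_mul {R : Type*} [CommRing R] (h : SS D) {f g : MonoidAlgebra R H}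
    (hf : ∀ π ∈ D, ∀ c, f.coeff (π c) = f.coeff c)
    (hg : ∀ π ∈ D, ∀ c, g.coeff (π c) = g.coeff c) :
    ∀ π ∈ D, ∀ c, (f * g).coeff (π c) = (f * g).coeff c := by
  classical
  haveI := Fintype.ofFinite H
  intro π hπ c
  rw [coeff_mul_apply_left, coeff_mul_apply_left, Finsupp.sum_fintype _ _ (by simp),
    Finsupp.sum_fintype _ _ (by simp), ← Equiv.sum_comp π]
  refine Finset.sum_congr rfl fun t _ => ?_
  obtain ⟨π', hπ', he⟩ := h.shift π hπ t
  have h1 := he (t⁻¹ * c)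
  rw [mul_comm t⁻¹ c, inv_mul_cancel_right] at h1
  have h2 : (π t)⁻¹ * π c = π' (c * t⁻¹) := by rw [h1, mul_comm]
  rw [hf π hπ, h2, hg π' hπ', mul_comm c]

theorem SS.cl_pow {R : Type*} [CommRing R] (h : SS D) {f : MonoidAlgebra R H}
    (hf : ∀ π ∈ D, ∀ c, f.coeff (π c) = f.coeff c) (n : ℕ) :
    ∀ π ∈ D, ∀ c, (f ^ n).coeff (π c) = (f ^ n).coeff c := by
  classical
  induction n with
  | zero =>
    intro π hπ c
    rw [pow_zero, one_def, coeff_single]
    by_cases hc : c = 1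
    · subst hc
      rw [h.fix1 π hπ]
    · have : π c ≠ 1 := by
        intro h1
        apply hc
        apply π.injective
        rw [h1, h.fix1 π hπ]
      rw [Finsupp.single_apply, Finsupp.single_apply, if_neg (Ne.symm this), if_neg (Ne.symm hc)]
  | succ n ih =>
    rw [pow_succ]
    exact h.cl_mul ih hf

/-- The Frobenius congruence. -/
theorem SS.frob {p : ℕ} [hp : Fact p.Prime] (h : SS D) {T : Set H} (hT : Adm D T)
    {π : Equiv.Perm H} (hπ : π ∈ D) (y : H) :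
    (({t | t ∈ T ∧ t ^ p = π y}.ncard : ℕ) : ZMod p) = ({t | t ∈ T ∧ t ^ p = y}.ncard : ℕ) := by
  classical
  haveI := Fintype.ofFinite H
  let a : H → ZMod p := fun t => if t ∈ T then 1 else 0
  let τ : MonoidAlgebra (ZMod p) H := ∑ t, single t (a t)
  have hτ : ∀ c, τ.coeff c = a c := by
    intro c
    simp only [τ, coeff_sum, coeff_single, Finsupp.finset_sum_apply, Finsupp.single_apply]
    simp
  have hcl : ∀ π ∈ D, ∀ c, τ.coeff (π c) = τ.coeff c := by
    intro π hπ c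
    rw [hτ, hτ]
    simp only [a]
    simp only [hT.iff hπ]
  haveI : CharP (MonoidAlgebra (ZMod p) H) p :=
    charP_of_injective_algebraMap (R := ZMod p) (algebraMap (ZMod p) (MonoidAlgebra (ZMod p) H)).injective p
  have hpow : τ ^ p = ∑ t, single (t ^ p) (a t) := by
    simp only [τ]
    rw [sum_pow_char p]
    refine Finset.sum_congr rfl fun t _ => ?_
    rw [single_pow]
    congr 1
    simp only [a]
    split_ifs
    · simp
    · simp [hp.out.ne_zero]
  have hcoef : ∀ y, (τ ^ p).coeff y = (({t | t ∈ T ∧ t ^ p = y}.ncard : ℕ) : ZMod p) := by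
    intro y
    rw [hpow]
    simp only [coeff_sum, coeff_single, Finsupp.finset_sum_apply, Finsupp.single_apply]
    have h1 : {t | t ∈ T ∧ t ^ p = y} = ((Finset.univ.filter fun t => t ∈ T ∧ t ^ p = y : Finset H) : Set H) := by
      ext t; simp
    rw [h1, Set.ncard_coe_finset, Finset.card_filter]
    push_cast
    refine Finset.sum_congr rfl fun t _ => ?_
    simp only [a]
    by_cases h2 : t ∈ T <;> by_cases h3 : t ^ p = y <;> simp [h2, h3]
  rw [← hcoef, ← hcoef]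
  exact h.cl_pow hcl p π hπ y

end frob

section main

/-- The subgroup of an invariant set's stabilizing translations. -/
def radSub [Finite H] (S : Set H) : Subgroup H where
  carrier := {c | ∀ s ∈ S, c * s ∈ S}
  one_mem' := by
    intro s hs
    simpa using hs
  mul_mem' := by
    intro a b ha hb s hs
    rw [mul_assoc]
    exact ha _ (hb s hs)
  inv_mem' := by
    intro c hc s hs
    have key : ∀ n : ℕ, c ^ n * s ∈ S := by
      intro n
      induction n with
      | zero => simpa using hs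
      | succ n ih =>
        rw [pow_succ', mul_assoc]
        exact hc _ ih
    have h1 : c⁻¹ = c ^ (orderOf c - 1) := by
      apply inv_eq_of_mul_eq_one_right
      rw [← pow_succ', Nat.sub_add_cancel (orderOf_pos c), pow_orderOf_eq_one]
    rw [h1]
    exact key _

variable [Finite H] {D : Subgroup (Equiv.Perm H)} {p m : ℕ} [hp : Fact p.Prime]

/-- Order `p` translations act freely. -/
theorem free_dvd [IsCyclic H] (hc : Nat.card H = p ^ m) (hm : 1 ≤ m)
    {X : Set H} (hX : ∀ t ∈ X, ∀ u : H, u ^ p = 1 → u * t ∈ X) : p ∣ X.ncard := by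
  classical
  let P : Subgroup H := (powMonoidHom p : H →* H).ker
  have hPg : IsPGroup p P := by
    intro x
    exact ⟨1, by
      have h1 : (x : H) ^ p = 1 := x.2
      ext
      simpa using h1⟩
  have hcard : Nat.card P = p := by
    have := IsCyclic.card_powMonoidHom_ker (G := H) p
    rw [hc] at this
    rw [show Nat.card P = _ from this]
    exact Nat.gcd_eq_right (dvd_pow_self p (by omega))
  let Y : SubMulAction P H := ⟨X, by
    intro u t ht
    exact hX t ht u u.2⟩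
  have h1 := hPg.card_modEq_card_fixedPoints Y
  have h2 : MulAction.fixedPoints P Y = ∅ := by
    ext t
    simp only [MulAction.mem_fixedPoints, Set.mem_empty_iff_false, iff_false]
    intro h3
    have hnt : Nontrivial P := by
      apply Finite.one_lt_card_iff_nontrivial.mp
      rw [hcard]
      exact hp.out.one_lt
    obtain ⟨u, hu⟩ := exists_ne (1 : P)
    have h4 := h3 u
    have h5 : (u : H) * (t : H) = t := congrArg Subtype.val h4
    apply hu
    ext
    simpa using h5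
  rw [h2] at h1
  have h1' : Nat.card Y ≡ 0 [MOD p] := by simpa using h1
  have h6 : Nat.card Y = X.ncard := rfl
  have h7 := (Nat.modEq_zero_iff_dvd).mp h1'
  rwa [h6] at h7

/-- The standing assumptions. -/
structure Ctx (D : Subgroup (Equiv.Perm H)) (p m : ℕ) : Prop where
  ss : SS D
  cyc : IsCyclic H
  card : Nat.card H = p ^ m
  hm : 2 ≤ m
  prim : ∀ K : Subgroup H, Adm D (K : Set H) → K = ⊥ ∨ K = ⊤

variable (hC : Ctx D p m)
include hC

theorem Ctx.card_P : ((powMonoidHom p : H →* H).ker : Set H).ncard = p := by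
  haveI := hC.cyc
  have := IsCyclic.card_powMonoidHom_ker (G := H) p
  rw [hC.card] at this
  rw [← Nat.card_coe_set_eq]
  refine this.trans ?_
  exact Nat.gcd_eq_right (dvd_pow_self p (by have := hC.hm; omega))

theorem Ctx.exists_order_p : ∃ u : H, u ≠ 1 ∧ u ^ p = 1 := by
  by_contra hcon
  push Not at hcon
  have h1 : ((powMonoidHom p : H →* H).ker : Set H) ⊆ {1} := by
    intro u hu
    by_contra h2
    exact hcon u h2 hu
  have h2 := Set.ncard_le_ncard h1 (Set.toFinite _)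
  rw [hC.card_P, Set.ncard_singleton] at h2
  exact hp.out.one_lt.not_ge h2

/-- Not every element is a `p`-th power. -/
theorem Ctx.range_ne_top : (powMonoidHom p : H →* H).range ≠ ⊤ := by
  intro h1
  obtain ⟨u, hu, hu'⟩ := hC.exists_order_p
  have h2 : Function.Surjective (powMonoidHom p : H →* H) := MonoidHom.range_eq_top.mp h1
  have h3 := Finite.injective_iff_surjective.mpr h2
  apply hu
  apply h3
  simpa using hu'

theorem Ctx.frob_dvd {T : Set H} (hT : Adm D T) {y : H} (hy : y ≠ 1) :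
    p ∣ {t | t ∈ T ∧ t ^ p = y}.ncard := by
  by_contra hcon
  let Y : Set H := {y | y ≠ 1 ∧ ¬ p ∣ {t | t ∈ T ∧ t ^ p = y}.ncard}
  have hYadm : Adm D Y := by
    rintro π hπ y ⟨h1, h2⟩
    refine ⟨?_, ?_⟩
    · intro h3
      apply h1
      apply π.injective
      rw [h3, hC.ss.fix1 π hπ]
    · intro h3
      apply h2
      rw [← ZMod.natCast_eq_zero_iff] at h3 ⊢
      rw [← hC.ss.frob hT hπ y, h3]
  have hle : Subgroup.closure Y ≤ (powMonoidHom p : H →* H).range := by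
    rw [Subgroup.closure_le]
    rintro y ⟨_, h2⟩
    have h3 : {t | t ∈ T ∧ t ^ p = y}.Nonempty := by
      by_contra h4
      rw [Set.not_nonempty_iff_eq_empty] at h4
      apply h2
      rw [h4]
      simp
    obtain ⟨t, _, ht⟩ := h3
    exact ⟨t, ht⟩
  rcases hC.prim _ (hC.ss.closure hYadm) with h1 | h1
  · have h2 : y ∈ Subgroup.closure Y := Subgroup.subset_closure ⟨hy, hcon⟩
    rw [h1] at h2
    exact hy (Subgroup.mem_bot.mp h2)
  · rw [h1] at hle
    exact hC.range_ne_top (top_le_iff.mp hle)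

theorem Ctx.coset_mem {T : Set H} (hT : Adm D T) {t : H} (ht : t ∈ T) (htP : t ^ p ≠ 1) {u : H}
    (hu : u ^ p = 1) : u * t ∈ T := by
  have h1 := hC.frob_dvd hT htP
  have hne : {s | s ∈ T ∧ s ^ p = t ^ p}.Nonempty := ⟨t, ht, rfl⟩
  have hpos : 0 < {s | s ∈ T ∧ s ^ p = t ^ p}.ncard := (Set.ncard_pos (Set.toFinite _)).mpr hne
  have hle := Nat.le_of_dvd hpos h1
  let Q : Set H := (fun v : H => v * t) '' ((powMonoidHom p : H →* H).ker : Set H)
  have hQ : Q.ncard = p := by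
    have hinj : Function.Injective (fun v : H => v * t) := mul_left_injective t
    rw [Set.ncard_image_of_injective _ hinj, hC.card_P]
  have hsub : {s | s ∈ T ∧ s ^ p = t ^ p} ⊆ Q := by
    rintro s ⟨_, hs⟩
    refine ⟨s * t⁻¹, ?_, by simp⟩
    change (s * t⁻¹) ^ p = 1
    rw [mul_pow, inv_pow, hs, mul_inv_cancel]
  have heq : {s | s ∈ T ∧ s ^ p = t ^ p} = Q :=
    Set.eq_of_subset_of_ncard_le hsub (by rw [hQ]; exact hle) (Set.toFinite _)
  have hmem : u * t ∈ Q := ⟨u, hu, rfl⟩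
  rw [← heq] at hmem
  exact hmem.1

/-- Every element is conjugate to an element of order dividing `p`. -/
theorem Ctx.exists_conj_P (x : H) : ∃ u : H, u ^ p = 1 ∧ ∃ π ∈ D, π u = x := by
  let S : Set H := {s | ∃ u : H, u ^ p = 1 ∧ ∃ π ∈ D, π u = s}
  have hSadm : Adm D S := by
    rintro π hπ _ ⟨u, hu, ρ, hρ, rfl⟩
    exact ⟨u, hu, π * ρ, D.mul_mem hπ hρ, rfl⟩
  have hP : ∀ v : H, v ^ p = 1 → v ∈ radSub S := by
    intro v hv s hs
    by_cases hsp : s ^ p = 1
    · exact ⟨v * s, by rw [mul_pow, hv, hsp, one_mul], 1, D.one_mem, rfl⟩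
    · obtain ⟨u, hu, ρ, hρ, rfl⟩ := hs
      have h1 := hC.coset_mem (adm_cls (D := D) u) (t := ρ u) ⟨ρ, hρ, rfl⟩ hsp hv
      obtain ⟨τ, hτ, he⟩ := h1
      exact ⟨u, hu, τ, hτ, he⟩
  have hKadm : Adm D (radSub S : Set H) := hC.ss.rad hSadm
  rcases hC.prim _ hKadm with h1 | h1
  · obtain ⟨u, hu, hu'⟩ := hC.exists_order_p
    have h2 := hP u hu'
    rw [h1] at h2
    exact absurd (Subgroup.mem_bot.mp h2) hu
  · have h2 : x ∈ radSub S := by rw [h1]; trivial
    have h3 := h2 1 ⟨1, one_pow p, 1, D.one_mem, rfl⟩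
    rw [mul_one] at h3
    exact h3

/-- Non-identity elements have a conjugate of order not dividing `p`. -/
theorem Ctx.exists_conj_not_P {x : H} (hx : x ≠ 1) : ∃ π ∈ D, (π x) ^ p ≠ 1 := by
  by_contra hcon
  push Not at hcon
  have hle : Subgroup.closure (cls D x) ≤ (powMonoidHom p : H →* H).ker := by
    rw [Subgroup.closure_le]
    rintro _ ⟨π, hπ, rfl⟩
    exact hcon π hπ
  rcases hC.prim _ (hC.ss.closure (adm_cls (D := D) x)) with h1 | h1
  · have h2 : x ∈ Subgroup.closure (cls D x) := Subgroup.subset_closure (self_mem_cls x)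
    rw [h1] at h2
    exact hx (Subgroup.mem_bot.mp h2)
  · rw [h1, top_le_iff] at hle
    have h2 : ((powMonoidHom p : H →* H).ker : Set H).ncard = Nat.card H := by
      rw [hle]
      simp
    rw [hC.card_P, hC.card] at h2
    have hm := hC.hm
    have h3 : p ^ 1 < p ^ m := Nat.pow_lt_pow_right hp.out.one_lt (by omega)
    rw [pow_one] at h3
    omega

/-- The comparison of the numbers of order `p` elements in two distinct classes. -/
theorem Ctx.key {Tx Ty : Set H} (hTx : Adm D Tx) (hTy : Adm D Ty) (hdisj : ∀ t ∈ Tx, t ∉ Ty)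
    (hy1 : (1 : H) ∉ Ty) {u₀ c₀ : H} (hu₀ : u₀ ∈ Tx) (hu₀p : u₀ ^ p = 1) (hc₀ : c₀ ∈ Tx)
    (hc₀p : c₀ ^ p ≠ 1) {π : Equiv.Perm H} (hπ : π ∈ D) (hconj : π u₀ = c₀)
    (hk : {v | v ∈ Ty ∧ v ^ p = 1}.Nonempty) :
    {v | v ∈ Ty ∧ v ^ p = 1}.ncard < {v | v ∈ Tx ∧ v ^ p = 1}.ncard := by
  haveI := hC.cyc
  have hm1 : 1 ≤ m := by have := hC.hm; omega
  have hfin : ∀ X : Set H, X.Finite := fun X => Set.toFinite X
  set k : ℕ := {v | v ∈ Ty ∧ v ^ p = 1}.ncard with hkdef
  have hkpos : 0 < k := (Set.ncard_pos (hfin _)).mpr hk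
  have hklt : k < p := by
    have h1 : {v | v ∈ Ty ∧ v ^ p = 1} ⊂ ((powMonoidHom p : H →* H).ker : Set H) := by
      refine ⟨fun v hv => hv.2, fun h2 => ?_⟩
      exact hy1 (h2 (show (1 : H) ^ p = 1 from one_pow p)).1
    have h2 := Set.ncard_lt_ncard h1 (hfin _)
    rwa [hC.card_P] at h2
  -- the count at `c₀`
  have hN : {t | t ∈ Tx ∧ c₀ * t⁻¹ ∈ Ty}.ncard = {t | t ∈ Tx ∧ u₀ * t⁻¹ ∈ Ty}.ncard := by
    have := hC.ss.N_inv hTx hTy hπ u₀
    rw [hconj] at this
    exact this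
  -- decomposition at `c₀`
  let Q₁ : Set H := {t | (c₀ * t⁻¹) ^ p = 1}
  have hd1 := Set.ncard_inter_add_ncard_sdiff_eq_ncard {t | t ∈ Tx ∧ c₀ * t⁻¹ ∈ Ty} Q₁ (hfin _)
  have hA : ({t | t ∈ Tx ∧ c₀ * t⁻¹ ∈ Ty} ∩ Q₁).ncard = k := by
    have hinj : Set.InjOn (fun t : H => c₀ * t⁻¹) ({t | t ∈ Tx ∧ c₀ * t⁻¹ ∈ Ty} ∩ Q₁) := by
      intro a _ b _ hab
      simpa using hab
    rw [← hinj.ncard_image]
    congr 1
    ext v
    constructor
    · rintro ⟨t, ⟨⟨_, h2⟩, h3⟩, rfl⟩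
      exact ⟨h2, h3⟩
    · rintro ⟨h1, h2⟩
      have hv' : (v⁻¹) ^ p = 1 := by rw [inv_pow, h2, inv_one]
      have h3 := hC.coset_mem hTx hc₀ hc₀p hv'
      have h4 : c₀ * (v⁻¹ * c₀)⁻¹ = v := by
        rw [mul_inv, inv_inv, mul_comm v, mul_inv_cancel_left]
      refine ⟨v⁻¹ * c₀, ⟨⟨h3, ?_⟩, ?_⟩, h4⟩
      · rw [h4]; exact h1
      · change (c₀ * (v⁻¹ * c₀)⁻¹) ^ p = 1
        rw [h4]; exact h2
  have hX1 : p ∣ ({t | t ∈ Tx ∧ c₀ * t⁻¹ ∈ Ty} \ Q₁).ncard := by
    apply free_dvd hC.card hm1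
    rintro t ⟨⟨h1, h2⟩, h3⟩ u hu
    have h3' : (c₀ * t⁻¹) ^ p ≠ 1 := h3
    have htp : t ^ p ≠ 1 := by
      intro h4
      have h5 := hC.coset_mem hTy h2 h3' h4
      rw [mul_comm t, inv_mul_cancel_right] at h5
      exact hdisj c₀ hc₀ h5
    have hu' : (u⁻¹) ^ p = 1 := by rw [inv_pow, hu, inv_one]
    have h6 := hC.coset_mem hTy h2 h3' hu'
    have h7 : c₀ * (u * t)⁻¹ = u⁻¹ * (c₀ * t⁻¹) := by
      rw [mul_inv]
      ac_rfl
    refine ⟨⟨hC.coset_mem hTx h1 htp hu, ?_⟩, ?_⟩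
    · rw [h7]; exact h6
    · change ¬ (c₀ * (u * t)⁻¹) ^ p = 1
      rw [h7, mul_pow, hu', one_mul]
      exact h3'
  -- decomposition at `u₀`
  let Q₂ : Set H := {t | t ^ p = 1}
  have hd2 := Set.ncard_inter_add_ncard_sdiff_eq_ncard {t | t ∈ Tx ∧ u₀ * t⁻¹ ∈ Ty} Q₂ (hfin _)
  have hX2 : p ∣ ({t | t ∈ Tx ∧ u₀ * t⁻¹ ∈ Ty} \ Q₂).ncard := by
    apply free_dvd hC.card hm1
    rintro t ⟨⟨h1, h2⟩, h3⟩ u hu
    have h3' : t ^ p ≠ 1 := h3
    have h4 : (u₀ * t⁻¹) ^ p ≠ 1 := by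
      rw [mul_pow, hu₀p, one_mul, inv_pow]
      simpa using h3'
    have hu' : (u⁻¹) ^ p = 1 := by rw [inv_pow, hu, inv_one]
    have h6 := hC.coset_mem hTy h2 h4 hu'
    have h7 : u₀ * (u * t)⁻¹ = u⁻¹ * (u₀ * t⁻¹) := by
      rw [mul_inv]
      ac_rfl
    refine ⟨⟨hC.coset_mem hTx h1 h3' hu, ?_⟩, ?_⟩
    · rw [h7]; exact h6
    · change ¬ (u * t) ^ p = 1
      rw [mul_pow, hu, one_mul]
      exact h3'
  have hle1 : ({t | t ∈ Tx ∧ u₀ * t⁻¹ ∈ Ty} ∩ Q₂).ncard ≤ k := by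
    have hinj : Set.InjOn (fun t : H => u₀ * t⁻¹) ({t | t ∈ Tx ∧ u₀ * t⁻¹ ∈ Ty} ∩ Q₂) := by
      intro a _ b _ hab
      simpa using hab
    rw [← hinj.ncard_image]
    apply Set.ncard_le_ncard _ (hfin _)
    rintro _ ⟨t, ⟨⟨_, h2⟩, h3⟩, rfl⟩
    refine ⟨h2, ?_⟩
    have h3' : t ^ p = 1 := h3
    simp only
    rw [mul_pow, hu₀p, one_mul, inv_pow, h3', inv_one]
  have hlt1 : ({t | t ∈ Tx ∧ u₀ * t⁻¹ ∈ Ty} ∩ Q₂).ncard < {v | v ∈ Tx ∧ v ^ p = 1}.ncard := by
    apply Set.ncard_lt_ncard _ (hfin _)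
    refine ⟨fun t ht => ⟨ht.1.1, ht.2⟩, fun h1 => ?_⟩
    have h2 := h1 (show u₀ ∈ {v | v ∈ Tx ∧ v ^ p = 1} from ⟨hu₀, hu₀p⟩)
    have h3 := h2.1.2
    rw [mul_inv_cancel] at h3
    exact hy1 h3
  -- conclusion
  obtain ⟨a, ha⟩ := hX1
  obtain ⟨b, hb⟩ := hX2
  rw [hA, ha, hN] at hd1
  rw [hb] at hd2
  have hmod : k % p = ({t | t ∈ Tx ∧ u₀ * t⁻¹ ∈ Ty} ∩ Q₂).ncard % p := by
    have h1 : k + p * a = ({t | t ∈ Tx ∧ u₀ * t⁻¹ ∈ Ty} ∩ Q₂).ncard + p * b := by omega
    have h2 := congrArg (· % p) h1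
    simp only [Nat.add_mul_mod_self_left] at h2
    exact h2
  rw [Nat.mod_eq_of_lt hklt, Nat.mod_eq_of_lt (lt_of_le_of_lt hle1 hklt)] at hmod
  omega

/-- The transitivity theorem. -/
theorem Ctx.trans {x y : H} (hx : x ≠ 1) (hy : y ≠ 1) : ∃ π ∈ D, π x = y := by
  by_contra hcon
  have hne1 : ∀ {z : H}, z ≠ 1 → (1 : H) ∉ cls D z := by
    rintro z hz ⟨π, hπ, he⟩
    apply hz
    apply π.injective
    rw [he, hC.ss.fix1 π hπ]
  have hP : ∀ z : H, ∃ u, u ∈ cls D z ∧ u ^ p = 1 := by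
    intro z
    obtain ⟨u, hu, π, hπ, he⟩ := hC.exists_conj_P z
    refine ⟨u, ⟨π⁻¹, D.inv_mem hπ, ?_⟩, hu⟩
    rw [← he]
    simp
  have hconj : ∀ {z u c : H}, u ∈ cls D z → c ∈ cls D z → ∃ π ∈ D, π u = c := by
    rintro z _ _ ⟨π, hπ, rfl⟩ ⟨ρ, hρ, rfl⟩
    refine ⟨ρ * π⁻¹, D.mul_mem hρ (D.inv_mem hπ), ?_⟩
    simp
  have main : ∀ {a b : H}, a ≠ 1 → b ≠ 1 → (∀ t ∈ cls D a, t ∉ cls D b) →
      {v | v ∈ cls D b ∧ v ^ p = 1}.ncard < {v | v ∈ cls D a ∧ v ^ p = 1}.ncard := by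
    intro a b ha hb hd
    obtain ⟨u₀, hu₀, hu₀p⟩ := hP a
    obtain ⟨π₀, hπ₀, h0⟩ := hC.exists_conj_not_P ha
    have hc₀ : π₀ a ∈ cls D a := ⟨π₀, hπ₀, rfl⟩
    obtain ⟨π, hπ, he⟩ := hconj hu₀ hc₀
    obtain ⟨v, hv, hvp⟩ := hP b
    exact hC.key (adm_cls a) (adm_cls b) hd (hne1 hb) hu₀ hu₀p hc₀ h0 hπ he ⟨v, hv, hvp⟩
  have hd : ∀ t ∈ cls D x, t ∉ cls D y := by
    rintro t ⟨π, hπ, rfl⟩ ⟨ρ, hρ, he⟩
    apply hcon
    refine ⟨ρ⁻¹ * π, D.mul_mem (D.inv_mem hρ) hπ, ?_⟩
    rw [Equiv.Perm.mul_apply, ← he]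
    simp
  have hd' : ∀ t ∈ cls D y, t ∉ cls D x := fun t h1 h2 => hd t h2 h1
  have h1 := main hx hy hd
  have h2 := main hy hx hd'
  omega

end main

section bridge

open MulAction
open scoped Pointwise

theorem mem_of_ne_bot {p m : ℕ} [hp : Fact p.Prime] [Finite H] [IsCyclic H]
    (hc : Nat.card H = p ^ m) (hm1 : 1 ≤ m) {K : Subgroup H} (hK : K ≠ ⊥) {u : H}
    (hu : u ^ p = 1) : u ∈ K := by
  have h1 : Nat.card K ∣ p ^ m := hc ▸ Subgroup.card_subgroup_dvd_card K
  obtain ⟨j, _, hK'⟩ := (Nat.dvd_prime_pow hp.out).mp h1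
  have hj0 : j ≠ 0 := by
    intro h
    subst h
    apply hK
    apply Subgroup.eq_bot_of_card_eq
    simpa using hK'
  have hpd : p ∣ Nat.card K := by
    rw [hK']
    exact dvd_pow_self p hj0
  obtain ⟨c, hc'⟩ := exists_prime_orderOf_dvd_card' p hpd
  have hc'' : orderOf (c : H) = p := by
    rw [Subgroup.orderOf_coe]
    exact hc'
  have hle : Subgroup.zpowers (c : H) ≤ (powMonoidHom p : H →* H).ker := by
    rw [Subgroup.zpowers_le]
    change (c : H) ^ p = 1
    rw [← hc'']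
    exact pow_orderOf_eq_one _
  have hcard : Nat.card (powMonoidHom p : H →* H).ker = p := by
    have := IsCyclic.card_powMonoidHom_ker (G := H) p
    rw [hc] at this
    exact this.trans (Nat.gcd_eq_right (dvd_pow_self p (by omega)))
  have heq := Subgroup.eq_of_le_of_card_ge hle (by rw [hcard, Nat.card_zpowers, hc''])
  have h3 : u ∈ Subgroup.zpowers (c : H) := by
    rw [heq]
    exact hu
  exact (Subgroup.zpowers_le.mpr c.2) h3

variable {G : Type*} [Group G] {Ω : Type*} [MulAction G Ω]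
  (ι : H →* G) (ω₀ : Ω)

/-- The point stabilizer transported to the regular subgroup. -/
def Sta : Subgroup (Equiv.Perm H) where
  carrier := {π | ∃ h : G, h • ω₀ = ω₀ ∧ ∀ c, ι (π c) • ω₀ = h • ι c • ω₀}
  one_mem' := ⟨1, one_smul _ _, fun c => by simp⟩
  mul_mem' := by
    rintro π₁ π₂ ⟨h₁, h₁0, h₁e⟩ ⟨h₂, h₂0, h₂e⟩
    refine ⟨h₁ * h₂, by rw [mul_smul, h₂0, h₁0], fun c => ?_⟩
    rw [Equiv.Perm.mul_apply, h₁e, h₂e, mul_smul]
  inv_mem' := by
    rintro π ⟨h, h0, he⟩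
    refine ⟨h⁻¹, by rw [inv_smul_eq_iff, h0], fun c => ?_⟩
    rw [eq_inv_smul_iff, ← he]
    simp

variable {ι ω₀}

theorem exists_sta (hb : Function.Bijective fun c : H => ι c • ω₀) (h : G) (h0 : h • ω₀ = ω₀) :
    ∃ π ∈ Sta ι ω₀, ∀ c, ι (π c) • ω₀ = h • ι c • ω₀ := by
  let e := Equiv.ofBijective _ hb
  have he : ∀ c, e c = ι c • ω₀ := fun c => rfl
  let π : Equiv.Perm H := (e.trans (MulAction.toPerm h)).trans e.symm
  have hπ : ∀ c, ι (π c) • ω₀ = h • ι c • ω₀ := by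
    intro c
    rw [← he, ← he]
    simp [π]
  exact ⟨π, ⟨h, h0, hπ⟩, hπ⟩

theorem sta_ss (hb : Function.Bijective fun c : H => ι c • ω₀) : SS (Sta ι ω₀) := by
  refine ⟨?_, ?_⟩
  · rintro π ⟨h, h0, he⟩
    apply hb.1
    simp only
    rw [he, map_one, one_smul, h0]
  · rintro π hπ t
    obtain ⟨h, h0, he⟩ := id hπ
    have h1 : ((ι (π t))⁻¹ * h * ι t) • ω₀ = ω₀ := by
      rw [mul_smul, mul_smul, ← he, inv_smul_smul]
    obtain ⟨π', hπ', he'⟩ := exists_sta hb _ h1
    refine ⟨π', hπ', fun y => hb.1 ?_⟩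
    simp only
    rw [he', mul_smul, mul_smul, ← mul_smul (ι t), ← map_mul, ← he (t * y), mul_comm y t,
      ← mul_smul, ← map_inv, ← map_mul, mul_comm]

theorem sta_prim (hb : Function.Bijective fun c : H => ι c • ω₀) [IsPreprimitive G Ω]
    (K : Subgroup H) (hK : Adm (Sta ι ω₀) (K : Set H)) : K = ⊥ ∨ K = ⊤ := by
  have hsub : ∀ h : G, ∀ a ∈ K, ∀ b ∈ K, h • ι a • ω₀ = ι b • ω₀ →
      ∀ c ∈ K, ∃ d ∈ K, h • ι c • ω₀ = ι d • ω₀ := by
    intro h a ha b hb' hab c hc
    have h1 : ((ι b)⁻¹ * h * ι a) • ω₀ = ω₀ := by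
      rw [mul_smul, mul_smul, hab, inv_smul_smul]
    obtain ⟨π₁, hπ₁, he⟩ := exists_sta hb _ h1
    have h2 : π₁ (a⁻¹ * c) ∈ K := hK π₁ hπ₁ _ (K.mul_mem (K.inv_mem ha) hc)
    refine ⟨b * π₁ (a⁻¹ * c), K.mul_mem hb' h2, ?_⟩
    rw [map_mul, mul_smul, he, mul_smul, mul_smul, ← mul_smul (ι a), ← map_mul, mul_inv_cancel_left,
      smul_inv_smul]
  let B : Set Ω := (fun c : H => ι c • ω₀) '' (K : Set H)
  have hB : IsBlock G B := by
    rw [isBlock_iff_smul_eq_of_nonempty]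
    rintro h ⟨x, hx, hx'⟩
    obtain ⟨y, hy, rfl⟩ := Set.mem_smul_set.mp hx
    obtain ⟨a, ha, rfl⟩ := hy
    obtain ⟨b, hb', hbe⟩ := hx'
    have hbe' : h • ι a • ω₀ = ι b • ω₀ := hbe.symm
    ext w
    constructor
    · intro hw
      obtain ⟨y, hy, rfl⟩ := Set.mem_smul_set.mp hw
      obtain ⟨c, hc, rfl⟩ := hy
      obtain ⟨d, hd, hde⟩ := hsub h a ha b hb' hbe' c hc
      exact ⟨d, hd, hde.symm⟩
    · rintro ⟨c, hc, rfl⟩
      have h3 : h⁻¹ • ι b • ω₀ = ι a • ω₀ := by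
        rw [inv_smul_eq_iff, hbe']
      obtain ⟨d, hd, hde⟩ := hsub h⁻¹ b hb' a ha h3 c hc
      refine Set.mem_smul_set.mpr ⟨ι d • ω₀, ⟨d, hd, rfl⟩, ?_⟩
      rw [← hde, smul_inv_smul]
  rcases IsPreprimitive.isTrivialBlock_of_isBlock hB with h1 | h1
  · left
    rw [eq_bot_iff]
    intro c hc
    have h2 := h1 (Set.mem_image_of_mem (fun c : H => ι c • ω₀) hc)
      (Set.mem_image_of_mem (fun c : H => ι c • ω₀) K.one_mem)
    exact Subgroup.mem_bot.mpr (hb.1 h2)
  · right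
    rw [eq_top_iff]
    intro c _
    have h2 : ι c • ω₀ ∈ B := by
      rw [h1]
      trivial
    obtain ⟨d, hd, hde⟩ := h2
    have h3 : d = c := hb.1 hde
    rw [← h3]
    exact hd

/-- Transitivity of the point stabilizer gives double transitivity. -/
theorem two_trans_of_sta (hb : Function.Bijective fun c : H => ι c • ω₀)
    (htr : IsPretransitive G Ω)
    (htrans : ∀ x y : H, x ≠ 1 → y ≠ 1 → ∃ π ∈ Sta ι ω₀, π x = y) :
    IsMultiplyPretransitive G Ω 2 := by
  rw [is_two_pretransitive_iff]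
  intro a b c d hab hcd
  obtain ⟨h₁, h₁e⟩ := exists_smul_eq G a ω₀
  obtain ⟨h₂, h₂e⟩ := exists_smul_eq G c ω₀
  obtain ⟨x, hx⟩ := hb.2 (h₁ • b)
  obtain ⟨y, hy⟩ := hb.2 (h₂ • d)
  simp only at hx hy
  have hx1 : x ≠ 1 := by
    rintro rfl
    rw [map_one, one_smul, ← h₁e] at hx
    exact hab (smul_left_cancel _ hx)
  have hy1 : y ≠ 1 := by
    rintro rfl
    rw [map_one, one_smul, ← h₂e] at hy
    exact hcd (smul_left_cancel _ hy)
  obtain ⟨π, ⟨h, h0, he⟩, hπ⟩ := htrans x y hx1 hy1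
  refine ⟨h₂⁻¹ * h * h₁, ?_, ?_⟩
  · rw [mul_smul, mul_smul, h₁e, h0, inv_smul_eq_iff, h₂e]
  · rw [mul_smul, mul_smul, ← hx, ← he, hπ, hy, inv_smul_smul]

/-- A regular cyclic `p`-subgroup and the centre of the block action. -/
theorem bridge_main {p m : ℕ} [hp : Fact p.Prime] [Finite H] [IsCyclic H] [Finite Ω]
    [FaithfulSMul G Ω] (hm : 2 ≤ m) (hH : Nat.card H = p ^ m) (hΩ : Nat.card Ω = p ^ m)
    (ι : H →* G) (hι : Function.Injective ι) (htr : IsPretransitive G Ω)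
    (h2 : ¬ IsMultiplyPretransitive G Ω 2) (z : H) (hz : z ≠ 1) (hzp : z ^ p = 1) :
    ¬ IsPreprimitive G Ω ∧ ¬ IsPretransitive (Subgroup.normalClosure ({ι z} : Set G)) Ω := by
  have hm1 : 1 ≤ m := by omega
  -- a regular point
  have hιz : ι z ≠ 1 := fun h => hz (hι (by rw [h, map_one]))
  obtain ⟨ω₀, hω₀⟩ : ∃ ω₀ : Ω, ι z • ω₀ ≠ ω₀ := by
    by_contra hcon
    push Not at hcon
    apply hιz
    apply FaithfulSMul.eq_of_smul_eq_smul (α := Ω)
    intro w
    rw [hcon, one_smul]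
  have hinj : Function.Injective fun c : H => ι c • ω₀ := by
    have hK : (stabilizer G ω₀).comap ι = ⊥ := by
      by_contra hne
      have h3 := mem_of_ne_bot hH hm1 hne hzp
      exact hω₀ h3
    intro c d hcd
    simp only at hcd
    have h3 : d⁻¹ * c ∈ (stabilizer G ω₀).comap ι := by
      rw [Subgroup.mem_comap, mem_stabilizer_iff, map_mul, mul_smul, map_inv, inv_smul_eq_iff, hcd]
    rw [hK] at h3
    exact (inv_mul_eq_one.mp (Subgroup.mem_bot.mp h3)).symm
  have hb : Function.Bijective fun c : H => ι c • ω₀ :=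
    Function.Injective.bijective_of_nat_card_le hinj (by rw [hH, hΩ])
  have hnp : ¬ IsPreprimitive G Ω := by
    intro hpp
    apply h2
    have hC : Ctx (Sta ι ω₀) p m :=
      ⟨sta_ss hb, inferInstance, hH, hm, fun K hK => sta_prim hb K hK⟩
    exact two_trans_of_sta hb htr fun x y hx hy => hC.trans hx hy
  refine ⟨hnp, fun htrn => ?_⟩
  -- a nontrivial block through the point
  obtain ⟨B, hωB, hB, hBt⟩ : ∃ B : Set Ω, ω₀ ∈ B ∧ IsBlock G B ∧ ¬ IsTrivialBlock B := by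
    by_contra hcon
    push Not at hcon
    exact hnp (IsPreprimitive.of_isTrivialBlock_base ω₀ fun {B} h3 h4 => hcon B h3 h4)
  have hstab : ∀ c : H, ι c • ω₀ ∈ B → ι c • B = B := fun c hc => hB.smul_eq_of_mem hωB hc
  -- the subgroup of the block
  have hKne : (stabilizer G B).comap ι ≠ ⊥ := by
    intro hK
    apply hBt
    left
    intro a ha b hb'
    obtain ⟨c, rfl⟩ := hb.2 a
    obtain ⟨d, rfl⟩ := hb.2 b
    have h3 : c ∈ (stabilizer G B).comap ι := hstab c ha
    have h4 : d ∈ (stabilizer G B).comap ι := hstab d hb'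
    rw [hK] at h3 h4
    rw [Subgroup.mem_bot.mp h3, Subgroup.mem_bot.mp h4]
  have hzB : ι z • B = B := mem_of_ne_bot hH hm1 hKne hzp
  -- the kernel of the action on the translates
  let S : Subgroup G :=
    { carrier := {n | ∀ h : G, n • h • B = h • B}
      one_mem' := fun h => one_smul _ _
      mul_mem' := by
        intro a b ha hb' h
        rw [mul_smul, hb' h, ha h]
      inv_mem' := by
        intro a ha h
        rw [inv_smul_eq_iff, ha h] }
  haveI hSn : S.Normal := by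
    constructor
    intro n hn k h
    have h3 := hn (k⁻¹ * h)
    rw [mul_smul, mul_smul, ← mul_smul k⁻¹ h, h3, mul_smul, smul_inv_smul]
  have hzS : ι z ∈ S := by
    intro h
    obtain ⟨c, hc⟩ := hb.2 (h • ω₀)
    simp only at hc
    have h3 : h • B = ι c • B := by
      apply isBlock_iff_smul_eq_smul_of_nonempty.mp hB
      exact ⟨h • ω₀, Set.smul_mem_smul_set hωB, by
        rw [← hc]
        exact Set.smul_mem_smul_set hωB⟩
    rw [h3, ← mul_smul, ← map_mul, mul_comm, map_mul, mul_smul, hzB]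
  have hle : Subgroup.normalClosure ({ι z} : Set G) ≤ S :=
    Subgroup.normalClosure_le_normal (by
      intro x hx
      rw [Set.mem_singleton_iff.mp hx]
      exact hzS)
  apply hBt
  right
  rw [Set.eq_univ_iff_forall]
  intro w
  obtain ⟨n, hn⟩ := htrn.exists_smul_eq ω₀ w
  have h3 : (n : G) • B = B := by
    have := hle n.2 1
    simpa using this
  rw [← hn, ← h3]
  exact Set.smul_mem_smul_set hωB

end bridge

/-- The theorem for a faithful action. -/
theorem main_faithful {Ω G : Type*} [Finite Ω] [Group G] [MulAction G Ω] [FaithfulSMul G Ω]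
    (p m : ℕ) (hp : p.Prime) (hm : 2 ≤ m) (hΩ : Nat.card Ω = p ^ m)
    (htr : MulAction.IsPretransitive G Ω) (h2 : ¬ MulAction.IsMultiplyPretransitive G Ω 2) (g : G)
    (hg : orderOf g = p ^ m) :
    ¬ MulAction.IsPreprimitive G Ω ∧
      ¬ MulAction.IsPretransitive (Subgroup.normalClosure ({g ^ (p ^ (m - 1))} : Set G)) Ω := by
  haveI : Fact p.Prime := ⟨hp⟩
  haveI : NeZero (orderOf g) := ⟨by rw [hg]; exact (pow_pos hp.pos m).ne'⟩
  have hgfin : IsOfFinOrder g := orderOf_pos_iff.mp (by rw [hg]; exact pow_pos hp.pos m)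
  letI : CommGroup (Subgroup.zpowers g) :=
    { (inferInstance : Group (Subgroup.zpowers g)) with
      mul_comm := fun a b => mul_comm' a b }
  haveI : Finite (Subgroup.zpowers g) :=
    Nat.finite_of_card_ne_zero (by rw [Nat.card_zpowers, hg]; exact (pow_pos hp.pos m).ne')
  haveI : IsCyclic (Subgroup.zpowers g) := inferInstance
  have hcard : Nat.card (Subgroup.zpowers g) = p ^ m := by rw [Nat.card_zpowers, hg]
  let z : Subgroup.zpowers g := ⟨g ^ (p ^ (m - 1)), Subgroup.npow_mem_zpowers g _⟩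
  have hz : z ≠ 1 := by
    intro h
    have h1 : g ^ (p ^ (m - 1)) = 1 := congrArg Subtype.val h
    have h3 := orderOf_dvd_of_pow_eq_one h1
    rw [hg] at h3
    have h4 := (Nat.pow_dvd_pow_iff_le_right hp.one_lt).mp h3
    omega
  have hzp : z ^ p = 1 := by
    ext
    change (g ^ (p ^ (m - 1))) ^ p = 1
    rw [← pow_mul, ← pow_succ, show m - 1 + 1 = m by omega, ← hg]
    exact pow_orderOf_eq_one g
  exact bridge_main hm hcard hΩ (Subgroup.zpowers g).subtype Subtype.val_injective htr h2 z hz hzp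

end Cfsg.Agent.Lib.LocalEven.SchurRing
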