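import Cfsg.Agent.Lib.LocalEven.Basic
import Cfsg.Agent.Lib.Transfer.Frattini
import Cfsg.Agent.Lib.Transfer.Tate

/-! The Wielandt-Yoshida transfer argument. -/

set_option autoImplicit false

namespace Cfsg.Agent.Lib.LocalEven.Yoshida

open Cfsg Subgroup MulAction

section L1

variable {Γ : Type*} [Group Γ] [Finite Γ] (B : Subgroup Γ) {A : Type*} [CommGroup A]

theorem transfer_eq_prod_fixed (ϕ : B →* A) (f : Γ → A)
    (hf : ∀ t (h : t ∈ B), ϕ ⟨t, h⟩ = f t) (y : Γ)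
    (hy : ∀ a : Γ ⧸ B, y • a ≠ a → f (a.out⁻¹ * y ^ Function.minimalPeriod (y • ·) a * a.out) = 1)
    (s : Finset (Γ ⧸ B)) (hs : ∀ a, a ∈ s ↔ y • a = a) :
    ϕ.transfer y = ∏ a ∈ s, f (a.out⁻¹ * y * a.out) := by
  classical
  haveI : Fintype (Quotient (orbitRel (zpowers y) (Γ ⧸ B))) := Fintype.ofFinite _
  rw [MonoidHom.transfer_eq_prod_quotient_orbitRel_zpowers_quot]
  have key : ∀ q : Quotient (orbitRel (zpowers y) (Γ ⧸ B)),
      ϕ ⟨q.out.out⁻¹ * y ^ Function.minimalPeriod (y • ·) q.out * q.out.out,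
        QuotientGroup.out_conj_pow_minimalPeriod_mem B y q.out⟩ =
      f (q.out.out⁻¹ * y ^ Function.minimalPeriod (y • ·) q.out * q.out.out) := fun q => hf _ _
  simp_rw [key]
  rw [← Finset.prod_filter_of_ne (p := fun q : Quotient (orbitRel (zpowers y) (Γ ⧸ B)) => y • q.out = q.out)
    (fun q _ hq => by
      by_contra hne
      exact hq (hy q.out hne))]
  refine Finset.prod_bij (fun q _ => q.out) ?_ ?_ ?_ ?_
  · intro q hq
    exact (hs _).2 (Finset.mem_filter.1 hq).2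
  · intro q _ q' _ h
    exact Quotient.out_injective h
  · intro a ha
    have ha' : y • a = a := (hs a).1 ha
    have hq : (Quotient.mk (orbitRel (zpowers y) (Γ ⧸ B)) a).out = a := by
      have h1 : (Quotient.mk (orbitRel (zpowers y) (Γ ⧸ B)) a).out ∈ orbit (zpowers y) a :=
        orbitRel_apply.1 (Quotient.mk_out (s := orbitRel (zpowers y) (Γ ⧸ B)) a)
      obtain ⟨⟨w, hw⟩, hw2⟩ := h1
      obtain ⟨k, rfl⟩ := mem_zpowers_iff.1 hw
      rw [← hw2]
      have h3 : ∀ k : ℤ, y ^ k • a = a := by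
        intro k
        exact (zpow_smul_eq_iff_minimalPeriod_dvd).2 (by
          rw [Function.minimalPeriod_eq_one_iff_isFixedPt.2 ha']
          simp)
      exact h3 k
    refine ⟨Quotient.mk _ a, ?_, hq⟩
    simp [hq, ha']
  · intro q hq
    have hfix : y • q.out = q.out := (Finset.mem_filter.1 hq).2
    have : Function.minimalPeriod (y • ·) q.out = 1 :=
      Function.minimalPeriod_eq_one_iff_isFixedPt.2 hfix
    rw [this, pow_one]

end L1

section weights

variable {G : Type*} [Group G] [Finite G] {P : Subgroup G} {A : Type*} [CommGroup A] (lam : ↥P →* A)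

open scoped Classical

attribute [local instance] Fintype.ofFinite

/-- The extension of `lam` by `1`. -/
noncomputable def ex (t : G) : A := if h : t ∈ P then lam ⟨t, h⟩ else 1

theorem ex_of_mem {t : G} (h : t ∈ P) : ex lam t = lam ⟨t, h⟩ := dif_pos h

theorem ex_one : ex lam (1 : G) = 1 := by
  rw [ex_of_mem lam P.one_mem]
  exact map_one lam

theorem ex_mul {s t : G} (hs : s ∈ P) (ht : t ∈ P) : ex lam (s * t) = ex lam s * ex lam t := by
  rw [ex_of_mem lam (P.mul_mem hs ht), ex_of_mem lam hs, ex_of_mem lam ht, ← map_mul]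
  rfl

theorem ex_pow {t : G} (ht : t ∈ P) (n : ℕ) : ex lam (t ^ n) = ex lam t ^ n := by
  induction n with
  | zero => simp [ex_one]
  | succ n ih => rw [pow_succ, ex_mul lam (P.pow_mem ht n) ht, ih, pow_succ]

theorem ex_conj {q : G} (hq : q ∈ P) (t : G) : ex lam (q⁻¹ * t * q) = ex lam t := by
  by_cases ht : t ∈ P
  · rw [ex_mul lam (P.mul_mem (P.inv_mem hq) ht) hq, ex_mul lam (P.inv_mem hq) ht]
    have : ex lam q⁻¹ * ex lam q = 1 := by
      rw [← ex_mul lam (P.inv_mem hq) hq]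
      simp [ex_one]
    calc ex lam q⁻¹ * ex lam t * ex lam q = ex lam t * (ex lam q⁻¹ * ex lam q) := by ac_rfl
      _ = ex lam t := by rw [this, mul_one]
  · have h1 : q⁻¹ * t * q ∉ P := by
      intro h
      apply ht
      have : t = q * (q⁻¹ * t * q) * q⁻¹ := by group
      rw [this]
      exact P.mul_mem (P.mul_mem hq h) (P.inv_mem hq)
    rw [ex, ex, dif_neg h1, dif_neg ht]

/-- The weight of a coset at an element. -/
noncomputable def wt (y : G) (a : G ⧸ P) : A := ex lam (a.out⁻¹ * y * a.out)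

theorem wt_mk (y g : G) : wt lam y (g : G ⧸ P) = ex lam (g⁻¹ * y * g) := by
  obtain ⟨h, hh⟩ := QuotientGroup.mk_out_eq_mul P g
  rw [wt, hh]
  have : (g * (h : G))⁻¹ * y * (g * h) = (h : G)⁻¹ * (g⁻¹ * y * g) * h := by group
  rw [this, ex_conj lam h.2]

theorem wt_smul (u y : G) (a : G ⧸ P) : wt lam y (u • a) = wt lam (u⁻¹ * y * u) a := by
  induction a using QuotientGroup.induction_on with
  | H g =>
    have : u • (g : G ⧸ P) = ((u * g : G) : G ⧸ P) := rfl
    rw [this, wt_mk, wt_mk]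
    congr 1
    group

omit [Finite G] in
theorem smul_eq_iff (y g : G) : y • (g : G ⧸ P) = g ↔ g⁻¹ * y * g ∈ P := by
  have : y • (g : G ⧸ P) = ((y * g : G) : G ⧸ P) := rfl
  rw [this, QuotientGroup.eq]
  have e : (y * g)⁻¹ * g = (g⁻¹ * y * g)⁻¹ := by group
  rw [e, P.inv_mem_iff]

/-- The sum over the fixed points in a set. -/
noncomputable def fs (y : G) (s : Finset (G ⧸ P)) : A := ∏ a ∈ s.filter (fun a => y • a = a), wt lam y a

/-- The orbit of a subgroup. -/
noncomputable def orb (K : Subgroup G) (a₀ : G ⧸ P) : Finset (G ⧸ P) :=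
  Finset.univ.filter (fun b => ∃ k ∈ K, k • a₀ = b)

theorem mem_orb {K : Subgroup G} {a₀ b : G ⧸ P} : b ∈ orb K a₀ ↔ ∃ k ∈ K, k • a₀ = b := by
  simp [orb]

/-- The block decomposition. -/
theorem block {K₀ K : Subgroup G} (hK : K₀ ≤ K) (a₀ : G ⧸ P) (hst : ∀ k ∈ K, k • a₀ = a₀ → k ∈ K₀)
    {y : G} (hy : y ∈ K) :
    fs lam y (orb K a₀) = ∏ c : ↥K ⧸ K₀.subgroupOf K,
      if ((c.out : G)⁻¹ * y * c.out) ∈ K₀ then fs lam ((c.out : G)⁻¹ * y * c.out) (orb K₀ a₀) else 1 := by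
  have hk : ∀ b : G ⧸ P, ∃ k : ↥K, b ∈ orb K a₀ → (k : G) • a₀ = b := by
    intro b
    by_cases h : b ∈ orb K a₀
    · obtain ⟨k, hk, hb⟩ := mem_orb.1 h
      exact ⟨⟨k, hk⟩, fun _ => hb⟩
    · exact ⟨1, fun h' => absurd h' h⟩
  choose kk hkk using hk
  let π : (G ⧸ P) → (↥K ⧸ K₀.subgroupOf K) := fun b => ((kk b : ↥K) : ↥K ⧸ K₀.subgroupOf K)
  unfold fs
  rw [← Finset.prod_fiberwise _ π]
  apply Finset.prod_congr rfl
  intro c _
  obtain ⟨w, hw⟩ : ∃ w : ↥K, w = c.out := ⟨_, rfl⟩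
  rw [← hw]
  have hcw : ((w : ↥K) : ↥K ⧸ K₀.subgroupOf K) = c := by rw [hw]; exact QuotientGroup.out_eq' c
  -- the basic relation
  have hfib : ∀ b, π b = c → (w : G)⁻¹ * kk b ∈ K₀ := by
    intro b hb
    have h1 : ((kk b : ↥K) : ↥K ⧸ K₀.subgroupOf K) = (w : ↥K) := by
      rw [hcw]; exact hb
    have h2 := QuotientGroup.eq.1 h1.symm
    exact h2
  split_ifs with ht
  · refine Finset.prod_bij' (fun b _ => (w : G)⁻¹ • b) (fun b' _ => (w : G) • b') ?_ ?_ ?_ ?_ ?_
    · intro b hb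
      simp only [Finset.mem_filter] at hb ⊢
      obtain ⟨⟨hb1, hb2⟩, hb3⟩ := hb
      refine ⟨mem_orb.2 ⟨_, hfib b hb3, ?_⟩, ?_⟩
      · rw [mul_smul, hkk b hb1]
      · rw [← mul_smul]
        have : (w : G)⁻¹ * y * w * (w : G)⁻¹ = (w : G)⁻¹ * y := by group
        rw [this, mul_smul, hb2]
    · intro b' hb'
      simp only [Finset.mem_filter] at hb' ⊢
      obtain ⟨hb1, hb2⟩ := hb'
      obtain ⟨m, hm, rfl⟩ := mem_orb.1 hb1
      have hmem : (w : G) • m • a₀ ∈ orb K a₀ := mem_orb.2 ⟨w * m, K.mul_mem w.2 (hK hm), by rw [mul_smul]⟩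
      refine ⟨⟨hmem, ?_⟩, ?_⟩
      · have h1 : ((w : G)⁻¹ * y * w) • m • a₀ = m • a₀ := hb2
        calc y • (w : G) • m • a₀ = (w : G) • ((w : G)⁻¹ * y * w) • m • a₀ := by
              simp only [smul_smul]
              congr 1
              group
          _ = (w : G) • m • a₀ := by rw [h1]
      · rw [← hcw]
        show ((kk _ : ↥K) : ↥K ⧸ K₀.subgroupOf K) = _
        have h2 := hkk _ hmem
        have h3 : ((w : G) * m)⁻¹ * kk ((w : G) • m • a₀) ∈ K₀ := by
          apply hst _ (K.mul_mem (K.inv_mem (K.mul_mem w.2 (hK hm))) (kk _).2)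
          rw [mul_smul, h2]
          simp [mul_smul]
        have h4 : (w : G)⁻¹ * kk ((w : G) • m • a₀) ∈ K₀ := by
          have : (w : G)⁻¹ * kk ((w : G) • m • a₀) = m * (((w : G) * m)⁻¹ * kk ((w : G) • m • a₀)) := by group
          rw [this]
          exact K₀.mul_mem hm h3
        exact ((QuotientGroup.eq (s := K₀.subgroupOf K) (a := w) (b := kk _)).2 h4).symm
    · intro b _
      simp
    · intro b' _
      simp
    · intro b _
      rw [wt_smul]
      congr 1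
      group
  · apply Finset.prod_eq_one
    intro b hb
    exfalso
    apply ht
    simp only [Finset.mem_filter] at hb
    obtain ⟨⟨hb1, hb2⟩, hb3⟩ := hb
    have h1 := hfib b hb3
    have h2 := hkk b hb1
    have h3 : (kk b : G)⁻¹ * y * kk b ∈ K₀ := by
      apply hst _ (K.mul_mem (K.mul_mem (K.inv_mem (kk b).2) hy) (kk b).2)
      have h4 : (kk b : G)⁻¹ • b = a₀ := by
        rw [inv_smul_eq_iff]; exact h2.symm
      rw [mul_smul, mul_smul, h2, hb2]
      exact h4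
    have : (w : G)⁻¹ * y * w = ((w : G)⁻¹ * kk b) * ((kk b : G)⁻¹ * y * kk b) * ((w : G)⁻¹ * kk b)⁻¹ := by group
    rw [this]
    exact K₀.mul_mem (K₀.mul_mem h1 h3) (K₀.inv_mem h1)

variable {p : ℕ} [Fact p.Prime]

/-- The low order hypothesis. -/
def Low (p : ℕ) (lam : ↥P →* A) (y : G) : Prop :=
  ∀ n : ℕ, p ∣ n → ∀ g : G, g⁻¹ * y ^ n * g ∈ P → ex lam (g⁻¹ * y ^ n * g) = 1

omit [Fact p.Prime] in
theorem Low.conj {y : G} (h : Low p lam y) (u : G) : Low p lam (u⁻¹ * y * u) := by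
  intro n hn g hg
  have e : g⁻¹ * (u⁻¹ * y * u) ^ n * g = (u * g)⁻¹ * y ^ n * (u * g) := by
    have h1 : (u⁻¹ * y * u) ^ n = u⁻¹ * y ^ n * u := by
      have := conj_pow (a := u⁻¹) (b := y) (i := n)
      simpa using this
    rw [h1]
    group
  rw [e] at hg ⊢
  exact h n hn _ hg

/-- The stabilizer homomorphism. -/
noncomputable def stabHom (K : Subgroup G) (a₀ : G ⧸ P) : MulAction.stabilizer ↥K a₀ →* A where
  toFun d := wt lam ((d : ↥K) : G) a₀
  map_one' := by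
    show wt lam 1 a₀ = 1
    rw [wt]
    simp [ex_one]
  map_mul' := by
    intro d d'
    have h1 : ((d : ↥K) : G) • a₀ = a₀ := d.2
    have h2 : ((d' : ↥K) : G) • a₀ = a₀ := d'.2
    have e : (a₀.out : G ⧸ P) = a₀ := QuotientGroup.out_eq' a₀
    have h3 : a₀.out⁻¹ * ((d : ↥K) : G) * a₀.out ∈ P := (smul_eq_iff _ _).1 (by rw [e]; exact h1)
    have h4 : a₀.out⁻¹ * ((d' : ↥K) : G) * a₀.out ∈ P := (smul_eq_iff _ _).1 (by rw [e]; exact h2)
    show wt lam (((d : ↥K) : G) * ((d' : ↥K) : G)) a₀ = wt lam _ a₀ * wt lam _ a₀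
    rw [wt, wt, wt, ← ex_mul lam h3 h4]
    congr 1
    group

/-- The homomorphism attached to an orbit. -/
noncomputable def orbHom (K : Subgroup G) (a₀ : G ⧸ P) : ↥K →* A := (stabHom lam K a₀).transfer

theorem wt_low {y : G} (h : Low p lam y) {n : ℕ} (hn : p ∣ n) {a : G ⧸ P} (ha : y ^ n • a = a) :
    wt lam (y ^ n) a = 1 := by
  have e : (a.out : G ⧸ P) = a := QuotientGroup.out_eq' a
  exact h n hn _ ((smul_eq_iff _ _).1 (by rw [e]; exact ha))

/-- The orbit homomorphism computes the fixed point product. -/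
theorem orbHom_apply (hP : IsPGroup p P) {K : Subgroup G} (hKP : K ≤ P) (a₀ : G ⧸ P) {y : G} (hy : y ∈ K)
    (hl : Low p lam y) : orbHom lam K a₀ ⟨y, hy⟩ = fs lam y (orb K a₀) := by
  have key := transfer_eq_prod_fixed (Γ := ↥K) (stabilizer ↥K a₀) (stabHom lam K a₀)
    (fun t => wt lam (t : G) a₀) (fun _ _ => rfl) ⟨y, hy⟩ (by
      intro c hc
      obtain ⟨k, hk⟩ := IsPGroup.iff_orderOf.1 hP ⟨y, hKP hy⟩
      have hyp : (⟨y, hy⟩ : ↥K) ^ p ^ k = 1 := by
        apply Subtype.ext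
        have : y ^ p ^ k = 1 := by
          have h1 : (⟨y, hKP hy⟩ : ↥P) ^ p ^ k = 1 := by rw [← hk]; exact pow_orderOf_eq_one _
          exact congrArg Subtype.val h1
        exact this
      obtain ⟨n, hn⟩ : ∃ n, n = Function.minimalPeriod ((⟨y, hy⟩ : ↥K) • ·) c := ⟨_, rfl⟩
      have hper : Function.IsPeriodicPt ((⟨y, hy⟩ : ↥K) • ·) (p ^ k) c := by
        show ((⟨y, hy⟩ : ↥K) • ·)^[p ^ k] c = c
        rw [smul_iterate, hyp]
        simp
      have hdvd : n ∣ p ^ k := by rw [hn]; exact hper.minimalPeriod_dvd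
      have hne1 : n ≠ 1 := by
        rw [hn]
        intro h1
        exact hc (Function.minimalPeriod_eq_one_iff_isFixedPt.1 h1)
      have hpn : p ∣ n := by
        obtain ⟨j, _, rfl⟩ := (Nat.dvd_prime_pow (Fact.out : p.Prime)).1 hdvd
        cases j with
        | zero => simp at hne1
        | succ j => exact dvd_pow_self p (Nat.succ_ne_zero j)
      have hmem := QuotientGroup.out_conj_pow_minimalPeriod_mem (stabilizer ↥K a₀) (⟨y, hy⟩ : ↥K) c
      rw [← hn] at hmem ⊢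
      have hfix : (((c.out⁻¹ * (⟨y, hy⟩ : ↥K) ^ n * c.out : ↥K)) : G) • a₀ = a₀ := hmem
      have hco : ((c.out⁻¹ * (⟨y, hy⟩ : ↥K) ^ n * c.out : ↥K) : G) = (c.out : G)⁻¹ * y ^ n * c.out := rfl
      rw [hco] at hfix ⊢
      rw [← wt_smul]
      apply wt_low lam hl hpn
      calc y ^ n • (c.out : G) • a₀ = (c.out : G) • ((c.out : G)⁻¹ * y ^ n * c.out) • a₀ := by
            simp only [smul_smul]
            congr 1
            group
        _ = (c.out : G) • a₀ := by rw [hfix]) (Finset.univ.filter (fun c => (⟨y, hy⟩ : ↥K) • c = c)) (by simp)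
  rw [orbHom, key]
  unfold fs
  refine Finset.prod_bij (fun c _ => (c.out : G) • a₀) ?_ ?_ ?_ ?_
  · intro c hc
    have hc' : (⟨y, hy⟩ : ↥K) • c = c := (Finset.mem_filter.1 hc).2
    simp only [Finset.mem_filter]
    refine ⟨mem_orb.2 ⟨_, c.out.2, rfl⟩, ?_⟩
    have e : ((c.out : ↥K) : ↥K ⧸ stabilizer ↥K a₀) = c := QuotientGroup.out_eq' c
    have h1 := (smul_eq_iff (P := stabilizer ↥K a₀) (⟨y, hy⟩ : ↥K) c.out).1 (by rw [e]; exact hc')
    have h2 : ((c.out : G)⁻¹ * y * c.out) • a₀ = a₀ := h1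
    calc y • (c.out : G) • a₀ = (c.out : G) • ((c.out : G)⁻¹ * y * c.out) • a₀ := by
          simp only [smul_smul]
          congr 1
          group
      _ = (c.out : G) • a₀ := by rw [h2]
  · intro c _ c' _ h
    have h1 : (c'.out⁻¹ * c.out : ↥K) ∈ stabilizer ↥K a₀ := by
      show (((c'.out⁻¹ * c.out : ↥K)) : G) • a₀ = a₀
      show ((c'.out : G)⁻¹ * (c.out : G)) • a₀ = a₀
      rw [mul_smul, inv_smul_eq_iff]
      exact h
    have := QuotientGroup.eq.2 h1
    rwa [QuotientGroup.out_eq', QuotientGroup.out_eq', eq_comm] at this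
  · intro b hb
    simp only [Finset.mem_filter] at hb
    obtain ⟨hb1, hb2⟩ := hb
    obtain ⟨k, hk, rfl⟩ := mem_orb.1 hb1
    obtain ⟨d, hd⟩ := QuotientGroup.mk_out_eq_mul (stabilizer ↥K a₀) (⟨k, hk⟩ : ↥K)
    have hdfix : (((d : stabilizer ↥K a₀) : ↥K) : G) • a₀ = a₀ := d.2
    refine ⟨((⟨k, hk⟩ : ↥K) : ↥K ⧸ stabilizer ↥K a₀), ?_, ?_⟩
    · simp only [Finset.mem_filter, Finset.mem_univ, true_and]
      rw [smul_eq_iff]
      show ((k⁻¹ * y * k : G)) • a₀ = a₀
      simp only [mul_smul]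
      rw [hb2]
      simp
    · rw [hd]
      show (k * (((d : stabilizer ↥K a₀) : ↥K) : G)) • a₀ = k • a₀
      rw [mul_smul, hdfix]
  · intro c _
    rw [wt_smul]
    rfl

theorem orbHom_conj {K : Subgroup G} (a₀ : G ⧸ P) (m t : ↥K) :
    orbHom lam K a₀ (m⁻¹ * t * m) = orbHom lam K a₀ t := by
  rw [map_mul, map_mul, map_inv, mul_comm (orbHom lam K a₀ m)⁻¹, mul_assoc, inv_mul_cancel, mul_one]

end weights

end Cfsg.Agent.Lib.LocalEven.Yoshida
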