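import Cfsg.Agent.Lib.LocalEven.Yoshida

/-! The Wielandt-Yoshida transfer argument: frames. -/

set_option autoImplicit false

namespace Cfsg.Agent.Lib.LocalEven.Yoshida

open Cfsg Subgroup MulAction

variable {G : Type*} [Group G] [Finite G] {p : ℕ} [Fact p.Prime] {P W : Subgroup G}

open scoped Classical

attribute [local instance] Fintype.ofFinite

/-- A frame: `M` normal of index `p` in `H = ⟨z⟩ M`, `z ∈ W ≤ H ≤ P`. -/
structure IsFrame (p : ℕ) (P W M H : Subgroup G) (z : G) : Prop where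
  hMH : M ≤ H
  hHP : H ≤ P
  hWH : W ≤ H
  hnorm : H ≤ normalizer (M : Set G)
  hzW : z ∈ W
  hzM : z ∉ M
  hcov : ∀ h ∈ H, ∃ i < p, ∃ m ∈ M, h = z ^ i * m
  hzp : z ^ p ∈ M

/-- The vanishing of norms on frames. -/
def NormVanish (p : ℕ) (P W : Subgroup G) : Prop :=
  ∀ (M H : Subgroup G) (z : G), IsFrame p P W M H z → ∀ f : G → Multiplicative (ZMod p),
    (∀ a ∈ M, ∀ b ∈ M, f (a * b) = f a * f b) → ∀ y ∈ M, ∏ i ∈ Finset.range p, f ((z ^ i)⁻¹ * y * z ^ i) = 1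

omit [Finite G] in
theorem IsFrame.pow_not_mem {M H : Subgroup G} {z : G} (hF : IsFrame p P W M H z) {k : ℕ} (h0 : 0 < k)
    (hk : k < p) : z ^ k ∉ M := by
  intro hmem
  have hpp : p.Prime := Fact.out
  have hcop : Nat.Coprime k p := ((Nat.Prime.coprime_iff_not_dvd hpp).2 (Nat.not_dvd_of_pos_of_lt h0 hk)).symm
  obtain ⟨m, _, hm⟩ := Nat.exists_mul_mod_eq_one_of_coprime hcop hpp.one_lt
  apply hF.hzM
  have e : z ^ (k * m) = (z ^ p) ^ (k * m / p) * z := by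
    conv_lhs => rw [← Nat.div_add_mod (k * m) p, hm, pow_add, pow_mul, pow_one]
  have h1 : z ^ (k * m) ∈ M := by
    rw [pow_mul]
    exact M.pow_mem hmem m
  rw [e] at h1
  exact (M.mul_mem_cancel_left (M.pow_mem hF.hzp _)).1 h1

omit [Finite G] in
theorem IsFrame.inj {M H : Subgroup G} {z : G} (hF : IsFrame p P W M H z) {i j : ℕ} (hi : i < p) (hj : j < p)
    (h : (z ^ i)⁻¹ * z ^ j ∈ M) : i = j := by
  rcases lt_trichotomy i j with hlt | heq | hgt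
  · exfalso
    have e : (z ^ i)⁻¹ * z ^ j = z ^ (j - i) := by
      rw [inv_mul_eq_iff_eq_mul, ← pow_add]
      congr 1
      omega
    rw [e] at h
    exact hF.pow_not_mem (by omega) (by omega) h
  · exact heq
  · exfalso
    have e : ((z ^ i)⁻¹ * z ^ j)⁻¹ = z ^ (i - j) := by
      rw [mul_inv_rev, inv_inv, inv_mul_eq_iff_eq_mul, ← pow_add]
      congr 1
      omega
    have h2 := M.inv_mem h
    rw [e] at h2
    exact hF.pow_not_mem (by omega) (by omega) h2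

theorem prod_cosets {M H : Subgroup G} {z : G} {A : Type*} [CommGroup A] (hF : IsFrame p P W M H z)
    (F : G → A) (hFm : ∀ h ∈ H, ∀ m ∈ M, F (h * m) = F h) :
    ∏ c : ↥H ⧸ M.subgroupOf H, F (c.out : G) = ∏ i ∈ Finset.range p, F (z ^ i) := by
  have hzH : z ∈ H := hF.hWH hF.hzW
  symm
  refine Finset.prod_bij (fun i _ => ((⟨z ^ i, H.pow_mem hzH i⟩ : ↥H) : ↥H ⧸ M.subgroupOf H)) ?_ ?_ ?_ ?_
  · intro _ _
    exact Finset.mem_univ _
  · intro i hi j hj h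
    have h1 := QuotientGroup.eq.1 h
    exact hF.inj (Finset.mem_range.1 hi) (Finset.mem_range.1 hj) h1
  · intro c _
    obtain ⟨i, hi, m, hm, he⟩ := hF.hcov _ c.out.2
    refine ⟨i, Finset.mem_range.2 hi, ?_⟩
    rw [← QuotientGroup.out_eq' c]
    apply QuotientGroup.eq.2
    show (z ^ i)⁻¹ * (c.out : G) ∈ M
    rw [he]
    simpa using hm
  · intro i _
    obtain ⟨m, hm⟩ := QuotientGroup.mk_out_eq_mul (M.subgroupOf H) (⟨z ^ i, H.pow_mem hzH i⟩ : ↥H)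
    rw [hm]
    exact (hFm _ (H.pow_mem hzH i) _ m.2).symm

/-- The vanishing on the `H`-orbit. -/
theorem H_vanish (hP : IsPGroup p P) (lam : ↥P →* Multiplicative (ZMod p)) (hN : NormVanish p P W)
    {M H : Subgroup G} {z : G} (hF : IsFrame p P W M H z) (a₀ : G ⧸ P) (hst : ∀ k ∈ H, k • a₀ = a₀ → k ∈ M)
    {y : G} (hy : y ∈ H) (hl : Low p lam y) : fs lam y (orb H a₀) = 1 := by
  rw [block lam hF.hMH a₀ hst hy]
  have hconj : ∀ c : H, ∀ t ∈ M, (c : G)⁻¹ * t * c ∈ M := by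
    intro c t ht
    have := (mem_normalizer_iff.1 (hF.hnorm (H.inv_mem c.2)) t).1 ht
    simpa using this
  by_cases hyM : y ∈ M
  · have hMP : M ≤ P := hF.hMH.trans hF.hHP
    obtain ⟨f, hf⟩ : ∃ f : G → Multiplicative (ZMod p), f = fun t =>
        if h : t ∈ M then orbHom lam M a₀ ⟨t, h⟩ else 1 := ⟨_, rfl⟩
    have hfmem : ∀ t (h : t ∈ M), f t = orbHom lam M a₀ ⟨t, h⟩ := by
      intro t h
      rw [hf]
      exact dif_pos h
    have hfhom : ∀ a ∈ M, ∀ b ∈ M, f (a * b) = f a * f b := by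
      intro a ha b hb
      rw [hfmem _ ha, hfmem _ hb, hfmem _ (M.mul_mem ha hb), ← map_mul]
      rfl
    have e1 : (∏ c : ↥H ⧸ M.subgroupOf H,
        if ((c.out : G)⁻¹ * y * c.out) ∈ M then fs lam ((c.out : G)⁻¹ * y * c.out) (orb M a₀) else 1) =
        ∏ c : ↥H ⧸ M.subgroupOf H, (fun h : G => f (h⁻¹ * y * h)) (c.out : G) := by
      apply Finset.prod_congr rfl
      intro c _
      have hm := hconj c.out y hyM
      rw [if_pos hm, ← orbHom_apply lam hP hMP a₀ hm (Low.conj lam hl _)]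
      exact (hfmem _ hm).symm
    have hF2 : ∀ h ∈ H, ∀ m ∈ M, (fun h : G => f (h⁻¹ * y * h)) (h * m) = (fun h : G => f (h⁻¹ * y * h)) h := by
      intro h hh m hm
      have hm1 := hconj ⟨h, hh⟩ y hyM
      have e2 : (h * m)⁻¹ * y * (h * m) = m⁻¹ * (h⁻¹ * y * h) * m := by group
      simp only
      rw [e2, hfmem _ (M.mul_mem (M.mul_mem (M.inv_mem hm) hm1) hm), hfmem _ hm1]
      have := orbHom_conj lam (K := M) a₀ ⟨m, hm⟩ ⟨_, hm1⟩
      exact this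
    have e3 := prod_cosets (A := Multiplicative (ZMod p)) hF (fun h : G => f (h⁻¹ * y * h)) hF2
    rw [e1, e3]
    exact hN M H z hF f hfhom y hyM
  · apply Finset.prod_eq_one
    intro c _
    rw [if_neg]
    intro h
    apply hyM
    have := hconj ⟨_, H.inv_mem c.out.2⟩ _ h
    have e3 : y = ((⟨_, H.inv_mem c.out.2⟩ : H) : G)⁻¹ * ((c.out : G)⁻¹ * y * c.out) * ((⟨_, H.inv_mem c.out.2⟩ : H) : G) := by
      simp [mul_assoc]
    rw [e3]
    exact this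

/-- Existence of a frame over a subgroup not containing `W`. -/
theorem exists_frame (hP : IsPGroup p P) (hWP : W ≤ P) (hnW : P ≤ normalizer (W : Set G)) {D : Subgroup G}
    (hDP : D ≤ P) (hWD : ¬ W ≤ D) : ∃ (M H : Subgroup G) (z : G), IsFrame p P W M H z ∧ D ≤ M := by
  obtain ⟨H, hH⟩ : ∃ H : Subgroup G, H = D ⊔ W := ⟨_, rfl⟩
  have hHP : H ≤ P := by rw [hH]; exact sup_le hDP hWP
  have hDH : D ≤ H := by rw [hH]; exact le_sup_left
  have hWH : W ≤ H := by rw [hH]; exact le_sup_right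
  have hHp : IsPGroup p H := hP.to_le hHP
  have hne : D.subgroupOf H ≠ ⊤ := by
    intro h
    apply hWD
    intro w hw
    have : (⟨w, hWH hw⟩ : ↥H) ∈ D.subgroupOf H := by rw [h]; trivial
    exact this
  obtain ⟨M', hM', hDM'⟩ := (eq_top_or_exists_le_coatom (D.subgroupOf H)).resolve_left hne
  obtain ⟨hMn, hMi⟩ := Cfsg.Agent.Lib.Transfer.normal_and_index_of_isCoatom hHp hM'
  refine ⟨M'.map H.subtype, H, ?_⟩
  have hMH : M'.map H.subtype ≤ H := by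
    rintro _ ⟨x, _, rfl⟩
    exact x.2
  have hDM : D ≤ M'.map H.subtype := by
    intro d hd
    exact ⟨⟨d, hDH hd⟩, hDM' hd, rfl⟩
  have hmem : ∀ h : ↥H, (h : G) ∈ M'.map H.subtype ↔ h ∈ M' := by
    intro h
    constructor
    · rintro ⟨x, hx, hxe⟩
      have : x = h := Subtype.ext hxe
      rwa [← this]
    · intro hh
      exact ⟨h, hh, rfl⟩
  have hWM : ¬ W ≤ M'.map H.subtype := by
    intro hle
    apply hM'.1
    rw [eq_top_iff]
    rintro ⟨h, hh⟩ _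
    have : h ∈ M'.map H.subtype := by
      have h1 : D ⊔ W ≤ M'.map H.subtype := sup_le hDM hle
      have hh' : h ∈ D ⊔ W := hH ▸ hh
      exact h1 hh'
    exact (hmem ⟨h, hh⟩).1 this
  obtain ⟨z, hzW, hzM⟩ := SetLike.not_le_iff_exists.1 hWM
  refine ⟨z, ?_, hDM⟩
  have hzH : z ∈ H := hWH hzW
  have hcard : Nat.card (↥H ⧸ M') = p := hMi
  have hz1 : ((⟨z, hzH⟩ : ↥H) : ↥H ⧸ M') ≠ 1 := by
    intro h
    apply hzM
    rw [hmem ⟨z, hzH⟩]
    exact (QuotientGroup.eq_one_iff _).1 h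
  have hfin : Finite (↥H ⧸ M') := inferInstance
  have hzpow : ((⟨z, hzH⟩ : ↥H) : ↥H ⧸ M') ^ p = 1 := by
    rw [← hcard]
    exact pow_card_eq_one'
  refine ⟨hMH, hHP, hWH, ?_, hzW, hzM, ?_, ?_⟩
  · intro h hh
    rw [mem_normalizer_iff]
    intro t
    constructor
    · rintro ⟨x, hx, rfl⟩
      exact ⟨⟨h, hh⟩ * x * ⟨h, hh⟩⁻¹, hMn.conj_mem x hx _, rfl⟩
    · rintro ⟨x, hx, hxe⟩
      have htH : t ∈ H := by
        have h1 : h * t * h⁻¹ ∈ H := by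
          rw [← hxe]
          exact x.2
        have h2 : t = h⁻¹ * (h * t * h⁻¹) * h := by group
        rw [h2]
        exact H.mul_mem (H.mul_mem (H.inv_mem hh) h1) hh
      refine ⟨⟨t, htH⟩, ?_, rfl⟩
      have h3 : (⟨h, hh⟩ : ↥H)⁻¹ * x * (⟨h, hh⟩ : ↥H)⁻¹⁻¹ ∈ M' := hMn.conj_mem x hx _
      have h4 : (⟨h, hh⟩ : ↥H)⁻¹ * x * (⟨h, hh⟩ : ↥H)⁻¹⁻¹ = ⟨t, htH⟩ := by
        apply Subtype.ext
        show h⁻¹ * (x : G) * h⁻¹⁻¹ = t
        have : (x : G) = h * t * h⁻¹ := hxe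
        rw [this]
        group
      rwa [h4] at h3
  · intro h hh
    have h1 := mem_powers_of_prime_card hcard (g' := ((⟨h, hh⟩ : ↥H) : ↥H ⧸ M')) hz1
    obtain ⟨n, hn⟩ := Submonoid.mem_powers_iff _ _ |>.1 h1
    have hpos : 0 < p := (Fact.out : p.Prime).pos
    refine ⟨n % p, Nat.mod_lt _ hpos, (z ^ (n % p))⁻¹ * h, ?_, by group⟩
    have h2 : ((⟨z, hzH⟩ : ↥H) : ↥H ⧸ M') ^ (n % p) = ((⟨h, hh⟩ : ↥H) : ↥H ⧸ M') := by
      rw [← hn, ← pow_mod_orderOf, ← pow_mod_orderOf _ n]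
      have hod : orderOf ((⟨z, hzH⟩ : ↥H) : ↥H ⧸ M') ∣ p := orderOf_dvd_of_pow_eq_one hzpow
      rw [Nat.mod_mod_of_dvd _ hod]
    have h3 : ((⟨z, hzH⟩ ^ (n % p) : ↥H) : ↥H ⧸ M') = ((⟨h, hh⟩ : ↥H) : ↥H ⧸ M') := h2
    have h4 := QuotientGroup.eq.1 h3
    exact (hmem _).2 h4
  · have h5 : (((⟨z, hzH⟩ : ↥H) ^ p : ↥H) : ↥H ⧸ M') = 1 := hzpow
    exact (hmem _).2 ((QuotientGroup.eq_one_iff _).1 h5)

/-- The vanishing on a `P`-orbit. -/
theorem Om_vanish (hP : IsPGroup p P) (lam : ↥P →* Multiplicative (ZMod p)) (hN : NormVanish p P W)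
    (hWP : W ≤ P) (hnW : P ≤ normalizer (W : Set G)) {a₀ : G ⧸ P}
    (hW : ¬ W ≤ P ⊓ stabilizer G a₀) {x : G} (hx : x ∈ P) (hl : Low p lam x) :
    fs lam x (orb P a₀) = 1 := by
  obtain ⟨M, H, z, hF, hDM⟩ := exists_frame hP hWP hnW inf_le_left hW
  have hst : ∀ k ∈ H, k • a₀ = a₀ → k ∈ M := fun k hk hfix => hDM ⟨hF.hHP hk, hfix⟩
  have hst' : ∀ k ∈ P, k • a₀ = a₀ → k ∈ H := fun k hk hfix => hF.hMH (hDM ⟨hk, hfix⟩)
  rw [block lam hF.hHP a₀ hst' hx]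
  apply Finset.prod_eq_one
  intro c _
  split_ifs with hc
  · exact H_vanish hP lam hN hF a₀ hst hc (Low.conj lam hl _)
  · rfl

end Cfsg.Agent.Lib.LocalEven.Yoshida
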