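import Cfsg.Agent.Lib.LocalEven.Yoshida2

/-! The Wielandt-Yoshida transfer argument: the transfer formula and the control theorem. -/

set_option autoImplicit false

namespace Cfsg.Agent.Lib.LocalEven.Yoshida

open Cfsg Subgroup MulAction

variable {G : Type*} [Group G] [Finite G] {p : ℕ} [Fact p.Prime] {P W : Subgroup G}

open scoped Classical commutatorElement

attribute [local instance] Fintype.ofFinite

/-- Counting fixed points of a `p`-element. -/
theorem fix_count {Y Γ : Type*} [Finite Y] [Group Γ] [MulAction Γ Y] (x : Γ) (k : ℕ) (hx : x ^ p ^ k = 1) :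
    Nat.card {b : Y // x • b = b} ≡ Nat.card Y [MOD p] := by
  have hK : IsPGroup p (zpowers x) := by
    rintro ⟨g, hg⟩
    refine ⟨k, ?_⟩
    obtain ⟨n, rfl⟩ := mem_zpowers_iff.1 hg
    apply Subtype.ext
    show (x ^ n) ^ p ^ k = 1
    rw [← zpow_natCast, ← zpow_mul, mul_comm, zpow_mul, zpow_natCast, hx, one_zpow]
  haveI : Finite (zpowers x) := by
    by_cases h : x = 1
    · subst h
      simp only [zpowers_one_eq_bot]
      infer_instance
    · have : IsOfFinOrder x := isOfFinOrder_iff_pow_eq_one.2 ⟨p ^ k, pow_pos (Fact.out : p.Prime).pos k, hx⟩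
      exact Set.finite_coe_iff.2 (IsOfFinOrder.finite_zpowers this)
  have h := hK.card_modEq_card_fixedPoints Y
  have e : Nat.card (fixedPoints (zpowers x) Y) = Nat.card {b : Y // x • b = b} := by
    apply Nat.card_congr
    refine Equiv.subtypeEquivRight ?_
    intro b
    constructor
    · intro hb
      exact hb ⟨x, mem_zpowers x⟩
    · rintro hb ⟨g, hg⟩
      obtain ⟨n, rfl⟩ := mem_zpowers_iff.1 hg
      show x ^ n • b = b
      exact (zpow_smul_eq_iff_minimalPeriod_dvd).2 (by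
        rw [Function.minimalPeriod_eq_one_iff_isFixedPt.2 hb]
        simp)
  rw [e] at h
  exact h.symm

theorem mzp_pow (a : Multiplicative (ZMod p)) : a ^ p = 1 := by
  have h : Nat.card (Multiplicative (ZMod p)) = p := by
    rw [Nat.card_congr Multiplicative.toAdd.symm.symm]
    simp
  have h2 : a ^ Nat.card (Multiplicative (ZMod p)) = 1 := pow_card_eq_one'
  rwa [h] at h2

theorem mzp_pow_modEq (a : Multiplicative (ZMod p)) {m n : ℕ} (h : m ≡ n [MOD p]) : a ^ m = a ^ n := by
  rw [pow_eq_pow_iff_modEq]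
  exact h.of_dvd (orderOf_dvd_of_pow_eq_one (mzp_pow a))

omit [Fact p.Prime] in
theorem p_dvd_minimalPeriod {Γ Y : Type*} [Group Γ] [MulAction Γ Y] (hp : p.Prime) {y : Γ} {k : ℕ} (hy : y ^ p ^ k = 1) {c : Y}
    (hc : y • c ≠ c) : p ∣ Function.minimalPeriod (y • ·) c := by
  have hper : Function.IsPeriodicPt (y • ·) (p ^ k) c := by
    show (y • ·)^[p ^ k] c = c
    rw [smul_iterate, hy]
    simp
  have hdvd := hper.minimalPeriod_dvd
  obtain ⟨j, _, hj⟩ := (Nat.dvd_prime_pow hp).1 hdvd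
  rw [hj]
  cases j with
  | zero =>
    exfalso
    simp only [pow_zero] at hj
    exact hc (Function.minimalPeriod_eq_one_iff_isFixedPt.1 hj)
  | succ j => exact dvd_pow_self p (Nat.succ_ne_zero j)

theorem transfer_formula (hP : IsPGroup p P) (hWP : W ≤ P) (hnW : P ≤ normalizer (W : Set G))
    (hwc : ∀ g : G, (∀ w ∈ W, g⁻¹ * w * g ∈ P) → g ∈ normalizer (W : Set G))
    (lam : ↥P →* Multiplicative (ZMod p)) (hN : NormVanish p P W)
    (hstable : ∀ n ∈ normalizer (W : Set G), ∀ x ∈ P, n⁻¹ * x * n ∈ P → ex lam (n⁻¹ * x * n) = ex lam x)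
    {x : G} (hx : x ∈ P) (hl : Low p lam x) :
    lam.transfer x = ex lam x ^ P.index := by
  have hpp : p.Prime := Fact.out
  obtain ⟨k, hk⟩ := IsPGroup.iff_orderOf.1 hP ⟨x, hx⟩
  have hxk : x ^ p ^ k = 1 := by
    have h1 : (⟨x, hx⟩ : ↥P) ^ p ^ k = 1 := by rw [← hk]; exact pow_orderOf_eq_one _
    exact congrArg Subtype.val h1
  obtain ⟨F, hFdef⟩ : ∃ F : Finset (G ⧸ P), F = Finset.univ.filter (fun a : G ⧸ P => x • a = a) := ⟨_, rfl⟩
  have hF : ∀ a, a ∈ F ↔ x • a = a := by
    intro a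
    rw [hFdef]
    simp
  have hT : lam.transfer x = ∏ a ∈ F, wt lam x a :=
    transfer_eq_prod_fixed P lam (ex lam) (fun t h => (ex_of_mem lam h).symm) x (by
      intro a ha
      exact hl _ (p_dvd_minimalPeriod hpp hxk ha) _ (QuotientGroup.out_conj_pow_minimalPeriod_mem P x a)) F hF
  rw [hT]
  -- the splitting
  obtain ⟨inN, hinN⟩ : ∃ inN : G ⧸ P → Prop, inN = fun a => ∃ g ∈ normalizer (W : Set G), (g : G ⧸ P) = a := ⟨_, rfl⟩
  have hinN_iff : ∀ a, inN a ↔ ∃ g ∈ normalizer (W : Set G), (g : G ⧸ P) = a := by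
    intro a
    rw [hinN]
  -- `P` preserves the set
  have hinv : ∀ q ∈ P, ∀ a, inN (q • a) ↔ inN a := by
    have h1 : ∀ q ∈ P, ∀ a, inN a → inN (q • a) := by
      intro q hq a ha
      obtain ⟨g, hg, rfl⟩ := (hinN_iff a).1 ha
      exact (hinN_iff _).2 ⟨q * g, mul_mem (hnW hq) hg, rfl⟩
    intro q hq a
    refine ⟨fun h => ?_, h1 q hq a⟩
    have := h1 q⁻¹ (P.inv_mem hq) _ h
    simpa using this
  -- non-fixed
  have hnotfix : ∀ a, ¬ inN a → ¬ W ≤ P ⊓ stabilizer G a := by
    intro a ha hle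
    apply ha
    refine (hinN_iff a).2 ⟨a.out, hwc _ ?_, QuotientGroup.out_eq' a⟩
    intro w hw
    have h1 : w • a = a := (hle hw).2
    apply (smul_eq_iff _ _).1
    rw [QuotientGroup.out_eq']
    exact h1
  rw [← Finset.prod_filter_mul_prod_filter_not F inN]
  -- the outer part vanishes
  have hout : ∏ a ∈ F.filter (fun a => ¬ inN a), wt lam x a = 1 := by
    rw [← Finset.prod_fiberwise _ (fun a => (Quotient.mk (orbitRel ↥P (G ⧸ P)) a))]
    apply Finset.prod_eq_one
    intro q _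
    by_cases hne : ((F.filter (fun a => ¬ inN a)).filter (fun a => Quotient.mk (orbitRel ↥P (G ⧸ P)) a = q)).Nonempty
    · obtain ⟨a₀, ha₀⟩ := hne
      simp only [Finset.mem_filter] at ha₀
      obtain ⟨⟨_, ha₀2⟩, rfl⟩ := ha₀
      have e : (F.filter (fun a => ¬ inN a)).filter (fun a => Quotient.mk (orbitRel ↥P (G ⧸ P)) a = Quotient.mk (orbitRel ↥P (G ⧸ P)) a₀)
          = (orb P a₀).filter (fun a => x • a = a) := by
        ext a
        simp only [Finset.mem_filter, mem_orb, hF]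
        constructor
        · rintro ⟨⟨h1, _⟩, h3⟩
          obtain ⟨⟨k', hk'⟩, hk2⟩ := orbitRel_apply.1 (Quotient.exact h3)
          exact ⟨⟨k', hk', hk2⟩, h1⟩
        · rintro ⟨⟨k', hk', hk2⟩, h1⟩
          refine ⟨⟨h1, ?_⟩, ?_⟩
          · rw [← hk2, hinv k' hk']
            exact ha₀2
          · exact Quotient.sound (orbitRel_apply.2 ⟨⟨k', hk'⟩, hk2⟩)
      rw [e]
      exact Om_vanish hP lam hN hWP hnW (hnotfix a₀ ha₀2) hx hl
    · rw [Finset.not_nonempty_iff_eq_empty] at hne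
      rw [hne, Finset.prod_empty]
  rw [hout, mul_one]
  -- the inner part
  have hin : ∏ a ∈ F.filter inN, wt lam x a = ∏ a ∈ F.filter inN, ex lam x := by
    apply Finset.prod_congr rfl
    intro a ha
    simp only [Finset.mem_filter, hF] at ha
    obtain ⟨ha1, ha2⟩ := ha
    obtain ⟨g, hg, rfl⟩ := (hinN_iff a).1 ha2
    rw [wt_mk]
    exact hstable g hg x hx ((smul_eq_iff _ _).1 ha1)
  rw [hin, Finset.prod_const]
  apply mzp_pow_modEq
  -- count
  obtain ⟨X₁, hX₁⟩ : ∃ X₁ : SubMulAction ↥P (G ⧸ P), ∀ a, a ∈ X₁ ↔ ¬ inN a :=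
    ⟨{ carrier := {a | ¬ inN a}
       smul_mem' := by
        rintro ⟨q, hq⟩ a ha
        intro h
        exact ha ((hinv q hq a).1 h) }, fun a => Iff.rfl⟩
  have c1 : Nat.card ↥X₁ ≡ 0 [MOD p] := by
    have hPP : IsPGroup p ↥P := hP
    have h1 := hPP.card_modEq_card_fixedPoints ↥X₁
    have h2 : IsEmpty (fixedPoints ↥P ↥X₁) := by
      refine ⟨?_⟩
      rintro ⟨⟨a, ha⟩, hfix⟩
      apply hnotfix a ((hX₁ a).1 ha)
      intro w hw
      refine ⟨hWP hw, ?_⟩
      have h3 := congrArg Subtype.val (hfix ⟨w, hWP hw⟩)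
      exact h3
    rw [Nat.card_of_isEmpty (α := fixedPoints ↥P ↥X₁)] at h1
    exact h1
  have c2 := fix_count (p := p) (Y := ↥X₁) (⟨x, hx⟩ : ↥P) k (by
    apply Subtype.ext
    exact hxk)
  have c3 := fix_count (p := p) (Y := G ⧸ P) x k hxk
  have e1 : Nat.card {b : ↥X₁ // (⟨x, hx⟩ : ↥P) • b = b} = (F.filter (fun a => ¬ inN a)).card := by
    have e : {b : ↥X₁ // (⟨x, hx⟩ : ↥P) • b = b} ≃ ↥(F.filter (fun a => ¬ inN a)) :=
      { toFun := fun b => ⟨b.1.1, by
          rw [Finset.mem_filter, hF]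
          exact ⟨congrArg Subtype.val b.2, (hX₁ _).1 b.1.2⟩⟩
        invFun := fun a => ⟨⟨a.1, (hX₁ _).2 (Finset.mem_filter.1 a.2).2⟩, by
          apply Subtype.ext
          exact (hF _).1 (Finset.mem_filter.1 a.2).1⟩
        left_inv := fun b => rfl
        right_inv := fun a => rfl }
    rw [Nat.card_congr e, Nat.card_eq_fintype_card, Fintype.card_coe]
  have e2 : Nat.card {b : G ⧸ P // x • b = b} = F.card := by
    have e : {b : G ⧸ P // x • b = b} ≃ ↥F :=
      { toFun := fun b => ⟨b.1, (hF _).2 b.2⟩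
        invFun := fun a => ⟨a.1, (hF _).1 a.2⟩
        left_inv := fun b => rfl
        right_inv := fun a => rfl }
    rw [Nat.card_congr e, Nat.card_eq_fintype_card, Fintype.card_coe]
  rw [e1] at c2
  rw [e2] at c3
  have h3 := Finset.card_filter_add_card_filter_not (s := F) inN
  have h4 : (F.filter (fun a => ¬ inN a)).card ≡ 0 [MOD p] := c2.trans c1
  have h5 : (F.filter inN).card + (F.filter (fun a => ¬ inN a)).card ≡ P.index [MOD p] := by
    rw [h3]
    exact c3
  exact (Nat.ModEq.add_left (F.filter inN).card h4).symm.trans h5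

theorem cancel_pow {a b : Multiplicative (ZMod p)} {m : ℕ} (hm : ¬ p ∣ m) (h : a ^ m = b ^ m) : a = b := by
  have hpp : p.Prime := Fact.out
  have h1 : (a / b) ^ m = 1 := by rw [div_pow, h, div_self']
  have h2 : (a / b) ^ p = 1 := mzp_pow _
  have h3 : orderOf (a / b) ∣ Nat.gcd m p := Nat.dvd_gcd (orderOf_dvd_of_pow_eq_one h1) (orderOf_dvd_of_pow_eq_one h2)
  have h4 : Nat.gcd m p = 1 := (Nat.Prime.coprime_iff_not_dvd hpp).2 hm |>.symm
  rw [h4, Nat.dvd_one, orderOf_eq_one_iff, div_eq_one] at h3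
  exact h3

/-- The elements of `P` have stable values under all of `G`. -/
theorem stable_all (hP : IsPGroup p P) (hWP : W ≤ P) (hnW : P ≤ normalizer (W : Set G))
    (hwc : ∀ g : G, (∀ w ∈ W, g⁻¹ * w * g ∈ P) → g ∈ normalizer (W : Set G)) (hpi : ¬ p ∣ P.index)
    (lam : ↥P →* Multiplicative (ZMod p)) (hN : NormVanish p P W)
    (hstable : ∀ n ∈ normalizer (W : Set G), ∀ x ∈ P, n⁻¹ * x * n ∈ P → ex lam (n⁻¹ * x * n) = ex lam x) :
    ∀ x ∈ P, ∀ g : G, g⁻¹ * x * g ∈ P → ex lam (g⁻¹ * x * g) = ex lam x := by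
  have hpp : p.Prime := Fact.out
  have main : ∀ o : ℕ, ∀ x ∈ P, orderOf x = o → ∀ g : G, g⁻¹ * x * g ∈ P → ex lam (g⁻¹ * x * g) = ex lam x := by
    intro o
    induction o using Nat.strong_induction_on with
    | _ o ih =>
      intro x hx hox g hg
      have hl : Low p lam x := by
        intro n hn g' hg'
        have hxn : x ^ n ∈ P := P.pow_mem hx n
        by_cases h1 : x ^ n = 1
        · rw [h1, mul_one, inv_mul_cancel, ex_one]
        have hn0 : n ≠ 0 := by
          rintro rfl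
          exact h1 (pow_zero x)
        have hx1 : 0 < orderOf x := orderOf_pos x
        have hpo : p ∣ orderOf x := by
          obtain ⟨k, hk⟩ := IsPGroup.iff_orderOf.1 hP ⟨x, hx⟩
          have hk' : orderOf x = p ^ k := by
            rw [← hk]
            exact (Subgroup.orderOf_mk x hx).symm
          rw [hk']
          cases k with
          | zero =>
            exfalso
            apply h1
            have : orderOf x = 1 := by simpa using hk'
            rw [orderOf_eq_one_iff.1 this, one_pow]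
          | succ k => exact dvd_pow_self p (Nat.succ_ne_zero k)
        have hlt : orderOf (x ^ n) < orderOf x := by
          rw [orderOf_pow' x hn0]
          apply Nat.div_lt_self hx1
          exact lt_of_lt_of_le hpp.one_lt (Nat.le_of_dvd (Nat.gcd_pos_of_pos_left _ hx1) (Nat.dvd_gcd hpo hn))
        rw [ih _ (hox ▸ hlt) (x ^ n) hxn rfl g' hg', ex_pow lam hx]
        obtain ⟨c, rfl⟩ := hn
        rw [pow_mul, mzp_pow, one_pow]
      have hl' := Low.conj lam hl g
      have e1 := transfer_formula hP hWP hnW hwc lam hN hstable hx hl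
      have e2 := transfer_formula hP hWP hnW hwc lam hN hstable hg hl'
      have e3 : lam.transfer (g⁻¹ * x * g) = lam.transfer x := by
        rw [map_mul, map_mul, map_inv, mul_comm (lam.transfer g)⁻¹, mul_assoc, inv_mul_cancel, mul_one]
      rw [e1, e2] at e3
      exact cancel_pow hpi e3
  intro x hx g hg
  exact main _ x hx rfl g hg

theorem transfer_formula_all (hP : IsPGroup p P) (hWP : W ≤ P) (hnW : P ≤ normalizer (W : Set G))
    (hwc : ∀ g : G, (∀ w ∈ W, g⁻¹ * w * g ∈ P) → g ∈ normalizer (W : Set G)) (hpi : ¬ p ∣ P.index)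
    (lam : ↥P →* Multiplicative (ZMod p)) (hN : NormVanish p P W)
    (hstable : ∀ n ∈ normalizer (W : Set G), ∀ x ∈ P, n⁻¹ * x * n ∈ P → ex lam (n⁻¹ * x * n) = ex lam x)
    {x : G} (hx : x ∈ P) : lam.transfer x = ex lam x ^ P.index :=
  transfer_formula hP hWP hnW hwc lam hN hstable hx (fun n hn g hg => by
    rw [stable_all hP hWP hnW hwc hpi lam hN hstable (x ^ n) (P.pow_mem hx n) g hg, ex_pow lam hx]
    obtain ⟨c, rfl⟩ := hn
    rw [pow_mul, mzp_pow, one_pow])

theorem comp_transfer {A B : Type*} [CommGroup A] [CommGroup B] (ε : ↥P →* A) (f : A →* B) (g : G) :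
    (f.comp ε).transfer g = f (ε.transfer g) := by
  haveI : Fintype (Quotient (orbitRel (zpowers g) (G ⧸ P))) := Fintype.ofFinite _
  rw [MonoidHom.transfer_eq_prod_quotient_orbitRel_zpowers_quot,
    MonoidHom.transfer_eq_prod_quotient_orbitRel_zpowers_quot, map_prod]
  rfl

theorem nakayama {A : Type*} [CommGroup A] [Finite A] (hA : IsPGroup p A) (hP : IsPGroup p P) (hWP : W ≤ P)
    (hnW : P ≤ normalizer (W : Set G))
    (hwc : ∀ g : G, (∀ w ∈ W, g⁻¹ * w * g ∈ P) → g ∈ normalizer (W : Set G)) (hpi : ¬ p ∣ P.index)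
    (hN : NormVanish p P W)
    (ε : ↥P →* A) (hε : Function.Surjective ε)
    (hker : ∀ x : ↥P, ε x = 1 → (x : G) ∈ commutator G)
    (hst : ∀ n ∈ normalizer (W : Set G), ∀ x (hx : x ∈ P) (hy : n⁻¹ * x * n ∈ P), ε ⟨n⁻¹ * x * n, hy⟩ = ε ⟨x, hx⟩)
    (x : ↥P) (hx : (x : G) ∈ commutator G) : ε x = 1 := by
  have hpp : p.Prime := Fact.out
  have key : ∀ c : ↥P, ∃ d : A, ε.transfer (c : G) = ε c ^ P.index * d ^ p := by
    intro c
    by_contra hcon
    push Not at hcon
    obtain ⟨R, hR⟩ : ∃ R : Subgroup A, R = (powMonoidHom p : A →* A).range := ⟨_, rfl⟩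
    obtain ⟨a, ha⟩ : ∃ a, a = ε.transfer (c : G) * (ε c ^ P.index)⁻¹ := ⟨_, rfl⟩
    have haR : a ∉ R := by
      intro h
      rw [hR] at h
      obtain ⟨d, hd⟩ := h
      apply hcon d
      have hd' : d ^ p = a := hd
      rw [hd', ha, mul_comm (ε c ^ P.index), mul_assoc, inv_mul_cancel, mul_one]
    have hexp : ∀ b : A ⧸ R, b ^ p = 1 := by
      intro b
      induction b using QuotientGroup.induction_on with
      | H b =>
        rw [← QuotientGroup.mk_pow]
        apply (QuotientGroup.eq_one_iff _).2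
        rw [hR]
        exact ⟨b, rfl⟩
    have hne : ((a : A) : A ⧸ R) ≠ 1 := by
      intro h
      exact haR ((QuotientGroup.eq_one_iff _).1 h)
    obtain ⟨f, hf⟩ := Cfsg.Agent.Lib.Transfer.exists_hom_zmod_ne_one (p := p) hexp hne
    obtain ⟨lam₁, hlam₁⟩ : ∃ lam₁ : A →* Multiplicative (ZMod p), lam₁ = f.comp (QuotientGroup.mk' R) := ⟨_, rfl⟩
    have hl1 : lam₁ a ≠ 1 := by
      rw [hlam₁]
      exact hf
    obtain ⟨lam, hlam⟩ : ∃ lam : ↥P →* Multiplicative (ZMod p), lam = lam₁.comp ε := ⟨_, rfl⟩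
    have hexv : ∀ t (ht : t ∈ P), ex lam t = lam₁ (ε ⟨t, ht⟩) := by
      intro t ht
      rw [ex_of_mem lam ht, hlam]
      rfl
    have hstl : ∀ n ∈ normalizer (W : Set G), ∀ x ∈ P, n⁻¹ * x * n ∈ P → ex lam (n⁻¹ * x * n) = ex lam x := by
      intro n hn x hx hy
      rw [hexv _ hy, hexv _ hx, hst n hn x hx hy]
    have e := transfer_formula_all hP hWP hnW hwc hpi lam hN hstl c.2
    rw [hlam, comp_transfer, ← hlam, hexv _ c.2] at e
    apply hl1
    rw [ha, map_mul, map_inv, map_pow, e]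
    simp
  -- the iteration
  have hm : (Nat.card A).Coprime P.index := by
    obtain ⟨k, hk⟩ := IsPGroup.iff_card.1 hA
    rw [hk]
    exact Nat.Coprime.pow_left k ((Nat.Prime.coprime_iff_not_dvd hpp).2 hpi)
  have hV : ∀ t ∈ commutator G, ε.transfer t = 1 := by
    have : commutator G ≤ (ε.transfer).ker := by
      rw [_root_.commutator_def, Subgroup.commutator_le]
      intro a _ b _
      rw [MonoidHom.mem_ker, map_commutatorElement, commutatorElement_def]
      simp
    exact fun t ht => this ht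
  have iter : ∀ j : ℕ, ∀ x : ↥P, (x : G) ∈ commutator G → ∃ b : A, ε x = b ^ p ^ j := by
    intro j
    induction j with
    | zero =>
      intro x _
      exact ⟨ε x, by simp⟩
    | succ j ih =>
      intro x hx
      obtain ⟨b, hb⟩ := ih x hx
      obtain ⟨c, rfl⟩ := hε b
      have h1 : ε (c ^ p ^ j * x⁻¹) = 1 := by
        rw [map_mul, map_inv, map_pow, hb]
        simp
      have h2 := hker _ h1
      have h3 : ((c : G)) ^ p ^ j ∈ commutator G := by
        have e3 : (c : G) ^ p ^ j = ((c ^ p ^ j * x⁻¹ : ↥P) : G) * (x : G) := by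
          simp
        rw [e3]
        exact (commutator G).mul_mem h2 hx
      have h4 := hV _ h3
      rw [map_pow] at h4
      obtain ⟨d, hd⟩ := key c
      rw [hd, mul_pow] at h4
      -- `ε x ^ m` is a `p^(j+1)`-th power
      have h5 : ε x ^ P.index = (d⁻¹ ^ p ^ (j + 1)) := by
        have h6 : (ε c ^ P.index) ^ p ^ j = ε x ^ P.index := by
          rw [hb, pow_right_comm]
        rw [h6] at h4
        have h7 : (d ^ p) ^ p ^ j = d ^ p ^ (j + 1) := by
          rw [← pow_mul, pow_succ' p j]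
        rw [h7] at h4
        rw [inv_pow]
        exact eq_inv_of_mul_eq_one_left h4
      obtain ⟨e, he⟩ := (powCoprime hm).surjective d⁻¹
      have he' : e ^ P.index = d⁻¹ := he
      refine ⟨e, ?_⟩
      apply (powCoprime hm).injective
      show ε x ^ P.index = (e ^ p ^ (j + 1)) ^ P.index
      rw [h5, ← he', pow_right_comm]
  obtain ⟨k, hk⟩ := IsPGroup.iff_card.1 hA
  obtain ⟨b, hb⟩ := iter k x hx
  rw [hb, ← hk]
  exact pow_card_eq_one'

/-- The control theorem: if norms vanish on the frames, then the normalizer of `W` controls transfer. -/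
theorem control (hP : IsPGroup p P) (hWP : W ≤ P) (hnW : P ≤ normalizer (W : Set G))
    (hwc : ∀ g : G, (∀ w ∈ W, g⁻¹ * w * g ∈ P) → g ∈ normalizer (W : Set G)) (hpi : ¬ p ∣ P.index)
    (hN : NormVanish p P W) : P ⊓ commutator G = P ⊓ ⁅normalizer (W : Set G), normalizer (W : Set G)⁆ := by
  obtain ⟨N, hNdef⟩ : ∃ N : Subgroup G, N = normalizer (W : Set G) := ⟨_, rfl⟩
  have hPN : P ≤ N := hNdef ▸ hnW
  rw [← hNdef]
  apply le_antisymm
  · rintro x ⟨hxP, hxC⟩
    refine ⟨hxP, ?_⟩
    obtain ⟨K', hK'⟩ : ∃ K' : Subgroup ↥P, K' = (⁅N, N⁆).subgroupOf P := ⟨_, rfl⟩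
    have hKmem : ∀ y : ↥P, y ∈ K' ↔ (y : G) ∈ ⁅N, N⁆ := by
      intro y
      rw [hK']
      exact Iff.rfl
    have hc : ∀ a b : ↥P, a * b * a⁻¹ * b⁻¹ ∈ K' := by
      intro a b
      rw [hKmem]
      exact Subgroup.commutator_mem_commutator (hPN a.2) (hPN b.2)
    haveI hKn : K'.Normal := ⟨fun y hy c => by
      have h1 := hc c y
      have e : c * y * c⁻¹ = (c * y * c⁻¹ * y⁻¹) * y := by group
      rw [e]
      exact K'.mul_mem h1 hy⟩
    letI : CommGroup (↥P ⧸ K') :=
      { (inferInstance : Group (↥P ⧸ K')) with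
        mul_comm := by
          intro a b
          induction a using QuotientGroup.induction_on with
          | H a =>
            induction b using QuotientGroup.induction_on with
            | H b =>
              apply QuotientGroup.eq.2
              have := hc b⁻¹ a⁻¹
              have e : (a * b)⁻¹ * (b * a) = b⁻¹ * a⁻¹ * b⁻¹⁻¹ * a⁻¹⁻¹ := by group
              rw [e]
              exact this }
    have hA : IsPGroup p (↥P ⧸ K') := IsPGroup.to_quotient hP K'
    have hmain := nakayama (A := ↥P ⧸ K') hA hP hWP hnW hwc hpi hN (QuotientGroup.mk' K')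
      (QuotientGroup.mk'_surjective K') (by
        intro y hy
        have h1 : y ∈ K' := (QuotientGroup.eq_one_iff y).1 hy
        exact Subgroup.commutator_mono le_top le_top ((hKmem y).1 h1)) (by
        intro n hn y hy hy'
        have hn' : n ∈ N := hNdef ▸ hn
        apply QuotientGroup.eq.2
        rw [hKmem]
        have e : (((⟨n⁻¹ * y * n, hy'⟩ : ↥P)⁻¹ * ⟨y, hy⟩ : ↥P) : G) = n⁻¹ * y⁻¹ * n * y := by
          show (n⁻¹ * y * n)⁻¹ * y = _
          group
        rw [e]
        have := Subgroup.commutator_mem_commutator (H₁ := N) (H₂ := N) (N.inv_mem hn') (N.inv_mem (hPN hy))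
        have e2 : n⁻¹ * y⁻¹ * n * y = ⁅n⁻¹, y⁻¹⁆ := by
          rw [commutatorElement_def]
          group
        rw [e2]
        exact this) ⟨x, hxP⟩ hxC
    have h2 : (⟨x, hxP⟩ : ↥P) ∈ K' := (QuotientGroup.eq_one_iff _).1 hmain
    exact (hKmem _).1 h2
  · rintro x ⟨hxP, hxC⟩
    refine ⟨hxP, ?_⟩
    exact Subgroup.commutator_mono le_top le_top hxC

end Cfsg.Agent.Lib.LocalEven.Yoshida
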