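import Cfsg.Agent.Lib.LocalEven.Yoshida3

/-! The Wielandt-Yoshida transfer argument: the shift module. -/

set_option autoImplicit false

namespace Cfsg.Agent.Lib.LocalEven.Yoshida

open Cfsg Subgroup MulAction

section LA

variable {p : ℕ} [Fact p.Prime]

open Polynomial

/-- The shift operator. -/
noncomputable def shiftL (p : ℕ) [Fact p.Prime] : Module.End (ZMod p) (ZMod p → ZMod p) :=
  { toFun := fun v j => v (j + 1)
    map_add' := fun _ _ => rfl
    map_smul' := fun _ _ => rfl }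

theorem shiftL_apply (v : ZMod p → ZMod p) (j : ZMod p) : shiftL p v j = v (j + 1) := rfl

theorem shiftL_pow_apply (n : ℕ) (v : ZMod p → ZMod p) (j : ZMod p) : (shiftL p ^ n) v j = v (j + n) := by
  induction n generalizing j with
  | zero => simp
  | succ n ih =>
    rw [pow_succ', Module.End.mul_apply, shiftL_apply, ih]
    congr 1
    push_cast
    ring

theorem shiftL_pow_p : shiftL p ^ p = 1 := by
  refine LinearMap.ext fun v => funext fun j => ?_
  rw [shiftL_pow_apply]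
  simp

/-- The polynomial attached to a vector. -/
noncomputable def polyOf (v : ZMod p → ZMod p) : (ZMod p)[X] := ∑ i : ZMod p, C (v i) * X ^ (-i).val

theorem aeval_polyOf_single (v : ZMod p → ZMod p) :
    aeval (shiftL p) (polyOf v) (Pi.single 0 1) = v := by
  ext j
  rw [polyOf, map_sum, LinearMap.sum_apply, Finset.sum_apply, Finset.sum_eq_single j]
  · rw [map_mul, aeval_C, map_pow, aeval_X]
    show (algebraMap (ZMod p) (Module.End (ZMod p) (ZMod p → ZMod p)) (v j) * shiftL p ^ (-j).val) _ _ = _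
    rw [Module.End.mul_apply, Module.algebraMap_end_apply, Pi.smul_apply, shiftL_pow_apply]
    simp
  · intro i _ hi
    rw [map_mul, aeval_C, map_pow, aeval_X]
    show (algebraMap (ZMod p) (Module.End (ZMod p) (ZMod p → ZMod p)) (v i) * shiftL p ^ (-i).val) _ _ = _
    rw [Module.End.mul_apply, Module.algebraMap_end_apply, Pi.smul_apply, shiftL_pow_apply]
    have : j + (((-i).val : ℕ) : ZMod p) ≠ 0 := by
      simp only [ZMod.natCast_val, ZMod.cast_id', id_eq]
      intro h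
      apply hi
      have h2 : j = i := by
        have := h
        rw [← sub_eq_add_neg, sub_eq_zero] at this
        exact this
      exact h2.symm
    rw [Pi.single_eq_of_ne this]
    simp
  · simp

theorem aeval_polyOf_pow (v : ZMod p → ZMod p) :
    aeval (shiftL p) (polyOf v ^ p) = (∑ i, v i) • (1 : Module.End (ZMod p) (ZMod p → ZMod p)) := by
  rw [polyOf, sum_pow_char p, map_sum, Finset.sum_smul]
  apply Finset.sum_congr rfl
  intro i _
  rw [mul_pow, ← map_pow, ZMod.pow_card, map_mul, aeval_C, map_pow, map_pow, aeval_X, pow_right_comm, shiftL_pow_p,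
    one_pow, mul_one, Algebra.algebraMap_eq_smul_one]

theorem aeval_mem (U : Submodule (ZMod p) (ZMod p → ZMod p)) (hU : ∀ u ∈ U, shiftL p u ∈ U)
    (g : (ZMod p)[X]) {u : ZMod p → ZMod p} (hu : u ∈ U) : aeval (shiftL p) g u ∈ U := by
  induction g using Polynomial.induction_on' with
  | add a b ha hb =>
    rw [map_add, LinearMap.add_apply]
    exact U.add_mem ha hb
  | monomial n a =>
    rw [aeval_monomial, Module.End.mul_apply, Module.algebraMap_end_apply]
    apply U.smul_mem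
    have : ∀ n : ℕ, (shiftL p ^ n) u ∈ U := by
      intro n
      induction n with
      | zero => simpa using hu
      | succ n ih =>
        rw [pow_succ', Module.End.mul_apply]
        exact hU _ ih
    exact this n

theorem shift_top (U : Submodule (ZMod p) (ZMod p → ZMod p)) (hU : ∀ u ∈ U, shiftL p u ∈ U)
    {u₀ : ZMod p → ZMod p} (hu₀ : u₀ ∈ U) (hs : ∑ i, u₀ i ≠ 0) (v : ZMod p → ZMod p) : v ∈ U := by
  have hpp : p.Prime := Fact.out
  have e1 : aeval (shiftL p) (polyOf u₀ ^ p * polyOf v) (Pi.single 0 1) = (∑ i, u₀ i) • v := by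
    rw [map_mul, Module.End.mul_apply, aeval_polyOf_single, aeval_polyOf_pow]
    rfl
  have e2 : polyOf u₀ ^ p * polyOf v = (polyOf u₀ ^ (p - 1) * polyOf v) * polyOf u₀ := by
    have h2 : polyOf u₀ ^ p = polyOf u₀ ^ (p - 1) * polyOf u₀ := by
      rw [← pow_succ, Nat.sub_add_cancel hpp.pos]
    rw [h2]
    ring
  have e3 : aeval (shiftL p) (polyOf u₀ ^ p * polyOf v) (Pi.single 0 1) =
      aeval (shiftL p) (polyOf u₀ ^ (p - 1) * polyOf v) u₀ := by
    rw [e2, map_mul, Module.End.mul_apply, aeval_polyOf_single]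
  have h1 : (∑ i, u₀ i) • v ∈ U := by
    rw [← e1, e3]
    exact aeval_mem U hU _ hu₀
  exact (U.smul_mem_iff hs).1 h1

theorem sub_one_pow_pred : ((X : (ZMod p)[X]) - 1) ^ (p - 1) = ∑ i ∈ Finset.range p, X ^ i := by
  have hpp : p.Prime := Fact.out
  have hne : ((X : (ZMod p)[X]) - 1) ≠ 0 := by
    have := X_sub_C_ne_zero (1 : ZMod p)
    simpa using this
  apply mul_right_cancel₀ hne
  rw [geom_sum_mul, ← pow_succ, Nat.sub_add_cancel hpp.pos, sub_pow_char, one_pow]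

theorem shift_geom : (shiftL p - 1) ^ (p - 1) = ∑ i ∈ Finset.range p, shiftL p ^ i := by
  have h := congrArg (aeval (shiftL p)) (sub_one_pow_pred (p := p))
  simpa using h

end LA

section Psi

variable {G : Type*} [Group G] {p : ℕ} [Fact p.Prime] {P W M H : Subgroup G} {z : G}

/-- The additive version of a function. -/
def gg (f : G → Multiplicative (ZMod p)) (t : G) : ZMod p := Multiplicative.toAdd (f t)

variable {f : G → Multiplicative (ZMod p)}

theorem gg_mul (hf : ∀ a ∈ M, ∀ b ∈ M, f (a * b) = f a * f b) {a b : G} (ha : a ∈ M) (hb : b ∈ M) :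
    gg f (a * b) = gg f a + gg f b := by
  rw [gg, hf a ha b hb]
  rfl

theorem gg_one (hf : ∀ a ∈ M, ∀ b ∈ M, f (a * b) = f a * f b) : gg f (1 : G) = 0 := by
  have h := gg_mul hf M.one_mem M.one_mem
  rw [mul_one] at h
  simpa using h

theorem gg_inv (hf : ∀ a ∈ M, ∀ b ∈ M, f (a * b) = f a * f b) {a : G} (ha : a ∈ M) :
    gg f a⁻¹ = - gg f a := by
  have h := gg_mul hf (M.inv_mem ha) ha
  rw [inv_mul_cancel, gg_one hf] at h
  exact eq_neg_of_add_eq_zero_left h.symm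

theorem gg_conj (hf : ∀ a ∈ M, ∀ b ∈ M, f (a * b) = f a * f b) {a m : G} (ha : a ∈ M) (hm : m ∈ M) :
    gg f (a⁻¹ * m * a) = gg f m := by
  rw [gg_mul hf (M.mul_mem (M.inv_mem ha) hm) ha, gg_mul hf (M.inv_mem ha) hm, gg_inv hf ha]
  ring

theorem IsFrame.conj (hF : IsFrame p P W M H z) {m q : G} (hm : m ∈ M) (hq : q ∈ H) : q⁻¹ * m * q ∈ M := by
  have := (mem_normalizer_iff.1 (hF.hnorm (H.inv_mem hq)) m).1 hm
  simpa using this

theorem IsFrame.zH (hF : IsFrame p P W M H z) : z ∈ H := hF.hWH hF.hzW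

/-- The vector of a frame element. -/
noncomputable def Psi (f : G → Multiplicative (ZMod p)) (z m : G) (j : ZMod p) : ZMod p :=
  gg f ((z ^ j.val)⁻¹ * m * z ^ j.val)

theorem conj_aux (hF : IsFrame p P W M H z) (hf : ∀ a ∈ M, ∀ b ∈ M, f (a * b) = f a * f b) {m : G} (hm : m ∈ M)
    (r k : ℕ) : gg f ((z ^ (r + p * k))⁻¹ * m * z ^ (r + p * k)) = gg f ((z ^ r)⁻¹ * m * z ^ r) := by
  induction k with
  | zero => simp
  | succ k ih =>
    rw [← ih]
    have hmem : (z ^ (r + p * k))⁻¹ * m * z ^ (r + p * k) ∈ M := hF.conj hm (H.pow_mem hF.zH _)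
    have e : (z ^ (r + p * (k + 1)))⁻¹ * m * z ^ (r + p * (k + 1)) =
        (z ^ p)⁻¹ * ((z ^ (r + p * k))⁻¹ * m * z ^ (r + p * k)) * z ^ p := by
      have : r + p * (k + 1) = (r + p * k) + p := by ring
      rw [this, pow_add]
      group
    rw [e]
    exact gg_conj hf hF.hzp hmem

theorem Psi_nat (hF : IsFrame p P W M H z) (hf : ∀ a ∈ M, ∀ b ∈ M, f (a * b) = f a * f b) {m : G} (hm : m ∈ M)
    (n : ℕ) : Psi f z m (n : ZMod p) = gg f ((z ^ n)⁻¹ * m * z ^ n) := by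
  rw [Psi, ZMod.val_natCast]
  conv_rhs => rw [← Nat.mod_add_div n p]
  rw [conj_aux hF hf hm]

theorem Psi_mem (hF : IsFrame p P W M H z) {m : G} (hm : m ∈ M) (n : ℕ) : (z ^ n)⁻¹ * m * z ^ n ∈ M :=
  hF.conj hm (H.pow_mem hF.zH _)

theorem Psi_mul (hF : IsFrame p P W M H z) (hf : ∀ a ∈ M, ∀ b ∈ M, f (a * b) = f a * f b) {a b : G} (ha : a ∈ M)
    (hb : b ∈ M) : Psi f z (a * b) = Psi f z a + Psi f z b := by
  funext j
  rw [Pi.add_apply, Psi, Psi, Psi, ← gg_mul hf (Psi_mem hF ha _) (Psi_mem hF hb _)]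
  congr 1
  group

theorem Psi_inv (hF : IsFrame p P W M H z) (hf : ∀ a ∈ M, ∀ b ∈ M, f (a * b) = f a * f b) {a : G} (ha : a ∈ M) :
    Psi f z a⁻¹ = - Psi f z a := by
  funext j
  rw [Pi.neg_apply, Psi, Psi, ← gg_inv hf (Psi_mem hF ha _)]
  congr 1
  group

theorem Psi_L (hF : IsFrame p P W M H z) (hf : ∀ a ∈ M, ∀ b ∈ M, f (a * b) = f a * f b) {m : G} (hm : m ∈ M) :
    Psi f z (z⁻¹ * m * z) = shiftL p (Psi f z m) := by
  funext j
  have hj : ((j.val : ℕ) : ZMod p) = j := by simp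
  have hmem : z⁻¹ * m * z ∈ M := hF.conj hm hF.zH
  rw [shiftL_apply]
  conv_lhs => rw [← hj]
  conv_rhs => rw [← hj]
  have e : (((j.val : ℕ) : ZMod p) + 1) = ((j.val + 1 : ℕ) : ZMod p) := by push_cast; ring
  rw [e, Psi_nat hF hf hmem, Psi_nat hF hf hm]
  congr 1
  rw [pow_succ]
  group

/-- The commutator map. -/
def cc (z y : G) : G := y⁻¹ * z⁻¹ * y * z

theorem cc_mem (hF : IsFrame p P W M H z) {m : G} (hm : m ∈ M) : cc z m ∈ M := by
  have : cc z m = m⁻¹ * (z⁻¹ * m * z) := by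
    rw [cc]
    group
  rw [this]
  exact M.mul_mem (M.inv_mem hm) (hF.conj hm hF.zH)

theorem Psi_cc (hF : IsFrame p P W M H z) (hf : ∀ a ∈ M, ∀ b ∈ M, f (a * b) = f a * f b) {m : G} (hm : m ∈ M) :
    Psi f z (cc z m) = (shiftL p - 1) (Psi f z m) := by
  have : cc z m = m⁻¹ * (z⁻¹ * m * z) := by
    rw [cc]
    group
  rw [this, Psi_mul hF hf (M.inv_mem hm) (hF.conj hm hF.zH), Psi_inv hF hf hm, Psi_L hF hf hm,
    LinearMap.sub_apply, Module.End.one_apply]
  abel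

theorem cc_iter_mem (hF : IsFrame p P W M H z) {m : G} (hm : m ∈ M) (k : ℕ) : (cc z)^[k] m ∈ M := by
  induction k with
  | zero => exact hm
  | succ k ih =>
    rw [Function.iterate_succ_apply']
    exact cc_mem hF ih

theorem Psi_iter (hF : IsFrame p P W M H z) (hf : ∀ a ∈ M, ∀ b ∈ M, f (a * b) = f a * f b) {m : G} (hm : m ∈ M)
    (k : ℕ) : Psi f z ((cc z)^[k] m) = ((shiftL p - 1) ^ k) (Psi f z m) := by
  induction k with
  | zero => simp
  | succ k ih =>
    rw [Function.iterate_succ_apply', Psi_cc hF hf (cc_iter_mem hF hm k), ih, pow_succ', Module.End.mul_apply]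

theorem gg_iter (hF : IsFrame p P W M H z) (hf : ∀ a ∈ M, ∀ b ∈ M, f (a * b) = f a * f b) {m : G} (hm : m ∈ M) :
    gg f ((cc z)^[p - 1] m) = ∑ i ∈ Finset.range p, gg f ((z ^ i)⁻¹ * m * z ^ i) := by
  have h := congrFun (Psi_iter hF hf hm (p - 1)) 0
  rw [shift_geom, LinearMap.sum_apply, Finset.sum_apply] at h
  have e : Psi f z ((cc z)^[p - 1] m) 0 = gg f ((cc z)^[p - 1] m) := by
    rw [Psi, ZMod.val_zero]
    simp
  rw [← e, h]
  apply Finset.sum_congr rfl
  intro i _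
  rw [shiftL_pow_apply, zero_add, Psi_nat hF hf hm]

end Psi

section Main2792

variable {G : Type*} [Group G] [Finite G] {p : ℕ} [Fact p.Prime]

theorem weak_normalizes {S W : Subgroup G} (hW : IsWeaklyClosed W S) : S ≤ normalizer (W : Set G) := by
  intro s hs
  have h1 : W.map (MulAut.conj s).toMonoidHom = W := hW.2 s (by
    rintro _ ⟨w, hw, rfl⟩
    exact S.mul_mem (S.mul_mem hs (hW.1 hw)) (S.inv_mem hs))
  rw [mem_normalizer_iff]
  intro t
  constructor
  · intro ht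
    rw [← h1]
    exact ⟨t, ht, rfl⟩
  · intro ht
    rw [← h1] at ht
    obtain ⟨w, hw, he⟩ := ht
    have : w = t := by
      have h2 : s * w * s⁻¹ = s * t * s⁻¹ := he
      simpa using h2
    rwa [← this]

theorem weak_conj {S W : Subgroup G} (hW : IsWeaklyClosed W S) (g : G) (h : ∀ w ∈ W, g⁻¹ * w * g ∈ S) :
    g ∈ normalizer (W : Set G) := by
  have h1 : W.map (MulAut.conj g⁻¹).toMonoidHom = W := hW.2 g⁻¹ (by
    rintro _ ⟨w, hw, rfl⟩
    have := h w hw
    simpa using this)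
  rw [← inv_mem_iff, mem_normalizer_iff]
  intro t
  constructor
  · intro ht
    rw [← h1]
    exact ⟨t, ht, rfl⟩
  · intro ht
    rw [← h1] at ht
    obtain ⟨w, hw, he⟩ := ht
    have : w = t := by
      have h2 : g⁻¹ * w * g⁻¹⁻¹ = g⁻¹ * t * g⁻¹⁻¹ := he
      simpa using h2
    rwa [← this]

/-- Reformulation of the failure of vanishing. -/
theorem exists_frame_bad {S W : Subgroup G} (hS : IsPGroup p S) (hpi : ¬ p ∣ S.index) (hW : IsWeaklyClosed W S)
    (h : S ⊓ commutator G ≠ S ⊓ ⁅normalizer (W : Set G), normalizer (W : Set G)⁆) :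
    ∃ (M H : Subgroup G) (z : G) (f : G → Multiplicative (ZMod p)) (y : G), IsFrame p S W M H z ∧
      (∀ a ∈ M, ∀ b ∈ M, f (a * b) = f a * f b) ∧ y ∈ M ∧
      ∑ i ∈ Finset.range p, gg f ((z ^ i)⁻¹ * y * z ^ i) ≠ 0 := by
  by_contra hcon
  apply h
  apply control hS hW.1 (weak_normalizes hW) (weak_conj hW) hpi
  intro M H z hF f hf y hy
  by_contra hne
  apply hcon
  refine ⟨M, H, z, f, y, hF, hf, hy, ?_⟩
  intro h0
  apply hne
  have e : Multiplicative.ofAdd (∑ i ∈ Finset.range p, gg f ((z ^ i)⁻¹ * y * z ^ i)) = 1 := by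
    rw [h0]
    rfl
  rw [ofAdd_sum] at e
  exact e

theorem frame_coatom {P W M H : Subgroup G} {z : G} (hF : IsFrame p P W M H z) : IsCoatom (M.subgroupOf W) := by
  have hpp : p.Prime := Fact.out
  refine ⟨?_, ?_⟩
  · intro h
    apply hF.hzM
    have : (⟨z, hF.hzW⟩ : ↥W) ∈ M.subgroupOf W := by
      rw [h]
      trivial
    exact this
  · intro K hK
    obtain ⟨w, hwK, hwM⟩ := SetLike.exists_of_lt hK
    have hwM' : (w : G) ∉ M := hwM
    have hle : ∀ t : ↥W, (t : G) ∈ M → t ∈ K := fun t ht => hK.le ht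
    obtain ⟨i, hi, m, hm, he⟩ := hF.hcov w (hF.hWH w.2)
    have hi0 : i ≠ 0 := by
      rintro rfl
      apply hwM'
      rw [he]
      simpa using hm
    have hmW : m ∈ W := by
      have : m = (z ^ i)⁻¹ * w := by
        rw [he]
        group
      rw [this]
      exact W.mul_mem (W.inv_mem (W.pow_mem hF.hzW i)) w.2
    have hmK : (⟨m, hmW⟩ : ↥W) ∈ K := hle _ hm
    have hziK : (⟨z, hF.hzW⟩ : ↥W) ^ i ∈ K := by
      have : (⟨z, hF.hzW⟩ : ↥W) ^ i = w * (⟨m, hmW⟩ : ↥W)⁻¹ := by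
        apply Subtype.ext
        show z ^ i = (w : G) * m⁻¹
        rw [he]
        group
      rw [this]
      exact K.mul_mem hwK (K.inv_mem hmK)
    have hzpK : (⟨z, hF.hzW⟩ : ↥W) ^ p ∈ K := hle _ hF.hzp
    have hzK : (⟨z, hF.hzW⟩ : ↥W) ∈ K := by
      have hcop : Nat.Coprime i p := ((Nat.Prime.coprime_iff_not_dvd hpp).2 (Nat.not_dvd_of_pos_of_lt (Nat.pos_of_ne_zero hi0) hi)).symm
      obtain ⟨u, _, hu⟩ := Nat.exists_mul_mod_eq_one_of_coprime hcop hpp.one_lt
      have e : (⟨z, hF.hzW⟩ : ↥W) ^ (i * u) = ((⟨z, hF.hzW⟩ : ↥W) ^ p) ^ (i * u / p) * (⟨z, hF.hzW⟩ : ↥W) := by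
        conv_lhs => rw [← Nat.div_add_mod (i * u) p, hu, pow_add, pow_mul, pow_one]
      have h1 : (⟨z, hF.hzW⟩ : ↥W) ^ (i * u) ∈ K := by
        rw [pow_mul]
        exact K.pow_mem hziK u
      rw [e] at h1
      exact (K.mul_mem_cancel_left (K.pow_mem hzpK _)).1 h1
    rw [eq_top_iff]
    rintro ⟨t, ht⟩ _
    obtain ⟨j, _, m', hm', he'⟩ := hF.hcov t (hF.hWH ht)
    have hm'W : m' ∈ W := by
      have : m' = (z ^ j)⁻¹ * t := by
        rw [he']
        group
      rw [this]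
      exact W.mul_mem (W.inv_mem (W.pow_mem hF.hzW j)) ht
    have e : (⟨t, ht⟩ : ↥W) = (⟨z, hF.hzW⟩ : ↥W) ^ j * ⟨m', hm'W⟩ := by
      apply Subtype.ext
      exact he'
    rw [e]
    exact K.mul_mem (K.pow_mem hzK j) (hle _ hm')

theorem wy2792 {S W : Subgroup G} (hS : IsPGroup p S) (hpi : ¬ p ∣ S.index) (hW : IsWeaklyClosed W S)
    (h : S ⊓ commutator G ≠ S ⊓ ⁅normalizer (W : Set G), normalizer (W : Set G)⁆) :
    ∃ x ∈ S, ∃ z ∈ W, ∃ W₀ : Subgroup ↥W, IsCoatom W₀ ∧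
      (fun y : G => y⁻¹ * z⁻¹ * y * z)^[p - 1] x ∈ W₀.map W.subtype ∧
      (fun y : G => y⁻¹ * z⁻¹ * y * z)^[p - 1] x ∉ ((frattini ↥W₀).map W₀.subtype).map W.subtype := by
  have hpp : p.Prime := Fact.out
  obtain ⟨M, H, z, f, y, hF, hf, hy, hne⟩ := exists_frame_bad hS hpi hW h
  have hcc : (fun y : G => y⁻¹ * z⁻¹ * y * z) = cc z := rfl
  refine ⟨y, hF.hHP (hF.hMH hy), z, hF.hzW, M.subgroupOf W, frame_coatom hF, ?_⟩
  rw [hcc]
  obtain ⟨y', hy'⟩ : ∃ y', y' = (cc z)^[p - 1] y := ⟨_, rfl⟩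
  rw [← hy']
  have hy'M : y' ∈ M := hy' ▸ cc_iter_mem hF hy _
  have hg : gg f y' ≠ 0 := by
    rw [hy', gg_iter hF hf hy]
    exact hne
  have hy'W : y' ∈ W := by
    obtain ⟨q, hq⟩ : ∃ q, p - 1 = q + 1 := ⟨p - 2, by have := hpp.two_le; omega⟩
    rw [hy', hq, Function.iterate_succ_apply']
    have hm := cc_iter_mem hF hy q
    obtain ⟨t, ht⟩ : ∃ t, t = (cc z)^[q] y := ⟨_, rfl⟩
    rw [← ht] at hm ⊢
    have htP : t ∈ S := hF.hHP (hF.hMH hm)
    have e : cc z t = (t⁻¹ * z⁻¹ * t⁻¹⁻¹) * z := by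
      rw [cc]
      group
    rw [e]
    refine W.mul_mem ?_ hF.hzW
    have := (mem_normalizer_iff.1 (weak_normalizes hW (S.inv_mem htP)) z⁻¹).1 (W.inv_mem hF.hzW)
    exact this
  refine ⟨⟨⟨y', hy'W⟩, hy'M, rfl⟩, ?_⟩
  rintro ⟨w, ⟨w₀, hw₀, rfl⟩, he⟩
  have hw₀M : ∀ t : ↥(M.subgroupOf W), ((t : ↥W) : G) ∈ M := fun t => t.2
  have hf1 : f 1 = 1 := by
    have := hf 1 M.one_mem 1 M.one_mem
    simpa using this
  let f₀ : ↥(M.subgroupOf W) →* Multiplicative (ZMod p) :=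
    { toFun := fun t => f ((t : ↥W) : G)
      map_one' := hf1
      map_mul' := fun a b => hf _ (hw₀M a) _ (hw₀M b) }
  have hle := Cfsg.Agent.Lib.Transfer.frattini_le_of_elementary (p := p) (P := ↥(M.subgroupOf W)) f₀.ker
    (fun x => by
      rw [MonoidHom.mem_ker, map_pow, mzp_pow])
    (fun x y => by
      rw [MonoidHom.mem_ker, map_mul, map_mul, map_mul, map_inv, map_inv, mul_comm (f₀ x), mul_assoc, mul_assoc,
        mul_inv_cancel_left, mul_inv_cancel])
  have h1 : f₀ w₀ = 1 := hle hw₀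
  have h2 : f y' = 1 := by
    rw [← he]
    exact h1
  apply hg
  rw [gg, h2]
  rfl

end Main2792

end Cfsg.Agent.Lib.LocalEven.Yoshida
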