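import Cfsg.Agent.Lib.LocalEven.Yoshida4

/-! The Wielandt-Yoshida transfer argument: the wreath product quotient. -/

set_option autoImplicit false

namespace Cfsg.Agent.Lib.LocalEven.Yoshida

open Cfsg Subgroup MulAction

variable {p : ℕ} [Fact p.Prime]

theorem factorial_val : (Nat.factorial (p ^ 2)).factorization p = p + 1 := by
  have hpp : p.Prime := Fact.out
  rw [Nat.factorization_def _ hpp]
  rw [padicValNat_factorial (b := 3) (by
    rw [Nat.log_pow hpp.one_lt]
    omega)]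
  have e : Finset.Ico 1 3 = {1, 2} := by decide
  rw [e, Finset.sum_pair (by omega)]
  have h1 : p ^ 2 / p ^ 1 = p := by
    rw [pow_one, pow_two, Nat.mul_div_cancel _ hpp.pos]
  have h2 : p ^ 2 / p ^ 2 = 1 := Nat.div_self (pow_pos hpp.pos 2)
  rw [h1, h2]

theorem card_sylow_sym (P : Sylow p (Equiv.Perm (Fin (p ^ 2)))) : Nat.card P = p ^ (p + 1) := by
  rw [Sylow.card_eq_multiplicity]
  congr 1
  rw [Nat.card_eq_fintype_card, Fintype.card_perm, Fintype.card_fin]
  exact factorial_val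

theorem exists_sylow_eq (R : Subgroup (Equiv.Perm (Fin (p ^ 2)))) (hR : IsPGroup p R) (hc : p ^ (p + 1) ∣ Nat.card R) :
    ∃ P : Sylow p (Equiv.Perm (Fin (p ^ 2))), (P : Subgroup _) = R := by
  obtain ⟨P, hP⟩ := hR.exists_le_sylow
  refine ⟨P, ?_⟩
  symm
  apply Subgroup.eq_of_le_of_card_ge hP
  have h := card_sylow_sym P
  have : Nat.card P = Nat.card (P : Subgroup (Equiv.Perm (Fin (p ^ 2)))) := rfl
  rw [← this, h]
  exact Nat.le_of_dvd Nat.card_pos hc

variable {Q : Type*} [Group Q] [Finite Q]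

theorem sum_zmod_eq_range (F : ZMod p → ZMod p) : ∑ j : ZMod p, F j = ∑ i ∈ Finset.range p, F (i : ZMod p) := by
  have hpp : p.Prime := Fact.out
  symm
  refine Finset.sum_bij (fun i _ => (i : ZMod p)) ?_ ?_ ?_ ?_
  · intro _ _
    exact Finset.mem_univ _
  · intro i hi j hj h
    have h1 := (ZMod.natCast_eq_natCast_iff' i j p).1 h
    rwa [Nat.mod_eq_of_lt (Finset.mem_range.1 hi), Nat.mod_eq_of_lt (Finset.mem_range.1 hj)] at h1
  · intro b _
    exact ⟨b.val, Finset.mem_range.2 (ZMod.val_lt b), by simp⟩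
  · intro _ _
    rfl

theorem wreath (hQ : IsPGroup p Q) {M : Subgroup Q} {z : Q} (hF : IsFrame p ⊤ ⊤ M ⊤ z)
    {f : Q → Multiplicative (ZMod p)} (hf : ∀ a ∈ M, ∀ b ∈ M, f (a * b) = f a * f b) {y : Q} (hy : y ∈ M)
    (hs : ∑ i ∈ Finset.range p, gg f ((z ^ i)⁻¹ * y * z ^ i) ≠ 0) :
    ∃ (P : Sylow p (Equiv.Perm (Fin (p ^ 2)))) (F : Q →* ↥(P : Subgroup (Equiv.Perm (Fin (p ^ 2))))),
      Function.Surjective F := by
  have hpp : p.Prime := Fact.out
  haveI hMn : M.Normal := ⟨fun n hn g => by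
    have := hF.conj hn (Subgroup.mem_top g⁻¹)
    simpa using this⟩
  -- index of `M`
  have hMi : M.index = p := by
    have hb : Function.Bijective (fun i : Fin p => ((z ^ (i : ℕ) : Q) : Q ⧸ M)) := by
      constructor
      · intro i j h
        apply Fin.ext
        exact hF.inj i.2 j.2 (QuotientGroup.eq.1 h)
      · intro c
        induction c using QuotientGroup.induction_on with
        | H g =>
          obtain ⟨i, hi, m, hm, he⟩ := hF.hcov g (Subgroup.mem_top g)
          refine ⟨⟨i, hi⟩, ?_⟩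
          apply QuotientGroup.eq.2
          show (z ^ i)⁻¹ * g ∈ M
          rw [he]
          simpa using hm
    have := Nat.card_eq_of_bijective _ hb
    rw [Subgroup.index, ← this]
    simp
  have hf1 : f 1 = 1 := by
    have := hf 1 M.one_mem 1 M.one_mem
    simpa using this
  -- the homomorphism on `M`
  let f₀ : ↥M →* Multiplicative (ZMod p) :=
    { toFun := fun t => f (t : Q)
      map_one' := hf1
      map_mul' := fun a b => hf _ a.2 _ b.2 }
  have hmem0 : ∀ i, (z ^ i)⁻¹ * y * z ^ i ∈ M := fun i => Psi_mem hF hy i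
  obtain ⟨m₀, hm₀, hm₀1⟩ : ∃ m₀ ∈ M, f m₀ ≠ 1 := by
    obtain ⟨i, _, hi⟩ := Finset.exists_ne_zero_of_sum_ne_zero hs
    refine ⟨_, hmem0 i, ?_⟩
    intro h
    apply hi
    rw [gg, h]
    rfl
  have hker : f₀.ker.index = p := by
    rw [Subgroup.index_ker]
    have hcard : Nat.card (Multiplicative (ZMod p)) = p := by
      rw [Nat.card_congr Multiplicative.toAdd.symm.symm]
      simp
    have hd : Nat.card f₀.range ∣ p := by
      have := Subgroup.card_subgroup_dvd_card f₀.range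
      rwa [hcard] at this
    rcases (Nat.dvd_prime hpp).1 hd with h1 | h1
    · exfalso
      have h2 : f₀.range = ⊥ := Subgroup.eq_bot_of_card_eq _ h1
      have h3 : f₀ ⟨m₀, hm₀⟩ ∈ f₀.range := ⟨_, rfl⟩
      rw [h2, Subgroup.mem_bot] at h3
      exact hm₀1 h3
    · exact h1
  obtain ⟨T, hT⟩ : ∃ T : Subgroup Q, T = f₀.ker.map M.subtype := ⟨_, rfl⟩
  have hTmem : ∀ t, t ∈ T ↔ t ∈ M ∧ f t = 1 := by
    intro t
    rw [hT]
    constructor
    · rintro ⟨w, hw, rfl⟩
      exact ⟨w.2, hw⟩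
    · rintro ⟨h1, h2⟩
      exact ⟨⟨t, h1⟩, h2, rfl⟩
  have hTM : T ≤ M := fun t ht => ((hTmem t).1 ht).1
  have hTi : T.index = p ^ 2 := by
    have h1 := Subgroup.relIndex_mul_index hTM
    have h2 : T.relIndex M = f₀.ker.index := by
      rw [Subgroup.relIndex, hT]
      show ((map M.subtype f₀.ker).comap M.subtype).index = _
      rw [Subgroup.comap_map_eq_self_of_injective M.subtype_injective]
    rw [← h1, h2, hker, hMi, pow_two]
  have hcardq : Nat.card (Q ⧸ T) = p ^ 2 := hTi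
  -- the permutation representation
  obtain ⟨e, _⟩ : ∃ e : (Q ⧸ T) ≃ Fin (p ^ 2), True := ⟨Finite.equivFinOfCardEq hcardq, trivial⟩
  let φ : Q →* Equiv.Perm (Fin (p ^ 2)) := (e.permCongrHom.toMonoidHom).comp (MulAction.toPermHom Q (Q ⧸ T))
  have hker_fix : ∀ x ∈ φ.ker, ∀ c : Q ⧸ T, x • c = c := by
    intro x hx c
    have h1 : φ x = 1 := hx
    have h2 := congrArg (fun σ : Equiv.Perm (Fin (p ^ 2)) => σ (e c)) h1
    have h3 : e (x • c) = e c := by
      simpa [φ, Equiv.permCongrHom] using h2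
    exact e.injective h3
  have hker_mem : ∀ x ∈ φ.ker, ∀ g : Q, g⁻¹ * x * g ∈ T := by
    intro x hx g
    exact (smul_eq_iff x g).1 (hker_fix x hx _)
  have hKM : φ.ker ≤ M := by
    intro x hx
    have := hker_mem x hx 1
    simp only [inv_one, one_mul, mul_one] at this
    exact hTM this
  -- the vectors
  let Ψ : ↥M →* Multiplicative (ZMod p → ZMod p) :=
    { toFun := fun m => Multiplicative.ofAdd (Psi f z (m : Q))
      map_one' := by
        have h1 : Psi f z (1 : Q) = 0 := by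
          have := Psi_mul hF hf M.one_mem M.one_mem
          rw [mul_one] at this
          simpa using this
        show Multiplicative.ofAdd (Psi f z (1 : Q)) = 1
        rw [h1]
        rfl
      map_mul' := by
        intro a b
        show Multiplicative.ofAdd (Psi f z ((a : Q) * (b : Q))) = _
        rw [Psi_mul hF hf a.2 b.2]
        rfl }
  have hΨ : ∀ m : ↥M, (Ψ m).toAdd = Psi f z (m : Q) := fun m => rfl
  have hΨsurj : Function.Surjective Ψ := by
    have hinv : ∀ m ∈ M, Psi f z m⁻¹ = - Psi f z m := fun m hm => Psi_inv hF hf hm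
    let U0 : AddSubgroup (ZMod p → ZMod p) :=
      { carrier := Set.range (fun m : ↥M => Psi f z (m : Q))
        add_mem' := by
          rintro _ _ ⟨a, rfl⟩ ⟨b, rfl⟩
          exact ⟨a * b, Psi_mul hF hf a.2 b.2⟩
        zero_mem' := ⟨1, (map_one Ψ : Ψ 1 = 1)⟩
        neg_mem' := by
          rintro _ ⟨a, rfl⟩
          exact ⟨a⁻¹, hinv a a.2⟩ }
    have hU0 : ∀ v, v ∈ U0 ↔ ∃ m : ↥M, Psi f z (m : Q) = v := fun v => Iff.rfl
    have hL : ∀ u ∈ AddSubgroup.toZModSubmodule p U0, shiftL p u ∈ AddSubgroup.toZModSubmodule p U0 := by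
      intro u hu
      obtain ⟨m, rfl⟩ := (hU0 u).1 hu
      exact (hU0 _).2 ⟨⟨z⁻¹ * m * z, hF.conj m.2 (Subgroup.mem_top z)⟩, Psi_L hF hf m.2⟩
    have hu₀ : Psi f z y ∈ AddSubgroup.toZModSubmodule p U0 := (hU0 _).2 ⟨⟨y, hy⟩, rfl⟩
    have hs' : ∑ i, Psi f z y i ≠ 0 := by
      rw [sum_zmod_eq_range]
      intro h0
      apply hs
      rw [← h0]
      apply Finset.sum_congr rfl
      intro i _
      rw [Psi_nat hF hf hy]
    intro v
    obtain ⟨m, hm⟩ := (hU0 _).1 (shift_top _ hL hu₀ hs' v.toAdd)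
    exact ⟨m, hm⟩
  have hKΨ : (φ.ker).subgroupOf M ≤ Ψ.ker := by
    intro x hx
    have hx' : (x : Q) ∈ φ.ker := hx
    rw [MonoidHom.mem_ker]
    show Multiplicative.ofAdd (Psi f z (x : Q)) = 1
    have : Psi f z (x : Q) = 0 := by
      funext j
      have h1 := hker_mem _ hx' (z ^ j.val)
      have h2 := ((hTmem _).1 h1).2
      rw [Psi, gg, h2]
      rfl
    rw [this]
    rfl
  have hΨi : Ψ.ker.index = p ^ p := by
    rw [Subgroup.index_ker, MonoidHom.range_eq_top.2 hΨsurj, Nat.card_congr Subgroup.topEquiv.toEquiv,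
      Nat.card_congr Multiplicative.toAdd.symm.symm, Nat.card_fun]
    simp
  have hdvd : p ^ (p + 1) ∣ Nat.card φ.range := by
    rw [← Subgroup.index_ker, ← Subgroup.relIndex_mul_index hKM, hMi, pow_succ]
    apply Nat.mul_dvd_mul_right
    rw [← hΨi]
    exact Subgroup.index_dvd_of_le hKΨ
  have hRp : IsPGroup p φ.range := hQ.of_surjective φ.rangeRestrict φ.rangeRestrict_surjective
  obtain ⟨P, hP⟩ := exists_sylow_eq φ.range hRp hdvd
  refine ⟨P, φ.codRestrict (P : Subgroup (Equiv.Perm (Fin (p ^ 2)))) (fun x => by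
    rw [hP]
    exact ⟨x, rfl⟩), ?_⟩
  rintro ⟨w, hw⟩
  rw [hP] at hw
  obtain ⟨x, rfl⟩ := hw
  exact ⟨x, rfl⟩

/-- The main theorem: wreath quotient. -/
theorem wy2807 {G : Type*} [Group G] [Finite G] {S : Subgroup G} (hS : IsPGroup p S) (hpi : ¬ p ∣ S.index)
    (h : S ⊓ commutator G ≠ S ⊓ ⁅normalizer ((S : Subgroup G) : Set G), normalizer ((S : Subgroup G) : Set G)⁆) :
    ∃ (P : Sylow p (Equiv.Perm (Fin (p ^ 2)))) (F : ↥S →* ↥(P : Subgroup (Equiv.Perm (Fin (p ^ 2))))),
      Function.Surjective F := by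
  have hW : IsWeaklyClosed S S := ⟨le_rfl, fun g hg => by
    apply Subgroup.eq_of_le_of_card_ge hg
    rw [Subgroup.card_map_of_injective (MulAut.conj g).injective]⟩
  obtain ⟨M, H, z, f, y, hF, hf, hy, hne⟩ := exists_frame_bad hS hpi hW h
  have hHS : H = S := le_antisymm hF.hHP hF.hWH
  subst hHS
  have hz : z ∈ H := hF.zH
  have hyH : y ∈ H := hF.hMH hy
  have hFr : IsFrame p ⊤ ⊤ (M.subgroupOf H) ⊤ (⟨z, hz⟩ : ↥H) :=
    { hMH := le_top
      hHP := le_rfl
      hWH := le_rfl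
      hnorm := by
        intro q _
        rw [mem_normalizer_iff]
        intro t
        have h1 := mem_normalizer_iff.1 (hF.hnorm q.2) (t : G)
        exact h1
      hzW := trivial
      hzM := hF.hzM
      hcov := by
        rintro ⟨t, ht⟩ _
        obtain ⟨i, hi, m, hm, he⟩ := hF.hcov t ht
        have hmH : m ∈ H := hF.hMH hm
        exact ⟨i, hi, ⟨m, hmH⟩, hm, Subtype.ext he⟩
      hzp := hF.hzp }
  apply wreath (Q := ↥H) hS hFr (f := fun q => f (q : G)) (y := ⟨y, hyH⟩)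
    (fun a ha b hb => hf _ ha _ hb) hy
  intro h0
  apply hne
  rw [← h0]
  rfl

end Cfsg.Agent.Lib.LocalEven.Yoshida
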