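/-
Large primitive prime divisors (helper23).
-/
import Mathlib
import Cfsg.Agent.Lib.LocalEven.Zsig

set_option autoImplicit false
set_option linter.unusedVariables false
set_option maxRecDepth 100000

namespace Cfsg.Agent.Lib.LocalEven.Zsig2

open Polynomial Cfsg.Agent.Lib.LocalEven.Zsig
open scoped ArithmeticFunction.Moebius

/-- The normalised value of the cyclotomic polynomial at `2`. -/
noncomputable def FF (n : ℕ) : ℝ := (cyclotomic n ℝ).eval 2 / 2 ^ n.totient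

/-- The normalised value of `2 ^ n - 1`. -/
noncomputable def GG (n : ℕ) : ℝ := 1 - (1 / 2 : ℝ) ^ n

theorem FF_pos (n : ℕ) : 0 < FF n := by
  unfold FF
  have := cyclotomic_pos' n (R := ℝ) (x := 2) (by norm_num)
  positivity

theorem GG_pos {n : ℕ} (hn : 0 < n) : 0 < GG n := by
  unfold GG
  have : (1 / 2 : ℝ) ^ n < 1 := pow_lt_one₀ (by norm_num) (by norm_num) hn.ne'
  linarith

theorem GG_le (n : ℕ) : GG n ≤ 1 := by
  unfold GG
  have : (0 : ℝ) ≤ (1 / 2 : ℝ) ^ n := by positivity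
  linarith

theorem prod_FF (n : ℕ) (hn : 0 < n) : ∏ i ∈ n.divisors, FF i = GG n := by
  unfold FF GG
  rw [Finset.prod_div_distrib, ← eval_prod, prod_cyclotomic_eq_X_pow_sub_one hn, Finset.prod_pow_eq_pow_sum, Nat.sum_totient]
  simp
  field_simp

theorem FF_eq (n : ℕ) (hn : 0 < n) : ∏ x ∈ n.divisorsAntidiagonal, GG x.snd ^ μ x.fst = FF n := by
  refine (ArithmeticFunction.prod_eq_iff_prod_pow_moebius_eq_of_nonzero (f := FF) (g := GG)
    (fun n _ => (FF_pos n).ne') (fun n hn => (GG_pos hn).ne')).1 prod_FF n hn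

theorem prod_Icc_bound (n : ℕ) (hn : 1 ≤ n) :
    (1 / 4 : ℝ) * (1 + 2 * (1 / 2 : ℝ) ^ n) ≤ ∏ x ∈ Finset.Icc 1 n, GG x := by
  induction n, hn using Nat.le_induction with
  | base =>
    simp [GG]
    norm_num
  | succ n hn ih =>
    rw [Finset.prod_Icc_succ_top (by omega)]
    have h0 : 0 < GG (n + 1) := GG_pos (by omega)
    have h1 : (1 / 4 : ℝ) * (1 + 2 * (1 / 2 : ℝ) ^ n) * GG (n + 1) ≤ (∏ x ∈ Finset.Icc 1 n, GG x) * GG (n + 1) :=
      mul_le_mul_of_nonneg_right ih h0.le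
    refine le_trans ?_ h1
    unfold GG
    set t := (1 / 2 : ℝ) ^ n with ht
    have ht2 : t ≤ 1 / 2 := by
      calc t ≤ (1 / 2 : ℝ) ^ 1 := pow_le_pow_of_le_one (by norm_num) (by norm_num) hn
        _ = 1 / 2 := by norm_num
    have ht0 : 0 ≤ t := by positivity
    have e : (1 / 2 : ℝ) ^ (n + 1) = t / 2 := by
      rw [pow_succ]
      ring
    rw [e]
    nlinarith

/-- The lower bound at `2`. -/
theorem FF_lower (n : ℕ) (hn : 0 < n) : (1 / 4 : ℝ) ≤ FF n := by
  rw [← FF_eq n hn]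
  have h1 : ∏ x ∈ n.divisorsAntidiagonal, GG x.snd ≤ ∏ x ∈ n.divisorsAntidiagonal, GG x.snd ^ μ x.fst := by
    apply Finset.prod_le_prod
    · intro x hx
      have hx2 : 0 < x.snd := by
        have := Nat.mem_divisorsAntidiagonal.1 hx
        exact Nat.pos_of_ne_zero (fun h => this.2 (by rw [← this.1, h, mul_zero]))
      exact (GG_pos hx2).le
    · intro x hx
      have hx2 : 0 < x.snd := by
        have := Nat.mem_divisorsAntidiagonal.1 hx
        exact Nat.pos_of_ne_zero (fun h => this.2 (by rw [← this.1, h, mul_zero]))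
      have h0 := GG_pos hx2
      have h2 := GG_le x.snd
      have h3 := ArithmeticFunction.abs_moebius_le_one (n := x.fst)
      rw [abs_le] at h3
      have h4 : μ x.fst = -1 ∨ μ x.fst = 0 ∨ μ x.fst = 1 := by omega
      rcases h4 with h4 | h4 | h4 <;> rw [h4]
      · rw [zpow_neg_one]
        have : 1 ≤ (GG x.snd)⁻¹ := (one_le_inv₀ h0).2 h2
        linarith
      · simpa using h2
      · simp
  have h2 : ∏ x ∈ n.divisorsAntidiagonal, GG x.snd = ∏ i ∈ n.divisors, GG i :=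
    Nat.prod_divisorsAntidiagonal' (fun _ b => GG b)
  have hsub : n.divisors ⊆ Finset.Icc 1 n := by
    intro d hd
    have := Nat.mem_divisors.1 hd
    exact Finset.mem_Icc.2 ⟨Nat.pos_of_mem_divisors hd, Nat.le_of_dvd hn this.1⟩
  have h3 : ∏ x ∈ Finset.Icc 1 n, GG x ≤ ∏ i ∈ n.divisors, GG i := by
    rw [← Finset.prod_sdiff hsub]
    have h4 : ∏ x ∈ Finset.Icc 1 n \ n.divisors, GG x ≤ 1 := by
      apply Finset.prod_le_one
      · intro x hx
        have := (Finset.mem_Icc.1 (Finset.mem_sdiff.1 hx).1).1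
        exact (GG_pos (by omega)).le
      · intro x _
        exact GG_le x
    have h5 : 0 ≤ ∏ i ∈ n.divisors, GG i := by
      apply Finset.prod_nonneg
      intro x hx
      exact (GG_pos (Nat.pos_of_mem_divisors hx)).le
    nlinarith
  have h4 := prod_Icc_bound n hn
  have h5 : (1 / 4 : ℝ) ≤ (1 / 4 : ℝ) * (1 + 2 * (1 / 2 : ℝ) ^ n) := by
    have : (0 : ℝ) ≤ (1 / 2 : ℝ) ^ n := by positivity
    linarith
  linarith

/-- The lower bound at `2` for the integer value. -/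
theorem two_pow_le (n : ℕ) (hn : 0 < n) : 2 ^ n.totient ≤ 4 * ((cyclotomic n ℤ).eval ((2 : ℕ) : ℤ)).natAbs := by
  have h1 := FF_lower n hn
  have h2 : (cyclotomic n ℝ).eval 2 = (((cyclotomic n ℤ).eval ((2 : ℕ) : ℤ) : ℤ) : ℝ) := by
    have h3 := cyclotomic.eval_apply ((2 : ℕ) : ℤ) n (Int.castRingHom ℝ)
    simpa using h3
  have hpos : 0 < (cyclotomic n ℝ).eval 2 := cyclotomic_pos' n (by norm_num)
  rw [h2] at hpos
  have hpos' : 0 < (cyclotomic n ℤ).eval ((2 : ℕ) : ℤ) := by exact_mod_cast hpos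
  have e : (((cyclotomic n ℤ).eval ((2 : ℕ) : ℤ)).natAbs : ℤ) = (cyclotomic n ℤ).eval ((2 : ℕ) : ℤ) :=
    Int.natAbs_of_nonneg hpos'.le
  unfold FF at h1
  rw [h2, le_div_iff₀ (by positivity)] at h1
  have e' : (((cyclotomic n ℤ).eval ((2 : ℕ) : ℤ)).natAbs : ℝ) = (((cyclotomic n ℤ).eval ((2 : ℕ) : ℤ) : ℤ) : ℝ) := by
    have := congrArg (fun z : ℤ => (z : ℝ)) e
    simpa using this
  rw [← e'] at h1
  generalize ((cyclotomic n ℤ).eval ((2 : ℕ) : ℤ)).natAbs = N at h1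
  have h3 : ((2 ^ n.totient : ℕ) : ℝ) ≤ ((4 * N : ℕ) : ℝ) := by
    push_cast
    linarith
  exact_mod_cast h3

/-- A lower bound for the totient. -/
theorem totient_sq (n : ℕ) : n ≤ 2 * n.totient ^ 2 ∧ (n % 4 ≠ 2 → n ≤ n.totient ^ 2) := by
  induction n using Nat.recOnPosPrimePosCoprime with
  | prime_pow p k hp hk =>
    rw [Nat.totient_prime_pow hp hk]
    obtain ⟨k', rfl⟩ : ∃ k', k = k' + 1 := ⟨k - 1, by omega⟩
    simp only [Nat.add_sub_cancel]
    set t := p ^ k' with ht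
    have ht1 : 1 ≤ t := Nat.one_le_pow _ _ hp.pos
    have hp2 := hp.two_le
    have e : p ^ (k' + 1) = t * p := pow_succ _ _
    obtain ⟨c, rfl⟩ : ∃ c, p = c + 1 := ⟨p - 1, by omega⟩
    simp only [Nat.add_sub_cancel]
    have hc1 : 1 ≤ c := by omega
    rw [e]
    constructor
    · have h3 : (c + 1) ≤ 2 * (t * c ^ 2) := by nlinarith [Nat.mul_le_mul ht1 (Nat.pow_le_pow_left hc1 2)]
      calc t * (c + 1) ≤ t * (2 * (t * c ^ 2)) := Nat.mul_le_mul_left _ h3
        _ = 2 * (t * c) ^ 2 := by ring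
    · intro h4
      by_cases hc : c = 1
      · subst hc
        have ht2 : 2 ≤ t := by
          by_contra h5
          have h6 : t = 1 := by omega
          rw [h6] at h4
          omega
        calc t * (1 + 1) ≤ t * t := Nat.mul_le_mul_left _ ht2
          _ = (t * 1) ^ 2 := by ring
      · have hc2 : 2 ≤ c := by omega
        have h3 : (c + 1) ≤ t * c ^ 2 := by nlinarith [Nat.mul_le_mul ht1 (Nat.pow_le_pow_left hc2 2)]
        calc t * (c + 1) ≤ t * (t * c ^ 2) := Nat.mul_le_mul_left _ h3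
          _ = (t * c) ^ 2 := by ring
  | zero => simp
  | one => simp
  | coprime a b ha hb hab iha ihb =>
    rw [Nat.totient_mul hab, mul_pow]
    have hamod : a % 4 = 2 → b % 2 = 1 := by
      intro h
      have h2 : 2 ∣ a := by omega
      have h3 : ¬ 2 ∣ b := fun h4 => by
        have := Nat.dvd_gcd h2 h4
        rw [hab] at this
        omega
      omega
    have hbmod : b % 4 = 2 → a % 2 = 1 := by
      intro h
      have h2 : 2 ∣ b := by omega
      have h3 : ¬ 2 ∣ a := fun h4 => by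
        have := Nat.dvd_gcd h4 h2
        rw [hab] at this
        omega
      omega
    by_cases h1 : a % 4 = 2
    · have hb2 : b % 4 ≠ 2 := by
        have := hamod h1
        omega
      have h5 := ihb.2 hb2
      have h6 := iha.1
      constructor
      · calc a * b ≤ (2 * a.totient ^ 2) * b.totient ^ 2 := Nat.mul_le_mul h6 h5
          _ = _ := by ring
      · intro h7
        exfalso
        apply h7
        have h8 := hamod h1
        rw [Nat.mul_mod]
        have h9 : b % 4 = 1 ∨ b % 4 = 3 := by omega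
        rcases h9 with h9 | h9 <;> rw [h1, h9]
    · by_cases h2 : b % 4 = 2
      · have h5 := iha.2 h1
        have h6 := ihb.1
        constructor
        · calc a * b ≤ a.totient ^ 2 * (2 * b.totient ^ 2) := Nat.mul_le_mul h5 h6
            _ = _ := by ring
        · intro h7
          exfalso
          apply h7
          have h8 := hbmod h2
          rw [Nat.mul_mod]
          have h9 : a % 4 = 1 ∨ a % 4 = 3 := by omega
          rcases h9 with h9 | h9 <;> rw [h2, h9]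
      · have h5 := iha.2 h1
        have h6 := ihb.2 h2
        have h7 : a * b ≤ a.totient ^ 2 * b.totient ^ 2 := Nat.mul_le_mul h5 h6
        exact ⟨by omega, fun _ => h7⟩

theorem pow_bound (f : ℕ) (hf : 22 ≤ f) : 16 * f ^ 4 + 8 * f ^ 2 < 2 ^ f := by
  induction f, hf using Nat.le_induction with
  | base => norm_num
  | succ f hf ih =>
    rw [pow_succ 2 f]
    have h1 : 16 * (f + 1) ^ 4 + 8 * (f + 1) ^ 2 ≤ 2 * (16 * f ^ 4 + 8 * f ^ 2) := by
      have h2 : 22 ≤ f := hf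
      have h3 : f ^ 2 ≥ 484 := by nlinarith
      have h4 : f ^ 3 ≥ 484 * f := by nlinarith
      have h5 : f ^ 4 ≥ 484 * f ^ 2 := by nlinarith
      nlinarith
    omega

/-- The finite list of degrees. -/
theorem finite_list : ∀ n : Fin 883, (n : ℕ) % 2 = 0 → 3 ≤ (n : ℕ) → 2 ^ (n : ℕ).totient ≤ 4 * ((n : ℕ) * ((n : ℕ) + 1)) →
    ((n : ℕ) = 4 ∨ (n : ℕ) = 6 ∨ (n : ℕ) = 8 ∨ (n : ℕ) = 10 ∨ (n : ℕ) = 12 ∨ (n : ℕ) = 14 ∨ (n : ℕ) = 16 ∨ (n : ℕ) = 18 ∨ (n : ℕ) = 20 ∨ (n : ℕ) = 22 ∨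
      (n : ℕ) = 24 ∨ (n : ℕ) = 30 ∨ (n : ℕ) = 36 ∨ (n : ℕ) = 42) := by
  decide +kernel

theorem sq_sub (a : ℕ) (ha : 2 ≤ a) : a ^ 2 - 1 = (a - 1) * (a + 1) := by
  obtain ⟨c, rfl⟩ : ∃ c, a = c + 1 := ⟨a - 1, by omega⟩
  simp only [Nat.add_sub_cancel]
  have : (c + 1) ^ 2 = c * (c + 1 + 1) + 1 := by ring
  rw [this]
  simp

theorem not_dvd_sub {a r : ℕ} (ha : 2 ≤ a) (hr : r.Prime) (h : r ∣ a + 1) (hr2 : r ≠ 2) : ¬ r ∣ a ^ 1 - 1 := by
  rw [pow_one]
  intro h5
  have h6' : r ∣ (a + 1) - (a - 1) := Nat.dvd_sub h h5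
  have h7 : (a + 1) - (a - 1) = 2 := by omega
  rw [h7] at h6'
  exact hr2 ((Nat.prime_dvd_prime_iff_eq hr Nat.prime_two).1 h6')

theorem case_two (q : ℕ) (hq : 2 ≤ q) (h1 : ¬ ∃ s t : ℕ, t ≤ 1 ∧ q + 1 = 2 ^ s * 3 ^ t) :
    ∃ p : ℕ, p.Prime ∧ p ∣ q ^ 2 - 1 ∧ (∀ i : ℕ, 1 ≤ i → i < 2 → ¬ p ∣ q ^ i - 1) ∧ (2 + 1 < p ∨ p ^ 2 ∣ q ^ 2 - 1) := by
  obtain ⟨s, w, hw2, hs⟩ := Nat.exists_eq_pow_mul_and_not_dvd (n := q + 1) (by omega) 2 (by norm_num)
  have hw0 : w ≠ 0 := by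
    rintro rfl
    simp at hs
  obtain ⟨t, v, hv3, ht⟩ := Nat.exists_eq_pow_mul_and_not_dvd hw0 3 (by norm_num)
  have hord : ∀ p : ℕ, p.Prime → p ∣ q + 1 → p ≠ 2 → ∀ i : ℕ, 1 ≤ i → i < 2 → ¬ p ∣ q ^ i - 1 := by
    intro p hp hd h2 i hi1 hi2
    have : i = 1 := by omega
    subst this
    exact not_dvd_sub hq hp hd h2
  have hfac := sq_sub q hq
  by_cases hv : v = 1
  · subst hv
    have ht2 : 2 ≤ t := by
      by_contra h
      exact h1 ⟨s, t, by omega, by rw [hs, ht, mul_one]⟩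
    have h9 : 3 ^ 2 ∣ q + 1 := by
      rw [hs, ht, mul_one]
      exact Dvd.dvd.mul_left (pow_dvd_pow 3 ht2) _
    have h3 : 3 ∣ q + 1 := (Dvd.intro_left 3 (by norm_num : 3 * 3 = 3 ^ 2)).trans h9
    refine ⟨3, by norm_num, ?_, hord 3 (by norm_num) h3 (by norm_num), Or.inr ?_⟩
    · rw [hfac]
      exact Dvd.dvd.mul_left h3 _
    · rw [hfac]
      exact Dvd.dvd.mul_left h9 _
  · have hp := Nat.minFac_prime hv
    have hpv : v.minFac ∣ v := Nat.minFac_dvd v
    have hvw : v ∣ w := by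
      rw [ht]
      exact Dvd.intro_left _ rfl
    have hpq : v.minFac ∣ q + 1 := by
      rw [hs]
      exact Dvd.dvd.mul_left (hpv.trans hvw) _
    have hp2 : v.minFac ≠ 2 := by
      intro e
      rw [e] at hpv
      exact hw2 (hpv.trans hvw)
    have hp3 : v.minFac ≠ 3 := by
      intro e
      rw [e] at hpv
      exact hv3 hpv
    refine ⟨v.minFac, hp, ?_, hord _ hp hpq hp2, Or.inl ?_⟩
    · rw [hfac]
      exact Dvd.dvd.mul_left hpq _
    · have := hp.two_le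
      omega

theorem big_case {q n : ℕ} (hq : 2 ≤ q) (hn : 3 ≤ n) (h6 : ¬ (q = 2 ∧ n = 6))
    (hcon : ∀ p : ℕ, p.Prime → p ∣ q ^ n - 1 → (∀ i : ℕ, 1 ≤ i → i < n → ¬ p ∣ q ^ i - 1) →
      p ≤ n + 1 ∧ ¬ p ^ 2 ∣ q ^ n - 1) :
    (n + 1).Prime ∧ ((cyclotomic n ℤ).eval (q : ℤ)).natAbs ≤ n * (n + 1) := by
  set N := ((cyclotomic n ℤ).eval (q : ℤ)).natAbs with hN
  have hNdvd : N ∣ q ^ n - 1 := by
    have h1 : (cyclotomic n ℤ).eval (q : ℤ) ∣ (X ^ n - 1 : ℤ[X]).eval (q : ℤ) :=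
      eval_dvd (cyclotomic.dvd_X_pow_sub_one n ℤ)
    have h2 : (X ^ n - 1 : ℤ[X]).eval (q : ℤ) = ((q ^ n - 1 : ℕ) : ℤ) := by
      rw [Nat.cast_sub (Nat.one_le_pow _ _ (by omega))]
      simp
    rw [h2] at h1
    have h3 := Int.natAbs_dvd_natAbs.2 h1
    simpa using h3
  have good : ∀ r : ℕ, r.Prime → r ∣ N → ¬ r ∣ n → r = n + 1 ∧ ¬ r ^ 2 ∣ N := by
    intro r hr hrN hrn
    haveI : Fact r.Prime := ⟨hr⟩
    have hprim := primitive_of_dvd (a := q) (Int.natCast_dvd.2 hrN) hrn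
    have h1 : r ∣ q ^ n - 1 := hrN.trans hNdvd
    have h2 : ∀ i : ℕ, 1 ≤ i → i < n → ¬ r ∣ q ^ i - 1 := by
      intro k hk0 hk2 hd
      rw [← ZMod.natCast_eq_zero_iff, Nat.cast_sub (Nat.one_le_pow _ _ (by omega))] at hd
      push_cast at hd
      exact hprim.pow_ne_one_of_pos_of_lt (by omega) hk2 (sub_eq_zero.1 hd)
    obtain ⟨h3, h4⟩ := hcon r hr h1 h2
    have hq0 : (q : ZMod r) ≠ 0 := by
      intro e
      have h5 := hprim.pow_eq_one
      rw [e, zero_pow (by omega)] at h5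
      exact zero_ne_one h5
    have h5 : n ∣ r - 1 := by
      rw [hprim.eq_orderOf]
      exact ZMod.orderOf_dvd_card_sub_one hq0
    have h6 : n ≤ r - 1 := Nat.le_of_dvd (by have := hr.two_le; omega) h5
    exact ⟨by omega, fun h => h4 (h.trans hNdvd)⟩
  obtain ⟨r, hr, hrN, hrn⟩ := exists_good_prime (a := q) hq hn h6
  have hrN' : r ∣ N := Int.natCast_dvd.1 hrN
  obtain ⟨hr1, hr2⟩ := good r hr hrN' hrn
  subst hr1
  refine ⟨hr, ?_⟩
  obtain ⟨M, hM⟩ := hrN'
  have hrM : ∀ a : ℕ, a ∣ M → ¬ (n + 1) ∣ a := by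
    intro a ha h
    apply hr2
    rw [hM, pow_two]
    exact Nat.mul_dvd_mul_left _ (h.trans ha)
  by_cases hM1 : M = 1
  · rw [hM, hM1, mul_one]
    nlinarith
  have hbad : ∀ a : ℕ, a.Prime → a ∣ M → a ∣ n := by
    intro a ha hd
    by_contra hna
    have h1 : a ∣ N := by
      rw [hM]
      exact Dvd.dvd.mul_left hd _
    have h2 := (good a ha h1 hna).1
    rw [h2] at hd
    exact hrM _ hd dvd_rfl
  have hP := Nat.minFac_prime hM1
  set P := M.minFac with hPdef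
  have hPM : P ∣ M := Nat.minFac_dvd M
  have hPn := hbad P hP hPM
  obtain ⟨c, hc⟩ := hPM
  have hc1 : c = 1 := by
    by_contra hc1
    have hq' := Nat.minFac_prime hc1
    have hqM : c.minFac ∣ M := by
      rw [hc]
      exact Dvd.dvd.mul_left (Nat.minFac_dvd c) _
    have hqn := hbad _ hq' hqM
    have hPN : P ∣ N := by
      rw [hM, hc]
      exact Dvd.dvd.mul_left (Dvd.intro _ rfl) _
    have hqN : c.minFac ∣ N := by
      rw [hM]
      exact Dvd.dvd.mul_left hqM _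
    have huniq := bad_prime_unique (a := q) (by omega) hP hq' hPn hqn (Int.natCast_dvd.2 hPN) (Int.natCast_dvd.2 hqN)
    have hsq : P ^ 2 ∣ N := by
      rw [hM, hc, pow_two]
      apply Dvd.dvd.mul_left
      apply Nat.mul_dvd_mul_left
      rw [← huniq]
      exact Nat.minFac_dvd c
    obtain ⟨k, m, hm, hkm⟩ := Nat.exists_eq_pow_mul_and_not_dvd (by omega : n ≠ 0) P hP.ne_one
    have hk : 0 < k := by
      rcases Nat.eq_zero_or_pos k with rfl | h
      · rw [hkm, pow_zero, one_mul] at hPn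
        exact absurd hPn hm
      · exact h
    have hPN' : (P : ℤ) ∣ (cyclotomic (P ^ k * m) ℤ).eval (q : ℤ) := by
      rw [← hkm]
      exact Int.natCast_dvd.2 hPN
    apply sq_not_dvd hP hm hk (by omega) (by omega) hPN'
    rw [← hkm]
    have h7 := Int.natCast_dvd.2 hsq
    exact_mod_cast h7
  have hMP : M ≤ n := by
    rw [hc, hc1, mul_one]
    exact Nat.le_of_dvd (by omega) hPn
  rw [hM, mul_comm]
  exact Nat.mul_le_mul_right _ hMP

theorem two_pow_bound {q n : ℕ} (hq : 2 ≤ q) (hn : 3 ≤ n)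
    (hN : ((cyclotomic n ℤ).eval (q : ℤ)).natAbs ≤ n * (n + 1)) : 2 ^ n.totient ≤ 4 * (n * (n + 1)) := by
  rcases Nat.lt_or_ge q 3 with h3 | h3
  · have hq2 : q = 2 := by omega
    subst hq2
    exact (two_pow_le n (by omega)).trans (Nat.mul_le_mul_left _ hN)
  · have h1 := sub_one_pow_totient_lt_natAbs_cyclotomic_eval (n := n) (q := q) (by omega) (by omega)
    have h2 : 2 ^ n.totient ≤ (q - 1) ^ n.totient := Nat.pow_le_pow_left (by omega) _
    omega

theorem le_882 {n : ℕ} (h : 2 ^ n.totient ≤ 4 * (n * (n + 1))) : n ≤ 882 := by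
  by_contra h1
  have h2 := (totient_sq n).1
  set f := n.totient with hf
  have hf22 : 22 ≤ f := by
    by_contra h3
    have h4 : f ≤ 21 := by omega
    have h5 : f ^ 2 ≤ 21 ^ 2 := Nat.pow_le_pow_left h4 2
    omega
  have h5 := pow_bound f hf22
  have h6 : 4 * (n * (n + 1)) ≤ 4 * ((2 * f ^ 2) * (2 * f ^ 2 + 1)) :=
    Nat.mul_le_mul_left _ (Nat.mul_le_mul h2 (by omega))
  have h7 : 4 * ((2 * f ^ 2) * (2 * f ^ 2 + 1)) = 16 * f ^ 4 + 8 * f ^ 2 := by ring
  omega

theorem reduce_list {n : ℕ} (hn : 3 ≤ n) (hp : (n + 1).Prime) (h : 2 ^ n.totient ≤ 4 * (n * (n + 1))) :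
    n = 4 ∨ n = 6 ∨ n = 10 ∨ n = 12 ∨ n = 16 ∨ n = 18 ∨ n = 22 ∨ n = 30 ∨ n = 36 ∨ n = 42 := by
  have h1 := le_882 h
  have h2 : n % 2 = 0 := by
    rcases hp.eq_two_or_odd with h3 | h3 <;> omega
  have h3 := finite_list ⟨n, by omega⟩ h2 hn h
  simp only at h3
  rcases h3 with h3 | h3 | h3 | h3 | h3 | h3 | h3 | h3 | h3 | h3 | h3 | h3 | h3 | h3 <;> subst h3 <;> first
    | omega
    | (exfalso; revert hp; norm_num)

theorem exceptional {q n : ℕ} (hq : 2 ≤ q) (hn : 3 ≤ n)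
    (h2 : ¬ (q = 2 ∧ (n = 4 ∨ n = 6 ∨ n = 10 ∨ n = 12 ∨ n = 18)))
    (h3 : ¬ (q = 3 ∧ (n = 4 ∨ n = 6))) (h4 : ¬ (q = 5 ∧ n = 6))
    (hcon : ∀ p : ℕ, p.Prime → p ∣ q ^ n - 1 → (∀ i : ℕ, 1 ≤ i → i < n → ¬ p ∣ q ^ i - 1) →
      p ≤ n + 1 ∧ ¬ p ^ 2 ∣ q ^ n - 1) : False := by
  obtain ⟨hp, hN⟩ := big_case hq hn (fun h => h2 ⟨h.1, Or.inr (Or.inl h.2)⟩) hcon
  have hb := two_pow_bound hq hn hN
  have hlist := reduce_list hn hp hb
  have wit : ∀ p : ℕ, p.Prime → p ∣ q ^ n - 1 → (∀ i : ℕ, 1 ≤ i → i < n → ¬ p ∣ q ^ i - 1) → n + 1 < p → False := by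
    intro p hp1 hp2 hp3 hp4
    have := (hcon p hp1 hp2 hp3).1
    omega
  have hQ : ∀ Q : ℕ, 2 ≤ Q → n * (n + 1) ≤ Q ^ n.totient → q ≤ Q := by
    intro Q hQ2 hQ3
    by_contra hlt
    have h5 := sub_one_pow_totient_lt_natAbs_cyclotomic_eval (n := n) (q := q) (by omega) (by omega)
    have h6 : Q ^ n.totient ≤ (q - 1) ^ n.totient := Nat.pow_le_pow_left (by omega) _
    omega
  rcases hlist with rfl | rfl | rfl | rfl | rfl | rfl | rfl | rfl | rfl | rfl
  · -- n = 4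
    have h5 : q ≤ 5 := hQ 5 (by norm_num) (by decide +kernel)
    interval_cases q
    · exact h2 ⟨rfl, by norm_num⟩
    · exact h3 ⟨rfl, by norm_num⟩
    · exact wit 17 (by norm_num) (by norm_num) (by intro i h1 h2; interval_cases i <;> norm_num) (by norm_num)
    · exact wit 13 (by norm_num) (by norm_num) (by intro i h1 h2; interval_cases i <;> norm_num) (by norm_num)
  · -- n = 6
    have h5 : q ≤ 7 := hQ 7 (by norm_num) (by decide +kernel)
    interval_cases q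
    · exact h2 ⟨rfl, by norm_num⟩
    · exact h3 ⟨rfl, by norm_num⟩
    · exact wit 13 (by norm_num) (by norm_num) (by intro i h1 h2; interval_cases i <;> norm_num) (by norm_num)
    · exact h4 ⟨rfl, rfl⟩
    · exact wit 31 (by norm_num) (by norm_num) (by intro i h1 h2; interval_cases i <;> norm_num) (by norm_num)
    · exact wit 43 (by norm_num) (by norm_num) (by intro i h1 h2; interval_cases i <;> norm_num) (by norm_num)
  · -- n = 10
    have h5 : q ≤ 4 := hQ 4 (by norm_num) (by decide +kernel)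
    interval_cases q
    · exact h2 ⟨rfl, by norm_num⟩
    · exact wit 61 (by norm_num) (by norm_num) (by intro i h1 h2; interval_cases i <;> norm_num) (by norm_num)
    · exact wit 41 (by norm_num) (by norm_num) (by intro i h1 h2; interval_cases i <;> norm_num) (by norm_num)
  · -- n = 12
    have h5 : q ≤ 4 := hQ 4 (by norm_num) (by decide +kernel)
    interval_cases q
    · exact h2 ⟨rfl, by norm_num⟩
    · exact wit 73 (by norm_num) (by norm_num) (by intro i h1 h2; interval_cases i <;> norm_num) (by norm_num)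
    · exact wit 241 (by norm_num) (by norm_num) (by intro i h1 h2; interval_cases i <;> norm_num) (by norm_num)
  · -- n = 16
    have h5 : q ≤ 3 := hQ 3 (by norm_num) (by decide +kernel)
    interval_cases q
    · exact wit 257 (by norm_num) (by norm_num) (by intro i h1 h2; interval_cases i <;> norm_num) (by norm_num)
    · exact wit 193 (by norm_num) (by norm_num) (by intro i h1 h2; interval_cases i <;> norm_num) (by norm_num)
  · -- n = 18
    have h5 : q ≤ 3 := hQ 3 (by norm_num) (by decide +kernel)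
    interval_cases q
    · exact h2 ⟨rfl, by norm_num⟩
    · exact wit 37 (by norm_num) (by norm_num) (by intro i h1 h2; interval_cases i <;> norm_num) (by norm_num)
  · -- n = 22
    have h5 : q ≤ 2 := hQ 2 (by norm_num) (by decide +kernel)
    interval_cases q
    exact wit 683 (by norm_num) (by norm_num) (by intro i h1 h2; interval_cases i <;> norm_num) (by norm_num)
  · -- n = 30
    have h5 : q ≤ 3 := hQ 3 (by norm_num) (by decide +kernel)
    interval_cases q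
    · exact wit 331 (by norm_num) (by norm_num) (by intro i h1 h2; interval_cases i <;> norm_num) (by norm_num)
    · exact wit 271 (by norm_num) (by norm_num) (by intro i h1 h2; interval_cases i <;> norm_num) (by norm_num)
  · -- n = 36
    have h5 : q ≤ 2 := hQ 2 (by norm_num) (by decide +kernel)
    interval_cases q
    exact wit 109 (by norm_num) (by norm_num) (by intro i h1 h2; interval_cases i <;> norm_num) (by norm_num)
  · -- n = 42
    have h5 : q ≤ 2 := hQ 2 (by norm_num) (by decide +kernel)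
    interval_cases q
    exact wit 5419 (by norm_num) (by norm_num) (by intro i h1 h2; interval_cases i <;> norm_num) (by norm_num)

theorem main_S3430 (q n : ℕ) (hq : 2 ≤ q) (hn : 2 ≤ n)
    (h1 : ¬ (n = 2 ∧ ∃ s t : ℕ, t ≤ 1 ∧ q + 1 = 2 ^ s * 3 ^ t))
    (h2 : ¬ (q = 2 ∧ (n = 4 ∨ n = 6 ∨ n = 10 ∨ n = 12 ∨ n = 18)))
    (h3 : ¬ (q = 3 ∧ (n = 4 ∨ n = 6))) (h4 : ¬ (q = 5 ∧ n = 6)) :
    ∃ p : ℕ, p.Prime ∧ p ∣ q ^ n - 1 ∧ (∀ i : ℕ, 1 ≤ i → i < n → ¬ p ∣ q ^ i - 1) ∧ (n + 1 < p ∨ p ^ 2 ∣ q ^ n - 1) := by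
  rcases Nat.lt_or_ge n 3 with hn3 | hn3
  · have hn2 : n = 2 := by omega
    subst hn2
    exact case_two q hq (fun h => h1 ⟨rfl, h⟩)
  · by_contra hcon
    push Not at hcon
    apply exceptional hq hn3 h2 h3 h4
    intro p hp hd hord
    obtain ⟨h5, h6⟩ := hcon p hp hd hord
    exact ⟨h5, h6⟩

end Cfsg.Agent.Lib.LocalEven.Zsig2
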